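import Mathlib
import Cfsg.Agent.H03.LX1

/-!
An involution acting on a large extraspecial subgroup (namespace `H03.CW`): `Rho`, `Big`, `IW`, `uniq`, `lift`.
-/

set_option autoImplicit false
set_option linter.unusedSectionVars false

namespace H03.CW
open Cfsg BG H04 Subgroup
open scoped commutatorElement

variable {G : Type*} [Group G] [Finite G] {Q R W : Subgroup G} {z t c g q u n x y : G}

/-- `c` acts on the centraliser of `u` like the Siegel transformation of `u`, `y` -/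
def Rho (Q : Subgroup G) (z c u y : G) : Prop :=
  c ∈ C_[z] ∧ ∀ v ∈ Q, Commute v u → (Commute v y → ⁅c, v⁆ ∈ zpowers z) ∧ (¬ Commute v y → ⁅c, v⁆ * u ∈ zpowers z)

structure Big (Q : Subgroup G) (z : G) : Prop where
  es : ES Q z
  card : Nat.card Q = 512
  wc : ∀ s ∈ Q, IsConj z s → s = z
  rho : ∀ u ∈ Q, u * u = 1 → ∀ y ∈ Q, Commute u y → ∃ c, Rho Q z c u y

/-- the commutator space of `t` -/
structure IW (Q : Subgroup G) (z t : G) (W : Subgroup G) : Prop where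
  es : ES Q z
  tz : t ∈ C_[z]
  t2 : t * t = 1
  mem : ∀ w, w ∈ W ↔ ∃ q ∈ Q, ∃ u ∈ zpowers z, w = ⁅t, q⁆ * u

theorem cz (hx : x ∈ C_[z]) (hu : u ∈ zpowers z) : Commute x u := by
  obtain ⟨i, rfl⟩ := mem_zpowers_iff.1 hu
  exact Commute.zpow_right (mem_cent1.1 hx) i

theorem cjz (hx : x ∈ C_[z]) (hu : u ∈ zpowers z) : x * u * x⁻¹ = u := by rw [(cz hx hu).eq, mul_inv_cancel_right]

theorem cmem (h : ES Q z) (hc : c ∈ C_[z]) (hq : q ∈ Q) : ⁅c, q⁆ ∈ Q :=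
  Q.mul_mem (conj_mem_of_norm (h.norm hc) hq) (Q.inv_mem hq)

theorem perp (h : ES Q z) (hc : c ∈ C_[z]) (hx : x ∈ Q) (hy : y ∈ Q) : Commute x ⁅c, y⁆ ↔ Commute ⁅c⁻¹, x⁆ y := by
  have := aes_perp h.aes (h.norm hc) hc hx hy
  rw [← commutatorElement_eq_one_iff_commute, ← commutatorElement_eq_one_iff_commute, commutatorElement_def c,
    commutatorElement_def c⁻¹, inv_inv, this]

theorem four (h : ES Q z) (hu : u ∈ Q) (h2 : u * u = 1) (hx : x ∈ zpowers u ⊔ zpowers z) : x ∈ zpowers z ∨ x * u ∈ zpowers z := by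
  have : Fact (Nat.Prime 2) := ⟨Nat.prime_two⟩
  rw [sup_comm, zpowers_eq_closure, zpowers_eq_closure, ← Subgroup.closure_union] at hx
  rcases mem_four h.aes.mul_self h2 (mem_cent1.1 (aes_le h.aes hu)) hx with rfl | rfl | rfl | rfl
  · exact .inl (one_mem _)
  · exact .inl (mem_zpowers _)
  · exact .inr (h2 ▸ one_mem _)
  · exact .inr (by rw [mul_assoc, h2, mul_one]; exact mem_zpowers _)

theorem uniq (h : ES Q z) (hc : c ∈ C_[z]) (hu : u ∈ Q) (h2 : u * u = 1)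
    (h1 : ∀ v ∈ Q, Commute v u → ⁅c, v⁆ ∈ zpowers z) : c ∈ Q := by
  have : Fact (Nat.Prime 2) := ⟨Nat.prime_two⟩
  have a := h.aes
  refine h.inner hc fun q hq => ?_
  change ⁅c, q⁆ ∈ _
  by_cases e : Commute q u
  · exact h1 q hq e
  have hr := cmem h hc hq
  refine (four h hu h2 (h.cent_cent1 hu h2 (mem_cent.2 fun v hv => ((perp h hc hv.1 hq).2 ?_).eq))).resolve_right fun k => ?_
  · rw [show ⁅c⁻¹, v⁆ = c⁻¹ * ⁅c, v⁆⁻¹ * c⁻¹⁻¹ by simp only [commutatorElement_def]; group,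
      cjz (inv_mem hc) (inv_mem (h1 v hv.1 (mem_cent1.1 hv.2)))]
    exact (a.commute (inv_mem (h1 v hv.1 (mem_cent1.1 hv.2))) hq).symm
  · have nc : ¬ Commute ⁅c, q⁆ q := fun d => e (by
      have := d.inv_left.mul_left (a.commute k hq).symm
      rw [inv_mul_cancel_left] at this
      exact this.symm)
    have s := a.mul_sq hr hq nc
    have s1 : ⁅c, q⁆ ^ 2 = 1 := by
      have cu : Commute (⁅c, q⁆ * u) u := (a.commute k hu).symm
      have : ⁅c, q⁆ = ⁅c, q⁆ * u * u := by rw [mul_assoc, h2, mul_one]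
      rw [this, cu.mul_pow, a.pow_eq_one k, pow_two, h2, one_mul]
    rw [s1, one_mul, show ⁅c, q⁆ * q = c * q * c⁻¹ by simp [commutatorElement_def], conj_pow, cjz hc (a.pow q hq)] at s
    exact a.ne_one (left_eq_mul.1 s)

theorem exists_W (h : ES Q z) (ht : t ∈ C_[z]) (t2 : t * t = 1) : ∃ W, IW Q z t W := by
  have a := h.aes
  refine ⟨{ carrier := {w | ∃ q ∈ Q, ∃ u ∈ zpowers z, w = ⁅t, q⁆ * u}
            one_mem' := ⟨1, one_mem _, 1, one_mem _, by simp⟩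
            mul_mem' := ?_
            inv_mem' := ?_ }, h, ht, t2, fun _ => Iff.rfl⟩
  · rintro _ _ ⟨q1, h1, u1, k1, rfl⟩ ⟨q2, h2, u2, k2, rfl⟩
    have c2 := cmem h ht h2
    refine ⟨q1 * q2, mul_mem h1 h2, ⁅q1, ⁅t, q2⁆⁻¹⁆ * u1 * u2, mul_mem (mul_mem (a.comm _ h1 _ (inv_mem c2)) k1) k2, ?_⟩
    have := (a.commute k1 c2).eq
    calc ⁅t, q1⁆ * u1 * (⁅t, q2⁆ * u2) = ⁅t, q1⁆ * (⁅t, q2⁆ * u1) * u2 := by rw [this]; group
      _ = _ := by simp only [commutatorElement_def]; group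
  · rintro _ ⟨q, h1, u, k, rfl⟩
    refine ⟨q, h1, u * ((⁅t, q⁆ * u) ^ 2)⁻¹, mul_mem k (inv_mem (a.pow _ (mul_mem (cmem h ht h1) (a.zpowers_le k).1))), ?_⟩
    generalize ⁅t, q⁆ = w
    group

namespace IW
variable (h : IW Q z t W)
include h

theorem ti : t⁻¹ = t := inv_eq_of_mul_eq_one_right h.t2

theorem tt (x : G) : t * (t * x) = x := by rw [← mul_assoc, h.t2, one_mul]

theorem le : W ≤ Q := fun w hw => by
  obtain ⟨q, h1, u, k, rfl⟩ := (h.mem w).1 hw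
  exact mul_mem (cmem h.es h.tz h1) (h.es.aes.zpowers_le k).1

theorem zle : zpowers z ≤ W := fun u hu => (h.mem u).2 ⟨1, one_mem _, u, hu, by simp⟩

theorem cm (hq : q ∈ Q) : ⁅t, q⁆ ∈ W := (h.mem _).2 ⟨q, hq, 1, one_mem _, by simp⟩

theorem mem0 (hq : q ∈ Q) : q ∈ C_(W) ↔ ⁅t, q⁆ ∈ zpowers z := by
  have a := h.es.aes
  refine ⟨fun k => h.es.cent (mem_cent.2 fun y hy => ?_), fun k => mem_cent.2 fun w hw => ?_⟩
  · have := (perp h.es h.tz hq hy).1 (mem_cent.1 k _ (h.cm hy)).symm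
    rw [h.ti] at this
    exact this.symm.eq
  · obtain ⟨y, h1, u, k1, rfl⟩ := (h.mem w).1 hw
    exact (((perp h.es h.tz hq h1).2 (by rw [h.ti]; exact (a.commute k h1).symm)).mul_right (a.commute k1 hq)).symm.eq

theorem dc (hx : x ∈ Q) (k : ∀ q ∈ Q, ⁅t, q⁆ ∈ zpowers z → Commute q x) : x ∈ W := by
  have : Fact (Nat.Prime 2) := ⟨Nat.prime_two⟩
  have := aes_dc h.es.aes h.le ⟨hx, mem_cent.2 fun q hq => (k q hq.1 ((h.mem0 hq.1).1 hq.2)).eq⟩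
  rwa [h.es.zc, sup_eq_left.2 h.zle] at this

theorem inv {w : G} (hw : w ∈ W) : t * w * t⁻¹ = w⁻¹ := by
  have : Fact (Nat.Prime 2) := ⟨Nat.prime_two⟩
  obtain ⟨q, h1, u, k, rfl⟩ := (h.mem w).1 hw
  have e : u⁻¹ = u := inv_eq_of_mul_eq_one_right (by rw [← pow_two]; exact h.es.aes.pow_eq_one k)
  have e2 : t * ⁅t, q⁆ * t⁻¹ = ⁅t, q⁆⁻¹ := by
    rw [commutatorElement_def, ← mul_assoc, ← mul_assoc, ← mul_assoc, h.t2]
    conv_rhs => rw [mul_inv_rev, mul_inv_rev, mul_inv_rev, inv_inv, inv_inv]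
    nth_rw 3 [← h.ti]
    group
  rw [show t * (⁅t, q⁆ * u) * t⁻¹ = t * ⁅t, q⁆ * t⁻¹ * (t * u * t⁻¹) by group, e2, cjz h.tz k, mul_inv_rev, e,
    (h.es.aes.commute k (inv_mem (cmem h.es h.tz h1))).eq]

theorem w0 {w : G} (hw : w ∈ W) : ⁅t, w⁆ ∈ zpowers z := by
  rw [commutatorElement_def, h.inv hw, ← pow_two]
  exact h.es.aes.pow _ (inv_mem (h.le hw))

theorem card0 (hc : Nat.card Q = 512) : Nat.card W * Nat.card ↥(Q ⊓ C_(W)) = 1024 := by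
  have : Fact (Nat.Prime 2) := ⟨Nat.prime_two⟩
  rw [aes_card h.es.aes h.le (h.es.zc.le.trans h.zle), h.es.zc, h.es.card_z, hc]

theorem le0 : W ≤ Q ⊓ C_(W) := fun _ hw => ⟨h.le hw, (h.mem0 (h.le hw)).2 (h.w0 hw)⟩

theorem card32 (hc : Nat.card Q = 512) : 32 ≤ Nat.card ↥(Q ⊓ C_(W)) := by
  have h1 := h.card0 hc
  have h2 := card_le_of_le h.le0
  by_contra! k
  nlinarith

theorem conj {w : G} (hw : w ∈ W) : ∃ q ∈ Q, w * t = q * t * q⁻¹ ∨ w * t = q * (t * z) * q⁻¹ := by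
  have : Fact (Nat.Prime 2) := ⟨Nat.prime_two⟩
  obtain ⟨q, h1, u, k, rfl⟩ := (h.mem w).1 hw
  have e : ⁅t, q⁆ * t = t * q * t⁻¹ * t * (t * q * t⁻¹)⁻¹ := by
    simp only [commutatorElement_def, mul_inv_rev, inv_inv, h.ti, mul_assoc, h.tt]
  have hq := conj_mem_of_norm (h.es.norm h.tz) h1
  refine ⟨_, hq, ?_⟩
  rcases h.es.aes.eq_or k with rfl | rfl
  · exact .inl (by rw [mul_one, e])
  · refine .inr ?_
    rw [mul_assoc, ← mem_cent1.1 h.tz, ← mul_assoc, e, mul_assoc _ _ u, mem_cent1.1 (aes_le h.es.aes (inv_mem hq))]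
    group

theorem tz_conj (e : ⁅t, q⁆ = z) : t * z = q * t * q⁻¹ := by
  rw [← e, commutatorElement_def, ← mul_assoc, ← mul_assoc, ← mul_assoc, h.t2, one_mul, h.ti]

theorem conj' (hq : q ∈ Q) (e : ⁅t, q⁆ = z) {w : G} (hw : w ∈ W) : ∃ q ∈ Q, w * t = q * t * q⁻¹ := by
  obtain ⟨p, hp, k | k⟩ := h.conj hw
  · exact ⟨p, hp, k⟩
  · exact ⟨p * q, mul_mem hp hq, by rw [k, h.tz_conj e]; group⟩

theorem card_le : Nat.card ↥(Q ⊓ C_(W)) ≤ 2 * Nat.card ↥(Q ⊓ C_[t]) := by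
  have : Fact (Nat.Prime 2) := ⟨Nat.prime_two⟩
  by_cases e : ∃ q ∈ Q, ⁅t, q⁆ = z
  · obtain ⟨q, hq, e⟩ := e
    have : ((Q ⊓ C_(W) : Subgroup G) : Set G) ⊆ (Q ⊓ C_[t] : Subgroup G) ∪ (· * q⁻¹) '' (Q ⊓ C_[t] : Subgroup G) := fun v hv => by
      rcases h.es.aes.eq_or ((h.mem0 hv.1).1 hv.2) with k | k
      · exact .inl ⟨hv.1, mem_cent1.2 (commutatorElement_eq_one_iff_mul_comm.1 k).symm⟩
      · refine .inr ⟨v * q, ⟨mul_mem hv.1 hq, mem_cent1.2 (commutatorElement_eq_one_iff_mul_comm.1 ?_).symm⟩, by simp⟩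
        rw [show ⁅t, v * q⁆ = ⁅t, v⁆ * (v * ⁅t, q⁆ * v⁻¹) by simp only [commutatorElement_def]; group, k, e,
          cjz (aes_le h.es.aes hv.1) (mem_zpowers z), h.es.aes.mul_self]
    have := (Set.ncard_le_ncard this).trans (Set.ncard_union_le _ _)
    rw [Set.ncard_image_of_injective _ (mul_left_injective _), ncard_coe_subgroup, ncard_coe_subgroup] at this
    omega
  · have : Q ⊓ C_(W) ≤ Q ⊓ C_[t] := fun v hv => ⟨hv.1, mem_cent1.2 (commutatorElement_eq_one_iff_mul_comm.1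
      ((h.es.aes.eq_or ((h.mem0 hv.1).1 hv.2)).resolve_right fun k => e ⟨v, hv.1, k⟩)).symm⟩
    have := card_le_of_le this
    omega

theorem lift (hb : Big Q z) (hD : IsConj t (t * z) → ∃ q ∈ Q, ⁅t, q⁆ = z) (hu : u ∈ W) (u2 : u * u = 1) (hn : n ∈ Q)
    (hc : Commute u n) (h1 : ⁅t, n⁆ ∈ zpowers z ∨ ⁅t, n⁆ * u ∈ zpowers z) : ∃ g ∈ C_[t], Rho Q z g u n := by
  have : Fact (Nat.Prime 2) := ⟨Nat.prime_two⟩
  have a := h.es.aes
  have uQ := h.le hu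
  have ui : u⁻¹ = u := inv_eq_of_mul_eq_one_right u2
  have tu : Commute t u := mul_inv_eq_iff_eq_mul.1 ((h.inv hu).trans ui)
  obtain ⟨c, hc1, hc2⟩ := hb.rho u uQ u2 n hn hc
  have key : ∀ {d x : G}, x ∈ C_[z] → Commute x u → d ∈ zpowers z ∨ d * u ∈ zpowers z → Commute x d := fun hx e k => by
    rcases k with k | k
    · exact cz hx k
    · simpa using (cz hx k).mul_right e.inv_right
  have rz : ⁅c⁻¹, t⁆ ∈ C_[z] := mul_mem (mul_mem (mul_mem (inv_mem hc1) h.tz) (inv_mem (inv_mem hc1))) (inv_mem h.tz)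
  have rQ : ⁅c⁻¹, t⁆ ∈ Q := uniq h.es rz uQ u2 fun v hv e => by
    have h0 := conj_mem_of_norm' (h.es.norm h.tz) hv
    have e0 : Commute (t⁻¹ * v * t) u := (tu.inv_left.mul_left e).mul_left tu
    have e1 : Commute (t⁻¹ * v * t) n ↔ Commute v n := by
      have k := key (aes_le a hv) e h1
      have : Commute (t⁻¹ * v * t) n ↔ Commute v (⁅t, n⁆ * n) :=
        ⟨fun d => by simpa [mul_assoc, commutatorElement_def] using d.conj t,
          fun d => by simpa [mul_assoc, commutatorElement_def] using d.conj t⁻¹⟩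
      rw [this]
      exact ⟨fun d => by have := k.inv_right.mul_right d; rwa [inv_mul_cancel_left] at this, k.mul_right⟩
    rw [show ⁅⁅c⁻¹, t⁆, v⁆ = c⁻¹ * (t * ⁅c, t⁻¹ * v * t⁆ * t⁻¹ * ⁅c, v⁆⁻¹) * c⁻¹⁻¹ by simp only [commutatorElement_def]; group]
    suffices k : t * ⁅c, t⁻¹ * v * t⁆ * t⁻¹ * ⁅c, v⁆⁻¹ ∈ zpowers z by rw [cjz (inv_mem hc1) k]; exact k
    by_cases d : Commute v n
    · have k := (hc2 _ h0 e0).1 (e1.2 d)
      rw [cjz h.tz k]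
      exact mul_mem k (inv_mem ((hc2 v hv e).1 d))
    · have k := (hc2 _ h0 e0).2 (mt e1.1 d)
      rw [(key h.tz tu (.inr k)).eq, mul_inv_cancel_right]
      simpa [mul_assoc] using mul_mem k (inv_mem ((hc2 v hv e).2 d))
  have rW : ⁅c⁻¹, t⁆ ∈ W := h.dc rQ fun q hq k => by
    have e : Commute q u := (mem_cent.1 ((h.mem0 hq).2 k) u hu).symm
    have d : Commute t ⁅c, q⁆ := key h.tz tu ((em _).imp (hc2 q hq e).1 (hc2 q hq e).2)
    have e1 : ⁅⁅c⁻¹, t⁆ * t, q⁆ = c⁻¹ * ((t * ⁅c, q⁆ * t⁻¹) * ⁅t, q⁆ * ⁅c, q⁆⁻¹) * c⁻¹⁻¹ := by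
      simp only [commutatorElement_def]; group
    have e2 : ⁅⁅c⁻¹, t⁆ * t, q⁆ = ⁅c⁻¹, t⁆ * ⁅t, q⁆ * ⁅c⁻¹, t⁆⁻¹ * ⁅⁅c⁻¹, t⁆, q⁆ := by
      simp only [commutatorElement_def]; group
    rw [e2, d.eq, mul_inv_cancel_right, cjz (aes_le a (cmem h.es hc1 hq)) k, cjz (inv_mem hc1) k, cjz rz k, mul_eq_left] at e1
    exact (commutatorElement_eq_one_iff_commute.1 e1).symm
  have e3 : ⁅c⁻¹, t⁆ * t = c⁻¹ * t * c := by simp [commutatorElement_def]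
  obtain ⟨p, hp, e⟩ : ∃ p ∈ Q, ⁅c⁻¹, t⁆ * t = p * t * p⁻¹ := by
    obtain ⟨p, hp, e | e⟩ := h.conj rW
    · exact ⟨p, hp, e⟩
    · obtain ⟨q, hq, k⟩ := hD (isConj_iff.2 ⟨p⁻¹ * c⁻¹, by
        rw [show p⁻¹ * c⁻¹ * t * (p⁻¹ * c⁻¹)⁻¹ = p⁻¹ * (c⁻¹ * t * c) * p by group, ← e3, e]; group⟩)
      exact h.conj' hq k rW
  refine ⟨c * p, mem_cent1.2 ?_, mul_mem hc1 (aes_le a hp), fun v hv k => ?_⟩
  · rw [e3] at e
    calc c * p * t = c * (p * t * p⁻¹) * p := by group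
      _ = _ := by rw [← e]; group
  · have e4 : ⁅c * p, v⁆ = ⁅p, v⁆ * ⁅c, v⁆ := by
      rw [← cjz hc1 (a.comm p hp v hv)]; simp only [commutatorElement_def]; group
    rw [e4, mul_assoc]
    exact ⟨fun d => mul_mem (a.comm p hp v hv) ((hc2 v hv k).1 d), fun d => mul_mem (a.comm p hp v hv) ((hc2 v hv k).2 d)⟩

end IW

end H03.CW
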