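import Mathlib
import Cfsg.Agent.H03.CW1

/-!
Commuting pairs of weakly closed involutions (namespace `H03.CW`): `Pr`, `Pr.inf_eq`.
-/

set_option autoImplicit false
set_option linter.unusedSectionVars false

namespace H03.CW
open Cfsg BG H04 Subgroup
open scoped commutatorElement

variable {G : Type*} [Group G] [Finite G] {Q R W E : Subgroup G} {z t a b c e g q u n x y : G}

theorem cjm {K : Subgroup G} (hg : g ∈ K) (ha : a ∈ K) : g * a * g⁻¹ ∈ K := K.mul_mem (K.mul_mem hg ha) (K.inv_mem hg)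

theorem cmm {K : Subgroup G} (hg : g ∈ K) (ha : a ∈ K) : ⁅g, a⁆ ∈ K := K.mul_mem (cjm hg ha) (K.inv_mem ha)

theorem cc (h1 : Commute a (b * c)) (h2 : Commute a c) : Commute a b := by
  have := h1.mul_right h2.inv_right
  rwa [mul_inv_cancel_right] at this

structure Pr (Q R : Subgroup G) (z t : G) : Prop where
  hq : Big Q z
  hr : Big R t
  cj : IsConj z t
  cm : Commute z t
  ne : z ≠ t

namespace Pr
variable (h : Pr Q R z t)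
include h

theorem symm : Pr R Q t z := ⟨h.hr, h.hq, h.cj.symm, h.cm.symm, h.ne.symm⟩

theorem tz : t ∈ C_[z] := mem_cent1.2 h.cm.symm.eq

theorem tQ : t ∉ Q := fun k => h.ne (h.hq.wc t k h.cj).symm

theorem exW : ∃ W, IW Q z t W := exists_W h.hq.es h.tz h.hr.es.aes.mul_self

theorem zR (hu : u ∈ zpowers z) (k : u ∈ R) : u = 1 :=
  (h.hq.es.aes.eq_or hu).resolve_right fun e => h.symm.tQ (e ▸ k)

theorem one (he : e ∈ R) (k : IsConj t (e * t)) : e = 1 :=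
  mul_eq_right.1 (h.hr.wc _ (mul_mem he h.hr.es.aes.mem) k)

theorem c1 (hn : n ∈ Q) (k : ⁅t, n⁆ ∈ R) : ⁅t, n⁆ = 1 := by
  obtain ⟨W, w⟩ := h.exW
  refine h.one k (isConj_iff.2 ⟨t * n, ?_⟩)
  simp only [commutatorElement_def, mul_inv_rev, w.ti, mul_assoc]

theorem centE (hb : b ∈ Q ⊓ C_[t]) (he : e ∈ Q ⊓ R) : Commute b e :=
  commutatorElement_eq_one_iff_commute.1 (h.zR (h.hq.es.aes.comm _ hb.1 _ he.1) (cmem h.hr.es hb.2 he.2))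

theorem commAB (ha : a ∈ R ⊓ C_[z]) (hb : b ∈ Q ⊓ C_[t]) : ⁅a, b⁆ ∈ Q ⊓ R :=
  ⟨cmem h.hq.es ha.2 hb.1, commutatorElement_inv b a ▸ R.inv_mem (cmem h.hr.es hb.2 ha.1)⟩

theorem EB (he : e ∈ Q ⊓ R) : e ∈ Q ⊓ C_[t] := ⟨he.1, aes_le h.hr.es.aes he.2⟩

theorem phi0 (hx : x ∈ Q ⊓ R) (x1 : x ≠ 1) (hq : q ∈ Q) : ⁅t, q⁆ ≠ z := fun e => by
  have : Fact (Nat.Prime 2) := ⟨Nat.prime_two⟩
  have a := h.hq.es.aes
  obtain ⟨W, w⟩ := h.exW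
  have WR : ∀ v ∈ W, v ∈ R → v = 1 := fun v hv k => by
    obtain ⟨p, -, d⟩ := w.conj' hq e hv
    exact h.one k (isConj_iff.2 ⟨p, d.symm⟩)
  obtain ⟨n, hn, n0, nx⟩ : ∃ n ∈ Q, ⁅t, n⁆ ∈ zpowers z ∧ ¬ Commute n x := by
    by_contra! k
    exact x1 (WR x (w.dc hx.1 k) hx.2)
  have inB : ∀ {v}, v ∈ Q → ⁅t, v⁆ = 1 → Commute v x := fun hv k =>
    h.centE ⟨hv, mem_cent1.2 (commutatorElement_eq_one_iff_mul_comm.1 k).symm⟩ hx
  have n1 : ⁅t, n⁆ = z := (a.eq_or n0).resolve_left fun k => nx (inB hn k)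
  obtain ⟨p, hp, k⟩ : ∃ p ∈ Q, ⁅t, p⁆ ∉ zpowers z := by
    by_contra! k
    exact h.tQ (h.hq.es.inner h.tz k)
  have uW := w.cm hp
  generalize ⁅t, p⁆ = u at k uW
  have x0 : x ∈ C_(W) := (w.mem0 hx.1).2 (by
    rw [commutatorElement_eq_one_iff_mul_comm.2 (mem_cent1.1 (h.EB hx).2).symm]; exact one_mem _)
  have ux : Commute u x := mem_cent.1 x0 u uW
  have tu : ⁅t, u⁆ = 1 := (a.eq_or (w.w0 uW)).resolve_right fun d => nx (by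
    have := inB (mul_mem hn (w.le uW)) (by
      rw [show ⁅t, n * u⁆ = ⁅t, n⁆ * (n * ⁅t, u⁆ * n⁻¹) by simp only [commutatorElement_def]; group, n1, d,
        cjz (aes_le a hn) (mem_zpowers z), a.mul_self])
    simpa using this.mul_left ux.inv_left)
  have u2 : u * u = 1 := by
    rw [commutatorElement_def, w.inv uW, ← mul_inv_rev, inv_eq_one] at tu
    exact tu
  obtain ⟨g, gt, gz, hg⟩ := w.lift h.hq (fun _ => ⟨q, hq, e⟩) uW u2 hn (mem_cent.1 ((w.mem0 hn).2 n0) u uW) (.inl n0)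
  have d := (hg x hx.1 ux.symm).2 fun c => nx c.symm
  rw [WR ⁅g, x⁆ (by simpa using mul_mem (w.zle d) (inv_mem uW)) (cmem h.hr.es gt hx.2), one_mul] at d
  exact k d

theorem nconj (hx : x ∈ Q ⊓ R) (x1 : x ≠ 1) : ¬ IsConj t (t * z) := fun k => by
  obtain ⟨W, w⟩ := h.exW
  obtain ⟨p, -, d | d⟩ := w.conj (w.dc hx.1 fun q hq e => h.centE ⟨hq, mem_cent1.2 (commutatorElement_eq_one_iff_mul_comm.1
    ((h.hq.es.aes.eq_or e).resolve_right (h.phi0 hx x1 hq))).symm⟩ hx)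
  · exact x1 (h.one hx.2 (isConj_iff.2 ⟨p, d.symm⟩))
  · exact x1 (h.one hx.2 (k.trans (isConj_iff.2 ⟨p, d.symm⟩)))

theorem cB (hx : x ∈ Q ⊓ R) (x1 : x ≠ 1) (hn : n ∈ Q) : ⁅t, n⁆ ∈ Q ⊓ C_[t] ∧ ⁅t, n⁆ * ⁅t, n⁆ = 1 := by
  obtain ⟨W, w⟩ := h.exW
  have uW := w.cm hn
  have tu := (h.hq.es.aes.eq_or (w.w0 uW)).resolve_right (h.phi0 hx x1 (w.le uW))
  refine ⟨⟨w.le uW, mem_cent1.2 (commutatorElement_eq_one_iff_mul_comm.1 tu).symm⟩, ?_⟩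
  rw [commutatorElement_def t ⁅t, n⁆, w.inv uW, ← mul_inv_rev, inv_eq_one] at tu
  exact tu

/-- the transvection attached to `n` -/
theorem gen (hx : x ∈ Q ⊓ R) (x1 : x ≠ 1) (hn : n ∈ Q) (n1 : ⁅t, n⁆ ≠ 1) : ∃ g ∈ C_[z] ⊓ C_[t],
    (∀ e ∈ Q ⊓ R, (Commute e n → g * e * g⁻¹ = e) ∧ (¬ Commute e n → g * e * g⁻¹ = ⁅t, n⁆ * z * e)) ∧
      ∀ b ∈ Q ⊓ C_[t], ⁅g, b⁆ ∈ zpowers z ∨ ⁅g, b⁆ * ⁅t, n⁆ ∈ zpowers z := by
  have a := h.hq.es.aes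
  obtain ⟨W, w⟩ := h.exW
  have uW := w.cm hn
  obtain ⟨uB, u2⟩ := h.cB hx x1 hn
  have un : Commute ⁅t, n⁆ n := by
    by_contra c
    have s := a.mul_sq uB.1 hn c
    rw [show ⁅t, n⁆ * n = t * n * t⁻¹ by simp [commutatorElement_def], conj_pow, cjz h.tz (a.pow n hn), pow_two ⁅t, n⁆, u2,
      one_mul] at s
    have : Fact (Nat.Prime 2) := ⟨Nat.prime_two⟩
    exact a.ne_one (left_eq_mul.1 s)
  obtain ⟨g, gt, gz, hg⟩ := w.lift h.hq (fun k => absurd k (h.nconj hx x1)) uW u2 hn un (.inr (u2 ▸ one_mem _))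
  have bu : ∀ b ∈ Q ⊓ C_[t], Commute b ⁅t, n⁆ := fun b hb => (mem_cent.1 ((w.mem0 hb.1).2 (by
    rw [commutatorElement_eq_one_iff_mul_comm.2 (mem_cent1.1 hb.2).symm]; exact one_mem _)) _ uW).symm
  refine ⟨g, ⟨gz, gt⟩, fun e he => ?_, fun b hb => (em _).imp (hg b hb.1 (bu b hb)).1 (hg b hb.1 (bu b hb)).2⟩
  have k := hg e he.1 (bu e (h.EB he))
  have eR := cmem h.hr.es gt he.2
  refine ⟨fun c => mul_inv_eq_one.1 (h.zR (k.1 c) eR), fun c => ?_⟩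
  rcases a.eq_or (k.2 c) with d | d
  · rw [mul_eq_one_iff_eq_inv.1 d] at eR
    exact absurd (h.c1 hn (by simpa using inv_mem eR)) n1
  · rw [← mul_inv_eq_iff_eq_mul, mem_cent1.1 (aes_le a uB.1), ← d, mul_assoc _ ⁅t, n⁆, u2, mul_one, commutatorElement_def]

theorem full (hE : E ≤ Q ⊓ R) (hi : ∀ g ∈ C_[z] ⊓ C_[t], ∀ e ∈ E, g * e * g⁻¹ ∈ E) (hx : x ∈ E) (x1 : x ≠ 1) (hn : n ∈ Q)
    (n1 : ⁅t, n⁆ ≠ 1) : ⁅t, n⁆ * z ∈ E := by
  have : Fact (Nat.Prime 2) := ⟨Nat.prime_two⟩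
  have a := h.hq.es.aes
  have k : ∀ n ∈ Q, ¬ Commute x n → ⁅t, n⁆ * z ∈ E := fun n hn c => by
    obtain ⟨g, hg, d, -⟩ := h.gen (hE hx) x1 hn fun e =>
      c (h.centE ⟨hn, mem_cent1.2 (commutatorElement_eq_one_iff_mul_comm.1 e).symm⟩ (hE hx)).symm
    have := hi g hg x hx
    rw [(d x (hE hx)).2 c] at this
    exact (E.mul_mem_cancel_right hx).1 this
  by_cases c : Commute x n
  · obtain ⟨m, hm, e⟩ := a.exists_comm_eq (hE hx).1 fun d => x1 (h.zR (h.hq.es.cent d) (hE hx).2)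
    have c1 := a.not_commute e
    have h1 := k _ (mul_mem hn hm) fun d => c1 (by simpa using c.inv_right.mul_right d)
    have h2 := mul_mem h1 (inv_mem (k m hm c1))
    rw [show ⁅t, n * m⁆ * z * (⁅t, m⁆ * z)⁻¹ = ⁅t, n⁆ * ⁅n, ⁅t, m⁆⁆ by simp only [commutatorElement_def]; group] at h2
    rcases a.eq_or (a.comm _ hn _ (cmem h.hq.es h.tz hm)) with d | d <;> rw [d] at h2
    · exact absurd (h.c1 hn (by simpa using (hE h2).2)) n1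
    · exact h2
  · exact k n hn c

theorem invE : ∀ g ∈ C_[z] ⊓ C_[t], ∀ e ∈ Q ⊓ R, g * e * g⁻¹ ∈ Q ⊓ R := fun _ hg _ he =>
  ⟨conj_mem_of_norm (h.hq.es.norm hg.1) he.1, conj_mem_of_norm (h.hr.es.norm hg.2) he.2⟩

theorem notc (hE : E ≤ Q ⊓ R) (hi : ∀ g ∈ C_[z] ⊓ C_[t], ∀ e ∈ E, g * e * g⁻¹ ∈ E) (hx : x ∈ E) (x1 : x ≠ 1) (hn : n ∈ Q)
    (n1 : ⁅t, n⁆ ≠ 1) : ∃ e ∈ E, ¬ Commute e n := by
  by_contra! k
  have a := h.hq.es.aes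
  obtain ⟨W, w⟩ := h.exW
  refine n1 ((a.eq_or ((w.mem0 hn).1 (mem_cent.2 fun v hv => ?_))).resolve_right (h.phi0 (hE hx) x1 hn))
  obtain ⟨q, hq, u, hu, rfl⟩ := (w.mem v).1 hv
  refine Commute.eq (Commute.mul_left ?_ (a.commute hu hn).symm)
  by_cases e : ⁅t, q⁆ = 1
  · rw [e]; exact Commute.one_left n
  · simpa using (k _ (h.full hE hi hx x1 hq e)).mul_left (a.commute (mem_zpowers z) hn).symm.inv_left

theorem exn : ∃ n ∈ Q, ⁅t, n⁆ ≠ 1 := by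
  by_contra! k
  exact h.tQ (h.hq.es.inner h.tz fun q hq => show ⁅t, q⁆ ∈ _ from (k q hq).symm ▸ one_mem _)

theorem eW (hx : x ∈ Q ⊓ R) (x1 : x ≠ 1) : ∃ n ∈ Q, ⁅t, n⁆ ≠ 1 ∧ x = ⁅t, n⁆ * z := by
  obtain ⟨W, w⟩ := h.exW
  obtain ⟨n, hn, u, hu, e⟩ := (w.mem x).1 (w.dc hx.1 fun q hq e => h.centE ⟨hq, mem_cent1.2
    (commutatorElement_eq_one_iff_mul_comm.1 ((h.hq.es.aes.eq_or e).resolve_right (h.phi0 hx x1 hq))).symm⟩ hx)
  rcases h.hq.es.aes.eq_or hu with d | d <;> rw [d] at e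
  · rw [mul_one] at e
    exact absurd (e.trans (h.c1 hn (e ▸ hx.2))) x1
  · refine ⟨n, hn, fun k => ?_, e⟩
    rw [k, one_mul] at e
    exact h.symm.tQ (e ▸ hx.2)

theorem big (hx : x ∈ Q ⊓ R) (x1 : x ≠ 1) : 128 ≤ Nat.card ↥(Q ⊓ C_[t]) := by
  have : Fact (Nat.Prime 2) := ⟨Nat.prime_two⟩
  have a := h.hq.es.aes
  obtain ⟨n, hn, n1, rfl⟩ := h.eW hx x1
  have c := aes_card a (A := zpowers (⁅t, n⁆ * z) ⊔ zpowers z) (sup_le (zpowers_le.2 hx.1) (zpowers_le.2 a.mem))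
    (h.hq.es.zc.le.trans le_sup_right)
  have c4 : Nat.card ↥(zpowers (⁅t, n⁆ * z) ⊔ zpowers z) ≤ 4 := by
    have x2 : ⁅t, n⁆ * z * (⁅t, n⁆ * z) = 1 := h.zR (pow_two (⁅t, n⁆ * z) ▸ a.pow _ hx.1) (mul_mem hx.2 hx.2)
    rw [← ncard_coe_subgroup]
    refine (Set.ncard_le_ncard (t := {1, z, ⁅t, n⁆ * z, z * (⁅t, n⁆ * z)}) fun v hv => ?_).trans ?_
    · rw [sup_comm, zpowers_eq_closure, zpowers_eq_closure, ← Subgroup.closure_union] at hv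
      simpa using mem_four a.mul_self x2 (mem_cent1.1 (aes_le a hx.1)) hv
    · exact (Set.ncard_insert_le _ _).trans (Nat.succ_le_succ ((Set.ncard_insert_le _ _).trans
        (Nat.succ_le_succ ((Set.ncard_insert_le _ _).trans (by simp)))))
  rw [h.hq.es.zc, h.hq.es.card_z, h.hq.card] at c
  have : ((Q ⊓ C_(zpowers (⁅t, n⁆ * z) ⊔ zpowers z) : Subgroup G) : Set G) ⊆
      (Q ⊓ C_[t] : Subgroup G) ∪ (· * n⁻¹) '' (Q ⊓ C_[t] : Subgroup G) := fun v hv => by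
    by_cases k : ⁅t, v⁆ = 1
    · exact .inl ⟨hv.1, mem_cent1.2 (commutatorElement_eq_one_iff_mul_comm.1 k).symm⟩
    refine .inr ⟨v * n, ⟨mul_mem hv.1 hn, mem_cent1.2 (commutatorElement_eq_one_iff_mul_comm.1 ?_).symm⟩, by simp⟩
    by_contra k2
    have h1 := h.full le_rfl h.invE hx x1 hv.1 k
    have h2 := h.full le_rfl h.invE hx x1 (mul_mem hv.1 hn) k2
    rw [show ⁅t, v * n⁆ * z = ⁅t, v⁆ * (v * (⁅t, n⁆ * z) * v⁻¹) * (v * z⁻¹ * v⁻¹) * z by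
      simp only [commutatorElement_def]; group, ← mem_cent.1 hv.2 _ (mem_sup_left (mem_zpowers _)), mul_inv_cancel_right,
      cjz (aes_le a hv.1) (inv_mem (mem_zpowers z)), inv_mul_cancel_right] at h2
    have := mul_mem (inv_mem ((Q ⊓ R).mul_mem_cancel_right hx |>.1 h2)) h1
    rw [inv_mul_cancel_left] at this
    exact h.symm.tQ this.2
  have := (Set.ncard_le_ncard this).trans (Set.ncard_union_le _ _)
  rw [Set.ncard_image_of_injective _ (mul_left_injective _), ncard_coe_subgroup, ncard_coe_subgroup] at this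
  by_contra! k
  nlinarith

theorem inf_eq (hx : x ∈ Q ⊓ R) : x = 1 := by
  by_contra x1
  have : Fact (Nat.Prime 2) := ⟨Nat.prime_two⟩
  have a := h.hq.es.aes
  have hx' : x ∈ R ⊓ Q := ⟨hx.2, hx.1⟩
  by_cases hAB : ∀ a ∈ R ⊓ C_[z], ∀ b ∈ Q ⊓ C_[t], Commute a b
  · have cm : ∀ a1 ∈ R ⊓ C_[z], ∀ a2 ∈ R ⊓ C_[z], ∀ q ∈ Q, Commute a1 ⁅a2, q⁆ := fun a1 h1 a2 h2 q hq => by
      obtain ⟨W, w⟩ := h.exW
      have k : ⁅a2, q⁆ ∈ W := w.dc (cmem h.hq.es h2.2 hq) fun v hv e => (perp h.hq.es h2.2 hv hq).2 (by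
        rw [commutatorElement_eq_one_iff_commute.2 (hAB _ (inv_mem h2) v ⟨hv, mem_cent1.2 (commutatorElement_eq_one_iff_mul_comm.1
          ((a.eq_or e).resolve_right (h.phi0 hx x1 hv))).symm⟩)]
        exact Commute.one_left q)
      exact hAB a1 h1 _ ⟨w.le k, mem_cent1.2 (commutatorElement_eq_one_iff_mul_comm.1
        ((a.eq_or (w.w0 k)).resolve_right (h.phi0 hx x1 (w.le k)))).symm⟩
    have ab : IsMulCommutative ↥(R ⊓ C_[z]) := ⟨⟨fun a1 a2 => Subtype.ext (commutatorElement_eq_one_iff_mul_comm.1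
      (h.symm.zR (h.hr.es.aes.comm _ a1.2.1 _ a2.2.1) (h.hq.es.inner (mul_mem (mul_mem (mul_mem a1.2.2 a2.2.2)
        (inv_mem a1.2.2)) (inv_mem a2.2.2)) fun q hq => ?_)))⟩⟩
    · have h1 := h.hr.es.aes.card_sq_le inf_le_left ab
      have h2 := h.symm.big hx' x1
      rw [h.hr.es.zc, h.hr.es.card_z, h.hr.card] at h1
      nlinarith
    · obtain ⟨a1, h1⟩ := a1
      obtain ⟨a2, h2⟩ := a2
      have hp := conj_mem_of_norm' (h.hq.es.norm (mul_mem h2.2 h1.2)) hq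
      generalize hv : (a2 * a1)⁻¹ * q * (a2 * a1) = v at hp
      obtain rfl : q = a2 * a1 * v * (a2 * a1)⁻¹ := by rw [← hv]; group
      have e1 : a1 * a2 * v * (a1 * a2)⁻¹ = ⁅a2, v⁆ * ⁅a1, v⁆ * v := by
        rw [← mul_inv_eq_iff_eq_mul.2 (cm a1 h1 a2 h2 v hp).eq]; simp only [commutatorElement_def]; group
      have e2 : a2 * a1 * v * (a2 * a1)⁻¹ = ⁅a1, v⁆ * ⁅a2, v⁆ * v := by
        rw [← mul_inv_eq_iff_eq_mul.2 (cm a2 h2 a1 h1 v hp).eq]; simp only [commutatorElement_def]; group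
      have := a.comm _ (cmem h.hq.es h2.2 hp) _ (cmem h.hq.es h1.2 hp)
      convert this using 1
      change ⁅a1, a2⁆ * _ * ⁅a1, a2⁆⁻¹ * _ = _
      rw [show ⁅a1, a2⁆ * (a2 * a1 * v * (a2 * a1)⁻¹) * ⁅a1, a2⁆⁻¹ = a1 * a2 * v * (a1 * a2)⁻¹ by
        simp only [commutatorElement_def]; group, e1, e2]
      simp only [commutatorElement_def ⁅a2, v⁆]; group
  push Not at hAB
  obtain ⟨a0, ha0, b0, hb0, c0⟩ := hAB
  let E := ⁅R ⊓ C_[z], Q ⊓ C_[t]⁆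
  have hE : E ≤ Q ⊓ R := commutator_le.2 fun _ ha _ hb => h.commAB ha hb
  have hi : ∀ g ∈ C_[z] ⊓ C_[t], ∀ e ∈ E, g * e * g⁻¹ ∈ E := fun g hg e he => by
    refine (commutator_le (H₃ := E.comap (MulAut.conj g).toMonoidHom)).2 (fun a ha b hb => ?_) he
    change MulAut.conj g ⁅a, b⁆ ∈ E
    rw [map_commutatorElement]
    exact commutator_mem_commutator ⟨conj_mem_of_norm (h.hr.es.norm hg.2) ha.1, cjm (K := C_[z]) hg.1 ha.2⟩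
      ⟨conj_mem_of_norm (h.hq.es.norm hg.1) hb.1, cjm (K := C_[t]) hg.2 hb.2⟩
  have y0 : ⁅a0, b0⁆ ∈ E := commutator_mem_commutator ha0 hb0
  have y1 := mt commutatorElement_eq_one_iff_commute.1 c0
  obtain ⟨p, hp, p1⟩ := h.symm.exn
  obtain ⟨e0, he0, k0⟩ := h.symm.notc le_rfl h.symm.invE hx' x1 hp p1
  obtain ⟨n, hn, n1, rfl⟩ := h.eW ⟨he0.2, he0.1⟩ fun d => k0 (d ▸ Commute.one_left p)
  obtain ⟨e, he, k1⟩ := h.notc hE hi y0 y1 hn n1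
  obtain ⟨g, hg, g1, g2⟩ := h.gen hx x1 hn n1
  obtain ⟨f, hf, f1, f2⟩ := h.symm.gen hx' x1 hp p1
  have p0 := h.symm.full le_rfl h.symm.invE hx' x1 hp p1
  have gb : ∀ a ∈ R ⊓ C_[z], ∀ b ∈ Q ⊓ C_[t], ⁅a, g * b * g⁻¹⁆ = ⁅a, b⁆ := fun a ha b hb => by
    have cu : Commute a ⁅t, n⁆ := by simpa using (h.symm.centE ha he0).mul_right (cz ha.2 (mem_zpowers z)).inv_right
    have c : Commute a ⁅g, b⁆ := (g2 b hb).elim (cz ha.2) fun d => cc (cz ha.2 d) cu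
    have c' : Commute ⁅a, b⁆ ⁅g, b⁆ := (h.centE ⟨cmem h.hq.es hg.1 hb.1, cmm (K := C_[t]) hg.2 hb.2⟩
      (h.commAB ha hb)).symm
    rw [show ⁅a, g * b * g⁻¹⁆ = a * ⁅g, b⁆ * a⁻¹ * (⁅a, b⁆ * ⁅g, b⁆⁻¹) by simp only [commutatorElement_def]; group, c.eq,
      c'.inv_right.eq]
    group
  have fa : ∀ a ∈ R ⊓ C_[z], ∀ b ∈ Q ⊓ C_[t], ⁅f * a * f⁻¹, b⁆ = ⁅a, b⁆ := fun a ha b hb => by
    have cu : Commute b ⁅z, p⁆ := by simpa using (h.centE hb ⟨p0.2, p0.1⟩).mul_right (cz hb.2 (mem_zpowers t)).inv_right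
    have c : Commute b ⁅f, a⁆ := (f2 a ha).elim (cz hb.2) fun d => cc (cz hb.2 d) cu
    have c' : Commute ⁅f, a⁆ ⁅a, b⁆ := h.symm.centE ⟨cmem h.hr.es hf.1 ha.1, cmm (K := C_[z]) hf.2 ha.2⟩
      ⟨(h.commAB ha hb).2, (h.commAB ha hb).1⟩
    rw [show ⁅f * a * f⁻¹, b⁆ = ⁅f, a⁆ * ⁅a, b⁆ * (b * ⁅f, a⁆⁻¹ * b⁻¹) by simp only [commutatorElement_def]; group, c'.eq,
      c.inv_right.eq]
    group
  have gf : E ≤ C_[(g * f)⁻¹ * (f * g)] := commutator_le.2 fun a ha b hb => mem_cent1.2 (by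
    have ga : g * a * g⁻¹ ∈ R ⊓ C_[z] := ⟨conj_mem_of_norm (h.hr.es.norm hg.2) ha.1, cjm (K := C_[z]) hg.1 ha.2⟩
    have fb : f * b * f⁻¹ ∈ Q ⊓ C_[t] := ⟨conj_mem_of_norm (h.hq.es.norm hf.2) hb.1, cjm (K := C_[t]) hf.1 hb.2⟩
    have e1 : g * f * ⁅a, b⁆ * (g * f)⁻¹ = ⁅g * a * g⁻¹, f * b * f⁻¹⁆ := by
      rw [← gb _ ga _ fb, show ⁅g * a * g⁻¹, g * (f * b * f⁻¹) * g⁻¹⁆ = g * ⁅a, f * b * f⁻¹⁆ * g⁻¹ by
        simp only [commutatorElement_def]; group, ← fa a ha _ fb]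
      simp only [commutatorElement_def]; group
    have e2 : f * g * ⁅a, b⁆ * (f * g)⁻¹ = ⁅g * a * g⁻¹, f * b * f⁻¹⁆ := by
      rw [← fa _ ga _ fb, show ⁅f * (g * a * g⁻¹) * f⁻¹, f * b * f⁻¹⁆ = f * ⁅g * a * g⁻¹, b⁆ * f⁻¹ by
        simp only [commutatorElement_def]; group, ← gb _ ga b hb]
      simp only [commutatorElement_def]; group
    calc ⁅a, b⁆ * ((g * f)⁻¹ * (f * g)) = (g * f)⁻¹ * (g * f * ⁅a, b⁆ * (g * f)⁻¹) * (f * g) := by group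
      _ = _ := by rw [e1, ← e2]; group)
  have e3 := mem_cent1.1 (gf he)
  have e4 : f * (g * e * g⁻¹) * f⁻¹ = g * (f * e * f⁻¹) * g⁻¹ := by
    calc f * (g * e * g⁻¹) * f⁻¹ = g * f * ((g * f)⁻¹ * (f * g) * e) * (f * g)⁻¹ := by group
      _ = _ := by rw [← e3]; group
  have fe := h.invE f ⟨hf.2, hf.1⟩ e (hE he)
  rw [(g1 e (hE he)).2 k1, show f * (⁅t, n⁆ * z * e) * f⁻¹ = f * (⁅t, n⁆ * z) * f⁻¹ * (f * e * f⁻¹) by group,
    (f1 _ he0).2 k0] at e4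
  by_cases c : Commute (f * e * f⁻¹) n
  · rw [(g1 _ fe).1 c, mul_eq_right, ← (f1 _ he0).2 k0, mul_inv_eq_one, mul_eq_left] at e4
    exact k0 (e4 ▸ Commute.one_left p)
  · rw [(g1 _ fe).2 c, mul_left_inj, mul_eq_right] at e4
    exact h.symm.phi0 hx' x1 hp (by rw [mul_eq_one_iff_eq_inv.1 e4]; exact inv_eq_of_mul_eq_one_right h.hr.es.aes.mul_self)

end Pr

end H03.CW
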