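import Mathlib
import Cfsg.Agent.H03.CW2
import Cfsg.Agent.H08.IsoElt
import Cfsg.Agent.H01.Coprime2

/-!
A weakly closed large extraspecial subgroup of order 512 with Siegel transformations gives an isolated involution
(namespace `H03.CW`): `Big.cj`, `Pr.false`, `Big.isolated`.
-/

set_option autoImplicit false
set_option linter.unusedSectionVars false

namespace H03.CW
open Cfsg BG H04 Subgroup
open scoped commutatorElement

variable {G : Type*} [Group G] [Finite G] {Q R W : Subgroup G} {z t a b g q n : G}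

theorem Big.cj (h : Big Q z) (g : G) : Big (cj g Q) (g * z * g⁻¹) := by
  have cm : ∀ x y : G, Commute (g * x * g⁻¹) (g * y * g⁻¹) ↔ Commute x y := fun x y =>
    ⟨fun c => by simpa [mul_assoc] using c.conj g⁻¹, fun c => c.conj g⟩
  have zp : ∀ x ∈ zpowers z, g * x * g⁻¹ ∈ zpowers (g * z * g⁻¹) := fun x hx => by
    obtain ⟨i, rfl⟩ := mem_zpowers_iff.1 hx
    exact ⟨i, conj_zpow⟩
  refine ⟨h.es.cj g, (card_cj g Q).trans h.card, fun s hs k => ?_, fun u hu u2 y hy c => ?_⟩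
  · obtain ⟨s, h1, rfl⟩ := mem_cj'.1 hs
    rw [h.wc s h1 (((isConj_iff.2 ⟨g, rfl⟩).trans k).trans (isConj_iff.2 ⟨g, rfl⟩).symm)]
  · obtain ⟨u, h1, rfl⟩ := mem_cj'.1 hu
    obtain ⟨y, h2, rfl⟩ := mem_cj'.1 hy
    obtain ⟨c, c1, c2⟩ := h.rho u h1 (by simpa using u2) y h2 ((cm _ _).1 c)
    refine ⟨g * c * g⁻¹, mem_cent1.2 ((cm _ _).2 (mem_cent1.1 c1)), fun v hv k => ?_⟩
    obtain ⟨v, h3, rfl⟩ := mem_cj'.1 hv
    have e : ⁅g * c * g⁻¹, g * v * g⁻¹⁆ = g * ⁅c, v⁆ * g⁻¹ := by simp only [commutatorElement_def]; group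
    rw [e, cm, conj_mul]
    exact ⟨fun d => zp _ ((c2 v h3 ((cm _ _).1 k)).1 d), fun d => zp _ ((c2 v h3 ((cm _ _).1 k)).2 d)⟩

theorem IW.exq (h : IW Q z t W) (hc : Nat.card Q = 512) (k : Nat.card ↥(Q ⊓ C_[t]) < 32) : ∃ q ∈ Q, ⁅t, q⁆ = z := by
  by_contra e
  have : Q ⊓ C_(W) ≤ Q ⊓ C_[t] := fun v hv => ⟨hv.1, mem_cent1.2 (commutatorElement_eq_one_iff_mul_comm.1
    ((h.es.aes.eq_or ((h.mem0 hv.1).1 hv.2)).resolve_right fun k => e ⟨v, hv.1, k⟩)).symm⟩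
  have := (h.card32 hc).trans (card_le_of_le this)
  omega

namespace Pr
variable (h : Pr Q R z t)
include h

theorem zs (ha : a ∈ R) (a1 : a ≠ 1) (hq : q ∈ Q) (c : Commute q a) : q ∈ C_[t] := by
  have : Fact (Nat.Prime 2) := ⟨Nat.prime_two⟩
  have r := h.hr.es.aes
  rcases r.eq_or (r.pow a ha) with e | e
  · have k := H08.zstar_in (L := C_[a]) (x := t) (mem_cent1_comm.1 (aes_le r ha)) (r.isPGroup.to_le (zpowers_le.2 r.mem))
      (fun l hl d => by_contra fun ne => a1 (Pr.inf_eq ⟨h.hr, h.hr.cj l, isConj_iff.2 ⟨l, rfl⟩, d, Ne.symm ne⟩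
        ⟨ha, by simpa [mem_cent1.1 hl] using conj_mem_cj l ha⟩)) (mem_cent1.2 c.eq)
    have k2 : ⁅q, t⁆ ∈ Q := commutatorElement_inv t q ▸ Q.inv_mem (cmem h.hq.es h.tz hq)
    have := H26.eq_bot_of_isPGroup_of_not_dvd (h.hq.es.aes.isPGroup.to_le (inf_le_left (b := H02.pPrimeCoreOf 2 C_[a])))
      inf_le_right ((Nat.prime_two.coprime_iff_not_dvd).1 (H02.pPrimeCoreOf_coprime _).symm)
    exact mem_cent1.2 (commutatorElement_eq_one_iff_mul_comm.1 (mem_bot.1 (this ▸ (⟨k2, k⟩ : _ ∈ Q ⊓ _))))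
  · exact mem_cent1.2 (e ▸ (c.pow_right 2).eq)

theorem cAB (ha : a ∈ R ⊓ C_[z]) (hb : b ∈ Q ⊓ C_[t]) : ⁅a, b⁆ = 1 := h.inf_eq (h.commAB ha hb)

theorem mU (ha : a ∈ R ⊓ C_[z]) (hn : n ∈ Q) : ⁅a, n⁆ ∈ Q ⊓ C_(Q ⊓ C_[t]) :=
  ⟨cmem h.hq.es ha.2 hn, mem_cent.2 fun b hb => ((perp h.hq.es ha.2 hb.1 hn).2 (by
    rw [h.cAB (inv_mem ha) hb]; exact Commute.one_left n)).eq⟩

theorem inj (hn : n ∈ Q) (n1 : n ∉ C_[t]) : Set.InjOn (⁅·, n⁆) ((R ⊓ C_[z] : Subgroup G) : Set G) := fun a ha b hb e => by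
  by_contra ne
  refine n1 (h.zs (R.mul_mem (R.inv_mem hb.1) ha.1) (fun d => ne (inv_mul_eq_one.1 d).symm) hn ?_)
  have e' : a * n * a⁻¹ = b * n * b⁻¹ := mul_right_cancel (b := n⁻¹) e
  calc n * (b⁻¹ * a) = b⁻¹ * (b * n * b⁻¹) * a := by group
    _ = _ := by rw [← e']; group

theorem exB : ∃ n ∈ Q, n ∉ C_[t] ∧ ∀ a ∈ R ⊓ C_[z], ⁅a, n⁆ ∈ Q ⊓ C_[t] := by
  have : Fact (Nat.Prime 2) := ⟨Nat.prime_two⟩
  obtain ⟨U, ⟨h1, h2, h3⟩, hm⟩ := WellFounded.has_min (wellFounded_lt (α := Subgroup G))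
    {U | U ≤ Q ∧ R ⊓ C_[z] ≤ N_(U) ∧ ¬ U ≤ C_[t]} ⟨Q, le_rfl, inf_le_right.trans h.hq.es.norm, fun k => by
      obtain ⟨n, hn, e⟩ := h.exn
      exact e (commutatorElement_eq_one_iff_mul_comm.2 (mem_cent1.1 (k hn)).symm)⟩
  have lt := H01.commutator_lt_of_isPGroup (h.hr.es.aes.isPGroup.to_le inf_le_left) (h.hq.es.aes.isPGroup.to_le h1) h2
    fun e => h3 (e ▸ bot_le)
  have k : ⁅U, R ⊓ C_[z]⁆ ≤ C_[t] := by_contra fun k => hm _ ⟨lt.le.trans h1, le_norm_iff.2 fun g hg e he => by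
    refine (commutator_le (H₃ := ⁅U, R ⊓ C_[z]⁆.comap (MulAut.conj g).toMonoidHom)).2 (fun a ha b hb => ?_) he
    change MulAut.conj g ⁅a, b⁆ ∈ ⁅U, R ⊓ C_[z]⁆
    rw [map_commutatorElement]
    exact commutator_mem_commutator (conj_mem_of_norm (h2 hg) ha) (cjm hg hb), k⟩ lt
  obtain ⟨n, hn, n1⟩ := SetLike.not_le_iff_exists.1 h3
  exact ⟨n, h1 hn, n1, fun a ha => ⟨cmem h.hq.es ha.2 (h1 hn),
    commutatorElement_inv n a ▸ C_[t].inv_mem (k (commutator_mem_commutator hn ha))⟩⟩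

theorem cardAB : Nat.card ↥(R ⊓ C_[z]) ≤ Nat.card ↥(Q ⊓ C_[t] ⊓ C_(Q ⊓ C_[t])) := by
  obtain ⟨n, hn, n1, k⟩ := h.exB
  rw [← ncard_coe_subgroup, ← ncard_coe_subgroup]
  exact Set.ncard_le_ncard_of_injOn _ (fun a ha => ⟨k a ha, (h.mU ha hn).2⟩) (h.inj hn n1)

theorem card16 : 16 ≤ Nat.card ↥(Q ⊓ C_[t]) := by
  obtain ⟨W, w⟩ := h.exW
  have := (w.card32 h.hq.card).trans w.card_le
  omega

theorem false : False := by
  have : Fact (Nat.Prime 2) := ⟨Nat.prime_two⟩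
  have a := h.hq.es.aes
  have c1 := h.cardAB
  have c2 := h.symm.cardAB.trans (card_le_of_le inf_le_left)
  have c3 : Nat.card ↥(Q ⊓ C_[t] ⊓ C_(Q ⊓ C_[t])) ≤ _ := card_le_of_le inf_le_left
  have ab : Q ⊓ C_[t] ≤ Q ⊓ C_(Q ⊓ C_[t]) :=
    le_inf inf_le_left (inf_eq_left.1 (eq_of_le_of_card_ge inf_le_left (c2.trans c1)))
  have c4 := aes_card a (A := Q ⊓ C_[t]) inf_le_left (h.hq.es.zc.le.trans (zpowers_le.2 ⟨a.mem, h.symm.tz⟩))
  rw [h.hq.es.zc, h.hq.es.card_z, h.hq.card] at c4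
  have c5 := card_le_of_le ab
  have c6 := h.card16
  by_cases k : Nat.card ↥(Q ⊓ C_[t]) < 32
  · have c7 : Nat.card ↥(Q ⊓ C_[t]) = 16 := by
      obtain ⟨i, hi⟩ := IsPGroup.iff_card.1 (a.isPGroup.to_le (inf_le_left (b := C_[t])))
      rw [hi] at k c6 ⊢
      have l1 : i < 5 := (Nat.pow_lt_pow_iff_right (by decide)).1 (show 2 ^ i < 2 ^ 5 from k)
      have l2 : 4 ≤ i := (Nat.pow_le_pow_iff_right (by decide)).1 (show 2 ^ 4 ≤ 2 ^ i from c6)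
      rw [show i = 4 by omega]; rfl
    obtain ⟨W, w⟩ := h.symm.exW
    have d1 := w.card0 h.hr.card
    have d2 := w.card32 h.hr.card
    have d3 := w.card_le
    have eW : W = R ⊓ C_(W) := eq_of_le_of_card_ge w.le0 (by nlinarith)
    obtain ⟨p, hp, e⟩ := w.exq h.hr.card (by omega)
    have : ((R ⊓ C_[z] : Subgroup G) : Set G) ⊆ {1, t} := fun b hb => by
      by_cases b1 : b = 1
      · exact .inl b1
      have bz : ⁅z, b⁆ = 1 := commutatorElement_eq_one_iff_mul_comm.2 (mem_cent1.1 hb.2).symm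
      have bW : b ∈ W := eW ▸ ⟨hb.1, (w.mem0 hb.1).2 (bz ▸ one_mem _)⟩
      obtain ⟨r, -, e1⟩ := w.conj' hp e bW
      rw [commutatorElement_def, w.inv bW, ← mul_inv_rev, inv_eq_one] at bz
      obtain ⟨V, v⟩ := exists_W h.hq.es hb.2 bz
      obtain ⟨q, -, e2⟩ := v.exq h.hq.card ((card_le_of_le (show Q ⊓ C_[b] ≤ Q ⊓ C_[t] from fun q hq =>
        ⟨hq.1, h.zs hb.1 b1 hq.1 (mem_cent1.1 hq.2)⟩)).trans_lt k)
      exact .inr (h.hr.wc b hb.1 ((h.cj.symm.trans (isConj_iff.2 ⟨r, e1.symm⟩)).trans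
        (isConj_iff.2 ⟨q, (v.tz_conj e2).symm⟩).symm))
    have := (Set.ncard_le_ncard this).trans (Set.ncard_insert_le _ _)
    rw [ncard_coe_subgroup, Set.ncard_singleton] at this
    omega
  · have eU : Q ⊓ C_[t] = Q ⊓ C_(Q ⊓ C_[t]) := eq_of_le_of_card_ge ab (by nlinarith)
    have iv : ∀ n ∈ Q, n ∉ C_[t] → ∀ b ∈ Q ⊓ C_[t], n * b * n⁻¹ = b⁻¹ := fun n hn n1 b hb => by
      obtain ⟨c, hc, rfl⟩ := Set.surj_on_of_inj_on_of_ncard_le (s := ((R ⊓ C_[z] : Subgroup G) : Set G))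
        (t := ((Q ⊓ C_[t] : Subgroup G) : Set G))
        (fun c _ => ⁅c, n⁆) (fun c hc => (eU ▸ h.mU hc hn : ⁅c, n⁆ ∈ Q ⊓ C_[t])) (fun _ _ h1 h2 e => h.inj hn n1 h1 h2 e)
        (by rwa [ncard_coe_subgroup, ncard_coe_subgroup]) (Set.toFinite _) b hb
      have e := commutatorElement_eq_one_iff_commute.2 (cz hc.2 (a.pow n hn))
      refine eq_inv_of_mul_eq_one_right ?_
      rw [← e]
      simp only [commutatorElement_def, pow_two]; group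
    obtain ⟨n, hn, n1, -⟩ := h.exB
    have : (Q : Set G) ⊆ (Q ⊓ C_[t] : Subgroup G) ∪ (· * n⁻¹) '' (Q ⊓ C_[t] : Subgroup G) := fun v hv => by
      by_cases d : v ∈ C_[t]
      · exact .inl ⟨hv, d⟩
      refine .inr ⟨v * n, eU ▸ ⟨mul_mem hv hn, mem_cent.2 fun b hb => (mul_inv_eq_iff_eq_mul.1 ?_).symm⟩, by simp⟩
      rw [show v * n * b * (v * n)⁻¹ = v * (n * b * n⁻¹) * v⁻¹ by group, iv n hn n1 b hb, iv v hv d _ (inv_mem hb), inv_inv]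
    have := (Set.ncard_le_ncard this).trans (Set.ncard_union_le _ _)
    rw [Set.ncard_image_of_injective _ (mul_left_injective _), ncard_coe_subgroup, ncard_coe_subgroup, h.hq.card] at this
    nlinarith

end Pr

theorem Big.isolated (h : Big Q z) (g : G) (c : Commute z (g * z * g⁻¹)) : g * z * g⁻¹ = z :=
  by_contra fun ne => Pr.false ⟨h, h.cj g, isConj_iff.2 ⟨g, rfl⟩, c, Ne.symm ne⟩

end H03.CW
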