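import Mathlib
import Cfsg.Agent.H11.PoinAll

/-!
# Centres and small generating sets of Weyl groups

* `H03.CoxZ.center_two`, `center_one`, `gen_of_chk`
-/

namespace H03.CoxZ

open H11 Cfsg Cfsg.Lie Equiv

variable {D : ChevalleyDatum} [Good D] {F : Fast}

theorem wp_val (A : Agree D F) (l : List (Node D)) (s : Root D) :
    (((wp sW l : Weyl D) : Perm (Root D)) s : ℕ) = (l.map Fin.val).foldr F.rf s := by
  have sv : ∀ i : Node D, (sroot i : ℕ) = F.sim i := fun i => A.simple_eq (A.lt_l i)
  have hsim : ∀ i < F.l, F.sim i < F.n := fun i hi => sv ⟨i, A.l_eq ▸ hi⟩ ▸ A.lt_n _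
  induction l with
  | nil => rfl
  | cons i l ih =>
    rw [wp_cons, List.map_cons, List.foldr_cons, ← ih, ← reflect_eq A hsim (A.lt_l i) (A.lt_n _),
      ← refl_sroot_val]
    rfl

theorem eq_of_sroot {u v : Weyl D} (h : ∀ i, (u : Perm (Root D)) (sroot i) = (v : Perm (Root D)) (sroot i)) :
    u = v := by
  rw [← inv_mul_eq_one]
  refine eq_one_of_pos fun i => ?_
  rw [Subgroup.coe_mul, Perm.mul_apply, ← h, Subgroup.coe_inv]
  simpa using isPos_sroot i

/-- equality check of two words -/
noncomputable def chkEq (F : Fast) (l l' : List ℕ) : Bool :=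
  allLt F.l fun i => Nat.beq (l.foldr F.rf (F.sim i)) (l'.foldr F.rf (F.sim i))

theorem word_eq (A : Agree D F) (l l' : List (Node D))
    (h : chkEq F (l.map Fin.val) (l'.map Fin.val) = true) : wp sW l = wp sW l' := by
  refine eq_of_sroot fun i => Fin.ext ?_
  have sv : (sroot i : ℕ) = F.sim i := A.simple_eq (A.lt_l i)
  rw [wp_val A, wp_val A, sv]
  exact Nat.eq_of_beq_eq_true (allLt_spec h (A.lt_l i))

theorem eq_of_sref {r s : Root D} (h : sref s = sref r) : s = r ∨ s = r.rev := by
  by_contra hne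
  push Not at hne
  have h1 := pair_mul_pair_le hne.1 hne.2
  have h2 : refl s r = r.rev := by rw [← sref_apply, h, sref_apply, refl_self]
  have h3 := pair_refl_right r s r
  rw [h2, pair_rev_right, pair_self] at h3
  nlinarith

theorem mem_center_iff {z : Weyl D} : z ∈ Subgroup.center (Weyl D) ↔
    ∀ i, (z : Perm (Root D)) (sroot i) = sroot i ∨ (z : Perm (Root D)) (sroot i) = (sroot i).rev := by
  constructor
  · intro h i
    apply eq_of_sref
    rw [← RootAut.sref_conj (Weyl.aut z), mul_inv_eq_iff_eq_mul]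
    exact (congrArg Subtype.val (Subgroup.mem_center_iff.1 h (sW i))).symm
  · intro h
    rw [Subgroup.mem_center_iff]
    intro g
    obtain ⟨l, rfl⟩ := (weylPreCox D).toInvGen.exists_word g
    induction l with
    | nil => simp
    | cons i l ih =>
      have : sW i * z = z * sW i := Subtype.ext (by
        rw [Subgroup.coe_mul, Subgroup.coe_mul, sW_val, RootAut.mul_sref (Weyl.aut z)]
        rcases h i with e | e <;> rw [e]
        rw [sref_rev])
      rw [wp_cons, mul_assoc, ih, ← mul_assoc, this, mul_assoc]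

/-- connectedness of the diagram -/
def Conn (F : Fast) (n : ℕ) : Prop :=
  ∀ ε : Fin n → Bool, (∀ i j : Fin n, F.wt (F.sim j) i ≠ 0 → ε i = ε j) → ∀ i j, ε i = ε j

theorem center_cases (A : Agree D F) (hc : Conn F D.rank) {z : Weyl D} (hz : z ∈ Subgroup.center (Weyl D)) :
    z = 1 ∨ ∀ i, (z : Perm (Root D)) (sroot i) = (sroot i).rev := by
  classical
  have h := mem_center_iff.1 hz
  have h1 := hc (fun i => decide ((z : Perm (Root D)) (sroot i) = sroot i)) fun i j hij => by
    have sv : (sroot j : ℕ) = F.sim j := A.simple_eq (A.lt_l j)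
    rw [← sv, ← A.wt_eq, ← pair_sroot] at hij
    have h2 := RootAut.pair_eq (Weyl.aut z) (sroot i) (sroot j)
    rcases h i with e | e <;> rcases h j with e' | e' <;> rw [e, e'] at h2 ⊢
    · simp
    · rw [pair_rev_right] at h2; omega
    · rw [pair_rev_left] at h2; omega
    · simp [rev_ne]
  by_cases h3 : ∀ i, (z : Perm (Root D)) (sroot i) = sroot i
  · left; exact eq_of_sroot h3
  · right
    push Not at h3
    obtain ⟨i, hi⟩ := h3
    intro j
    refine (h j).resolve_left fun e => hi ?_
    simpa [e] using h1 i j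

theorem center_two (A : Agree D F) (hc : Conn F D.rank) (i0 : Node D) (l : List (Node D)) (k : ℕ)
    (h : (allLt F.l fun i => Nat.beq (((List.replicate k l).flatten.map Fin.val).foldr F.rf (F.sim i))
      (F.ng (F.sim i))) = true) :
    Nat.card (Subgroup.center (Weyl D)) = 2 ∧ Subgroup.center (Weyl D) ≤ Subgroup.zpowers (wp sW l) := by
  have h1 : wp sW (List.replicate k l).flatten = wp (sW (D := D)) l ^ k := by
    clear h
    induction k with
    | zero => simp
    | succ k ih => rw [List.replicate_succ, List.flatten_cons, wp_append, ih, pow_succ']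
  have h2 : ∀ i, ((wp sW l ^ k : Weyl D) : Perm (Root D)) (sroot i) = (sroot i).rev := fun i => by
    have sv : (sroot i : ℕ) = F.sim i := A.simple_eq (A.lt_l i)
    refine Fin.ext ?_
    rw [← h1, wp_val A, A.rev_val, sv]
    exact Nat.eq_of_beq_eq_true (allLt_spec h (A.lt_l i))
  have h3 : ∀ z ∈ Subgroup.center (Weyl D), z = 1 ∨ z = wp sW l ^ k := fun z hz =>
    (center_cases A hc hz).imp id fun e => eq_of_sroot fun i => (e i).trans (h2 i).symm
  have h4 : wp sW l ^ k ∈ Subgroup.center (Weyl D) := mem_center_iff.2 fun i => Or.inr (h2 i)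
  refine ⟨Nat.card_eq_two_iff.2 ⟨1, ⟨_, h4⟩, fun e => ?_, ?_⟩, fun z hz => ?_⟩
  · have := h2 i0
    rw [← show (1 : Weyl D) = wp sW l ^ k from congrArg Subtype.val e] at this
    exact ne_rev _ this
  · rw [Set.eq_univ_iff_forall]
    rintro ⟨z, hz⟩
    rcases h3 z hz with e | e
    · left; exact Subtype.ext e
    · right; exact Subtype.ext e
  · rcases h3 z hz with rfl | rfl
    · exact one_mem _
    · exact pow_mem (Subgroup.mem_zpowers _) _

theorem center_one (A : Agree D F) (hc : Conn F D.rank) (i0 : Node D) (l : List (Node D)) (σ : Node D → Node D)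
    (h : ∀ i : Node D, (l.map Fin.val).foldr F.rf (F.sim i) = F.ng (F.sim (σ i))) (h0 : F.sim (σ i0) ≠ F.sim i0) :
    Subgroup.center (Weyl D) = ⊥ := by
  have sv : ∀ i : Node D, (sroot i : ℕ) = F.sim i := fun i => A.simple_eq (A.lt_l i)
  have h2 : ∀ i, ((wp sW l : Weyl D) : Perm (Root D)) (sroot i) = (sroot (σ i)).rev := fun i =>
    Fin.ext (by rw [wp_val A, A.rev_val, sv, sv, h])
  rw [eq_bot_iff]
  intro z hz
  refine (center_cases A hc hz).resolve_right fun e => h0 ?_
  have h3 : ∀ i, ((wp sW l * z : Weyl D) : Perm (Root D)) (sroot i) = sroot (σ i) := fun i => by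
    rw [Subgroup.coe_mul, Perm.mul_apply, e, RootAut.rev (Weyl.aut _), h2, Fin.rev_rev]
  have h4 : wp sW l * z = 1 := eq_one_of_pos fun i => by rw [h3]; exact isPos_sroot _
  have h5 := h3 i0
  rw [h4] at h5
  rw [← sv, ← sv, ← h5]; rfl

theorem map_cox {n : ℕ} {M : CoxeterMatrix (Fin n)} {W : Type*} [Group W] {s : Fin n → W}
    (h : ∃ cs : CoxeterSystem M W, ∀ i, cs.simple i = s i) :
    ∃ e : W ≃* M.Group, ∀ l, e (wp s l) = (l.map M.simple).prod := by
  obtain ⟨cs, h⟩ := h
  refine ⟨cs.mulEquiv, fun l => ?_⟩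
  rw [wp, map_list_prod, List.map_map]
  congr 2
  ext i
  rw [Function.comp_apply, ← h]
  exact cs.mulEquiv.apply_symm_apply _

theorem transfer_center {W G : Type*} [Group W] [Group G] (e : W ≃* G) {c : W} {k : ℕ}
    (h : Nat.card (Subgroup.center W) = k ∧ Subgroup.center W ≤ Subgroup.zpowers c) :
    Nat.card (Subgroup.center G) = k ∧ Subgroup.center G ≤ Subgroup.zpowers (e c) := by
  refine ⟨by rw [← h.1, Nat.card_congr (Subgroup.centerCongr e).toEquiv], fun z hz => ?_⟩
  obtain ⟨m, hm⟩ := h.2 (MulEquivClass.apply_mem_center e.symm hz)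
  exact ⟨m, by simp only [← map_zpow] at hm ⊢; rw [hm, e.apply_symm_apply]⟩

theorem gen_of_chk (A : Agree D F) (c : List (Node D)) (a b : Node D) (cert : Node D → List ℕ)
    (h : ∀ i : Node D, chkEq F (((cert i).flatMap fun g => [c, c.reverse, [a], [b]].getD g []).map Fin.val)
      [i.val] = true) : Subgroup.closure {wp sW c, sW a, sW (D := D) b} = ⊤ := by
  rw [eq_top_iff, ← (weylPreCox D).gen, Subgroup.closure_le]
  rintro _ ⟨i, rfl⟩
  have h1 := word_eq A _ [i] (h i)
  rw [wp_singleton] at h1
  rw [← h1]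
  generalize cert i = l
  induction l with
  | nil => exact one_mem _
  | cons g l ih =>
    rw [List.flatMap_cons, wp_append]
    refine mul_mem ?_ ih
    match g with
    | 0 => exact Subgroup.subset_closure (by simp)
    | 1 =>
      change wp sW c.reverse ∈ _
      rw [wp_reverse (weylPreCox D).sq]
      exact inv_mem (Subgroup.subset_closure (by simp))
    | 2 => exact Subgroup.subset_closure (by simp)
    | 3 => exact Subgroup.subset_closure (by simp)
    | g + 4 => exact one_mem _

theorem transfer_gen {n : ℕ} {M : CoxeterMatrix (Fin n)} {W : Type*} [Group W] {s : Fin n → W}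
    (h : ∃ cs : CoxeterSystem M W, ∀ i, cs.simple i = s i) (hinj : Function.Injective s) (a b : Fin n) (k : ℕ)
    (hk : (a = b ∧ k = 1) ∨ (a ≠ b ∧ k = 2))
    (hg : Subgroup.closure {wp s (List.finRange n), s a, s b} = ⊤) :
    ∃ T : Finset M.Group, T.card = k ∧ (∀ t ∈ T, ∃ (g : M.Group) (i : Fin n), t = g * M.simple i * g⁻¹) ∧
      Subgroup.closure (({((List.finRange n).map M.simple).prod} : Set M.Group) ∪ ↑T) = ⊤ := by
  classical
  obtain ⟨e, he⟩ := map_cox h
  have hs : ∀ i, e (s i) = M.simple i := fun i => by simpa using he [i]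
  refine ⟨{M.simple a, M.simple b}, ?_, fun t ht => ?_, ?_⟩
  · rcases hk with ⟨rfl, rfl⟩ | ⟨h1, rfl⟩
    · simp
    · exact Finset.card_pair fun h2 => h1 (hinj (e.injective (by rw [hs, hs, h2])))
  · rcases Finset.mem_insert.1 ht with rfl | ht
    · exact ⟨1, a, by simp⟩
    · exact ⟨1, b, by simpa using ht⟩
  · have := congrArg (Subgroup.map (e : W →* M.Group)) hg
    rw [MonoidHom.map_closure, Subgroup.map_top_of_surjective _ e.surjective] at this
    rw [← this]
    congr 1
    rw [Set.image_insert_eq, Set.image_pair, Finset.coe_pair, Set.singleton_union, MonoidHom.coe_coe, he, hs, hs]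

end H03.CoxZ
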