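import Mathlib
import Cfsg.Agent.H03.FP2

/-!
Gross' theorem on fixed point free automorphisms of 2-power order (namespace H03):
`Xsp.quo`, `Xsp.elem_quo`, `tw_core`, `twist`, `g_core`, `three_core2`, `gross`.
-/

set_option autoImplicit false
open Cfsg BG H24
open scoped IsMulCommutative commutatorElement

namespace H03

universe u
variable {X : Type u} [Group X] [Finite X] {V W D A B H L N P S T U K R Q Z : Subgroup X} {a g : X} {p q r s t : ℕ}

theorem Xsp.quo (h : Xsp K Z) (hK : K ≤ N_(N)) (hd : N ⊓ K = ⊥) : Xsp (quo N K) (quo N Z) := by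
  have hZ := h.le.trans hK
  refine ⟨quo_mono N h.le, quo_le_cent N h.cent, ?_, ?_, fun e => h.ne (le_antisymm ?_ h.le)⟩
  · rw [← quo_comm hK hK]; exact quo_mono N h.der
  · rw [quo_cent_disj hK hK (le_norm K) hd]; exact quo_mono N h.zc
  · refine (eq_of_le_of_card_eq h.le ?_).ge
    rw [← card_quo_of_disj hK hd, e, card_quo_of_disj hZ (eq_bot_mono hd (inf_le_inf_left _ h.le))]

omit [Finite X] in
theorem Xsp.norm (h : Xsp K Z) : K ≤ N_(Z) := le_norm_of_cent (cent_symm h.cent)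

omit [Finite X] in
theorem Xsp.elem_quo (h : Xsp K Z) (hc : Nat.card Z = p) : IsElementaryAbelian p (BG.quo Z K) := by
  refine (elem_quo_iff h.norm).2 ⟨h.der, fun x hx => h.zc ⟨pow_mem hx p, mem_cent.2 fun y hy => ?_⟩⟩
  have h2 := h.der (Subgroup.commutator_mem_commutator hx hy)
  rw [eq_comm, ← commutatorElement_eq_one_iff_mul_comm,
    H04.commutatorElement_pow_left (mem_cent.1 (h.cent h2) x hx).symm, ← hc]
  exact pow_card_eq_one h2

omit [Finite X] in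
theorem pow_add_one_eq_two_pow {d k : ℕ} (hq : 1 < q) (hd : 0 < d) (h : q ^ d + 1 = 2 ^ k) : d = 1 := by
  have h1 := Nat.one_lt_pow hd.ne' hq
  have hk : 2 ≤ k := by
    by_contra hk
    have : k = 0 ∨ k = 1 := by omega
    rcases this with rfl | rfl <;> omega
  obtain ⟨j, rfl⟩ := Nat.exists_eq_add_of_le hk
  have h2 : Odd q := by
    by_contra h2
    have := (Nat.not_odd_iff_even.1 h2).pow_of_ne_zero hd.ne'
    rw [pow_add] at h
    obtain ⟨c, hc⟩ := this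
    omega
  obtain ⟨c, hc⟩ := h2
  have h3 : q ^ 2 ≡ 1 [MOD 2 * (q + 1)] := ((Nat.modEq_iff_dvd' (by nlinarith)).2 ⟨c, by
    rw [hc]; ring_nf; omega⟩).symm
  have h3' : q ^ 2 ≡ 1 [MOD 4] := ((Nat.modEq_iff_dvd' (by nlinarith)).2 ⟨c * (c + 1), by
    rw [hc]; ring_nf; omega⟩).symm
  rcases Nat.even_or_odd' d with ⟨e, rfl | rfl⟩
  · have := h3'.pow e
    rw [← pow_mul, one_pow, Nat.ModEq] at this
    rw [pow_add] at h
    omega
  · have h4 := ((h3.pow e).mul_right q).add_right 1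
    rw [← pow_mul, one_pow, one_mul, ← pow_succ, h] at h4
    have h5 : q + 1 ∣ 2 ^ (2 + j) := (h4.dvd_iff (Dvd.intro_left 2 rfl)).2 dvd_rfl
    obtain ⟨w, hw⟩ := h5
    have h6 : w ≡ 1 [MOD 2] := by
      rw [hw, mul_comm 2] at h4
      exact Nat.ModEq.mul_left_cancel' (c := q + 1) (by omega) (by simpa using h4)
    obtain ⟨i, -, rfl⟩ := (Nat.dvd_prime_pow Nat.prime_two).1 (Dvd.intro_left _ hw.symm)
    have h7 : i = 0 := by
      by_contra h7
      have := dvd_pow_self 2 h7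
      rw [Nat.ModEq] at h6
      omega
    rw [h7, pow_zero, mul_one, ← h] at hw
    exact Nat.pow_right_injective hq (by simpa using hw)

theorem comm_le_cent_of_inv (hc : Nat.card U = 2) (hU : U ≤ N_(V)) (hfix : V ⊓ C_(U) = ⊥) (hP : P ≤ N_(V)) :
    ⁅P, U⁆ ≤ C_(V) := by
  refine Subgroup.commutator_le.2 fun x hx y hy => ?_
  by_cases h1 : y = 1
  · simp [h1]
  have h2 := inv_of_fpf (hU hy) (by rw [← pow_two, ← hc, pow_card_eq_one hy]; exact one_mem _)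
    (by rwa [cent1_eq_of_prime (hc ▸ Nat.prime_two) hy h1])
  refine mem_cent.2 fun v hv => ?_
  have h3 := h2 _ (inv_mem hv)
  have h5 : y⁻¹ * v * y = v⁻¹ := by
    rw [inv_inv] at h3
    conv_lhs => rw [← h3]
    group
  have h6 := h2 _ (inv_mem (conj_mem_of_norm' (hP hx) hv))
  rw [eq_comm, ← mul_inv_eq_iff_eq_mul]
  calc ⁅x, y⁆ * v * ⁅x, y⁆⁻¹ = x * y * x⁻¹ * (y⁻¹ * v * y) * x * y⁻¹ * x⁻¹ := by simp [commutatorElement_def, mul_assoc]
    _ = x * (y * (x⁻¹ * v * x)⁻¹ * y⁻¹) * x⁻¹ := by rw [h5]; group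
    _ = v := by rw [h6]; group

theorem tw_core (hq : q.Prime) (hr : r.Prime) (hqr : r ≠ q) (hW : IsElementaryAbelian q W) (hP : IsPGroup r P)
    (hB : IsCyclic B) (hB2 : IsPGroup 2 B) (hBc : Nat.card B = q + 1) (hU : U ≤ B) (hUc : Nat.card U = 2)
    (hPW : P ≤ N_(W)) (hBW : B ≤ N_(W)) (hBP : B ≤ N_(P)) (cBP : (Nat.card B).Coprime (Nat.card P))
    (hPU : ⁅P, U⁆ = P) (hP0 : P ≠ ⊥) (hC : W ⊓ C_(U) ≤ C_(B)) (hf : P ⊓ C_(W) = ⊥)
    {ι : X} (hι : ∀ w ∈ W, ι * w * ι⁻¹ = w⁻¹) (hιP : ι ∈ C_(P)) (hιB : ι ∈ C_(B)) (hι2 : ι ^ 2 = 1) : False := by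
  have := Fact.mk hr
  obtain ⟨k, hk⟩ := pg_card Nat.prime_two hB2
  have hq2 : q ≠ 2 := by
    rintro rfl
    have := hUc ▸ card_dvd hU
    rw [hBc] at this
    norm_num at this
  have hk2 : 2 ≤ k := by
    have := hq.two_le
    by_contra h
    have : k = 0 ∨ k = 1 := by omega
    rcases this with rfl | rfl <;> omega
  obtain ⟨k, rfl⟩ := Nat.exists_eq_add_of_le' hk2
  obtain ⟨α, rfl⟩ := cyclic_iff.1 hB
  have hα := Subgroup.mem_zpowers α
  rw [card_zpowers] at hk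
  have hc : Commute α ι := mem_cent.1 hιB α hα
  have e2 : (α * ι) ^ 2 = α ^ 2 := by rw [hc.mul_pow, hι2, mul_one]
  have o2 : orderOf (α ^ 2) = 2 ^ (k + 1) := by
    rw [orderOf_pow_of_dvd two_ne_zero (hk ▸ dvd_pow_self 2 (by omega)), hk, pow_succ _ (k + 1),
      Nat.mul_div_cancel _ two_pos]
  have o1 : orderOf (α * ι) = 2 ^ (k + 2) := by
    have := Fact.mk Nat.prime_two
    refine orderOf_eq_prime_pow (fun e => ?_) ?_
    · rw [pow_succ', pow_mul, e2] at e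
      have := orderOf_dvd_of_pow_eq_one e
      rw [o2, Nat.pow_dvd_pow_iff_le_right one_lt_two] at this
      omega
    · rw [pow_succ', pow_mul, e2, ← o2, pow_orderOf_eq_one]
  set A := Subgroup.zpowers (α * ι) with hA
  have hAc : Nat.card A = 2 ^ (k + 2) := by rw [card_zpowers, o1]
  have hA2 : Subgroup.zpowers (α ^ 2) ≤ A := by rw [← e2]; exact Subgroup.zpowers_le.2 (Subgroup.npow_mem_zpowers _ _)
  have hB2' : Subgroup.zpowers (α ^ 2) ≤ Subgroup.zpowers α := Subgroup.zpowers_le.2 (Subgroup.npow_mem_zpowers _ _)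
  have hU2 : U ≤ Subgroup.zpowers (α ^ 2) := le_of_card_dvd_of_cyclic hB hU hB2' (by
    rw [hUc, card_zpowers, o2]; exact dvd_pow_self 2 (by omega))
  have hιW : ι ∈ N_(W) := mem_norm_of_cj_le fun x hx => by
    obtain ⟨w, hw, rfl⟩ := mem_cj'.1 hx
    rw [hι w hw]; exact inv_mem hw
  have hAW : A ≤ N_(W) := Subgroup.zpowers_le.2 (mul_mem (hBW hα) hιW)
  have hAP : A ≤ N_(P) := Subgroup.zpowers_le.2 (mul_mem (hBP hα) (cent_le_norm P hιP))
  have hAa := abelian_of_cyclic (cyclic_zpowers (α * ι))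
  have cAW : (Nat.card A).Coprime (Nat.card W) := pg_coprime_ne Nat.prime_two hq (pg_of_card hAc) hW.pg hq2.symm
  have hfix : W ⊓ C_(A) = ⊥ := by
    rw [eq_bot_iff]
    intro w hw
    have h1 := mem_cent.1 (hC ⟨hw.1, cent_anti (hU2.trans hA2) hw.2⟩) α hα
    have h2 := mem_cent.1 hw.2 _ (Subgroup.mem_zpowers _)
    have h3 : ι * w * ι⁻¹ = w := by
      rw [mul_inv_eq_iff_eq_mul]
      apply mul_left_cancel (a := α)
      rw [← mul_assoc, h2, ← mul_assoc, ← mul_assoc, h1]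
    rw [hι w hw.1, inv_eq_iff_mul_eq_one, ← pow_two] at h3
    exact Subgroup.mem_bot.2 (orderOf_eq_one_iff.1 (Nat.eq_one_of_dvd_coprimes ((Nat.coprime_primes Nat.prime_two hq).2
      hq2.symm) (orderOf_dvd_of_pow_eq_one h3) (orderOf_dvd_of_pow_eq_one (hW.pow hw.1))))
  obtain ⟨P₁, hP₁, h⟩ := exists_minAct hP hAP (hU2.trans hA2) (le_norm_of_abelian hAa (hU2.trans hA2))
    ((coprime_mono cBP hU le_rfl).coprime_dvd_right (pg_dvd hr hP hP0)) (by rwa [hPU])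
  obtain ⟨Z₀, V₀, m, -, h3, h4, h5, -, h7, h8, h9, hm1, hm2, hm3, -⟩ := comp2 Nat.prime_two (cyclic_zpowers _) (pg_of_card hAc)
    hUc hq hr h hW (hP₁.trans hPW) hAW (pg_coprime_ne hr hq h.pg hW.pg hqr) cAW hfix
    (eq_bot_mono hf (inf_le_inf_right _ hP₁))
  rcases (inf_le_left : A ⊓ cm ⁅P₁, P₁⁆ Z₀ ≤ A).lt_or_eq with e | e
  · obtain ⟨j, hj⟩ := pg_card Nat.prime_two (pg_le (pg_of_card hAc) e.le)
    have h10 : A ⊓ cm ⁅P₁, P₁⁆ Z₀ ≤ Subgroup.zpowers (α ^ 2) := by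
      refine le_of_card_dvd_of_cyclic (cyclic_zpowers _) e.le hA2 ?_
      have := card_lt e
      rw [hj, hAc, Nat.pow_lt_pow_iff_right one_lt_two] at this
      rw [hj, card_zpowers, o2]
      exact pow_dvd_pow 2 (by omega)
    refine h5 (h.comm_eq.ge.trans (comm_le_cent_of_inv hUc (h9.trans h8) (eq_bot_mono h7 (le_inf inf_le_left ?_)) h4))
    exact ((inf_le_inf_right _ h3).trans hC).trans (cent_anti (h10.trans hB2'))
  · rw [e, hAc, ← hk, ← card_zpowers, hBc] at hm2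
    obtain rfl : q = m := by omega
    exact hqr (pg_prime_eq hr h.pg hq ((dvd_pow_self q two_ne_zero).trans (hm3 ▸ relIndex_dvd_card _ _))).symm

theorem twist (hq : q.Prime) (hr : r.Prime) (hqr : r ≠ q) (hW : IsElementaryAbelian q W) (hP : IsPGroup r P)
    (hB : IsCyclic B) (hB2 : IsPGroup 2 B) (hBc : Nat.card B = q + 1) (hU : U ≤ B) (hUc : Nat.card U = 2)
    (hPW : P ≤ N_(W)) (hBW : B ≤ N_(W)) (hBP : B ≤ N_(P)) (cBP : (Nat.card B).Coprime (Nat.card P))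
    (hPU : ⁅P, U⁆ = P) (hC : W ⊓ C_(U) ≤ C_(B)) : P ≤ C_(W) := by
  by_contra hne
  have := hW.abelian
  have hd : B ⊓ kr (holA W) = ⊥ := by
    rw [kr_holA]
    by_contra h
    obtain ⟨a, ha, h1⟩ := exists_mem_ne_one h
    have h2 : U ≤ C_(W) := (le_zpowers_of_cyc Nat.prime_two hB hB2 hU hUc ha.1 h1).trans (Subgroup.zpowers_le.2 ha.2)
    exact hne (hPU.ge.trans ((comm_mono le_rfl h2).trans (comm_le_right (norm_cent hPW))))
  have hι : ∀ Y : Subgroup X, (SemidirectProduct.inr (MulEquiv.inv W) : Hol W) ∈ C_(im (holA W) Y) := by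
    intro Y
    refine mem_cent.2 fun a ha => ?_
    obtain ⟨x, -, rfl⟩ := mem_im.1 ha
    rw [holA, MonoidHom.comp_apply, ← map_mul, ← map_mul]
    congr 1
    ext v
    simp
  refine tw_core (W := im (holV W) W) (P := im (holA W) P) (B := im (holA W) B) (U := im (holA W) U)
    (ι := SemidirectProduct.inr (MulEquiv.inv W)) hq hr hqr (isElementaryAbelian_im hW) (isPGroup_im hP) (isCyclic_im B)
    (isPGroup_im hB2) (by rwa [card_im_of_disjoint hBW hd]) (im_mono hU)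
    (by rwa [card_im_of_disjoint (hU.trans hBW) (eq_bot_mono hd (inf_le_inf_right _ hU))]) (holA_le_normalizer hPW)
    (holA_le_normalizer hBW) (im_le_normalizer hBP)
    ((cBP.coprime_dvd_left (card_im_dvd _)).coprime_dvd_right (card_im_dvd _))
    (by rw [← im_commutator hPW (hU.trans hBW), hPU]) (fun e => hne (kr_holA (V := W) ▸ (im_eq_bot_iff hPW).1 e)) ?_
    (hol_faithful P) ?_ (hι P) (hι B) ?_
  · rw [hol_inf_centralizer (hU.trans hBW)]
    exact cent_symm ((holA_le_centralizer_iff hBW inf_le_left).2 (cent_symm hC))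
  · intro w hw
    obtain ⟨x, -, rfl⟩ := mem_im.1 hw
    rw [holV, ← map_inv, ← SemidirectProduct.inl_aut, ← map_inv]
    rfl
  · rw [← map_pow, ← map_one (SemidirectProduct.inr : MulAut W →* Hol W)]
    congr 1
    ext v
    simp [pow_two]

omit [Finite X] in
theorem le_cent_of_comm_eq (hPU : ⁅P, U⁆ = P) (hP : P ≤ N_(D)) (h : U ≤ C_(D)) : P ≤ C_(D) :=
  hPU.ge.trans ((comm_mono le_rfl h).trans (comm_le_right (norm_cent hP)))

theorem g_core (h : Sit t q V S B) (hB : IsCyclic B) (hB2 : IsPGroup 2 B) (hU : U ≤ B) (hUc : Nat.card U = 2)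
    (hr : r.Prime) (hqr : r ≠ q) (hP : IsPGroup r P) (hBP : B ≤ N_(P)) (hPS : P ≤ N_(S))
    (cBP : (Nat.card B).Coprime (Nat.card P)) (hPU : ⁅P, U⁆ = P) (hSP : S ⊓ C_(P) ≤ ⁅S, S⁆) (hZP : ⁅S, S⁆ ≤ C_(P)) :
    False := by
  have hq := h.hs
  have hBa := abelian_of_cyclic hB
  have hX : Xsp S ⁅S, S⁆ := by
    refine h.xsp hSP ?_ hPS
    have h1 := comm_le_cent_of_abelian Nat.prime_two hB hB2 hU hUc h.elem.abelian (abelian_center S)
      (norm_inf h.BS (norm_cent h.BS)) (inf_le_left.trans h.SV) h.BV (coprime_mono h.cBS le_rfl inf_le_left)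
      (coprime_mono h.cSV inf_le_left le_rfl) h.fixB
    have h2 := comm_eq_bot.1 (eq_bot_mono h.faith (le_inf ((comm_le_left (norm_inf (hU.trans h.BS)
      (norm_cent (hU.trans h.BS)))).trans inf_le_left) h1))
    rw [comm_eq_bot.2 (cent_symm (le_cent_of_comm_eq hPU (norm_inf hPS (norm_cent hPS)) (cent_symm h2)))]
    exact bot_le
  set Z := ⁅S, S⁆ with hZ
  have hPn : ¬ P ≤ C_(S) := fun e => hX.ne (le_antisymm ((le_inf le_rfl (cent_symm e)).trans hSP) hX.le)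
  have hZU : Z ≤ C_(U) := h.ZB.trans (cent_anti hU)
  obtain ⟨hT, hTU⟩ := hX.comm (hU.trans h.BS) hZU (coprime_mono h.cBS hU le_rfl) h.sol
    fun e => hPn (le_cent_of_comm_eq hPU hPS e)
  have hTS : ⁅S, U⁆ ⊔ Z ≤ S := sup_le (comm_le_left (hU.trans h.BS)) hX.le
  have hBU : B ≤ N_(U) := le_norm_of_abelian hBa hU
  have hBZ : B ≤ N_(Z) := norm_der h.BS
  have hBT : B ≤ N_(⁅S, U⁆ ⊔ Z) := norm_sup (norm_comm h.BS hBU) hBZ
  have hreg : ∀ a ∈ B, a ≠ 1 → (⁅S, U⁆ ⊔ Z) ⊓ C_[a] ≤ Z := fun a ha h1 =>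
    (inf_le_inf_left _ (cent1_le_of_cyc Nat.prime_two hB hB2 hU hUc ha h1)).trans hTU
  obtain ⟨m, hm1, hm2, hm3⟩ := h.card_eq hB hT hTS hBT hreg
  have hsq : ∀ T ≤ S, ∀ l, 1 < l → Nat.card T = l ^ 2 * Nat.card Z → ∃ d, 0 < d ∧ l = q ^ d := by
    intro T hT l hl e
    obtain ⟨c, hc⟩ := pg_card hq (pg_le h.pg hT)
    obtain ⟨d, -, rfl⟩ := (Nat.dvd_prime_pow hq).1 ((dvd_pow_self l two_ne_zero).trans (hc ▸ Dvd.intro _ e.symm))
    exact ⟨d, Nat.pos_of_ne_zero (by rintro rfl; simp at hl), rfl⟩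
  obtain ⟨k, hk⟩ := pg_card Nat.prime_two hB2
  obtain ⟨d, hd, rfl⟩ := hsq _ hTS m hm1 hm2
  obtain rfl := pow_add_one_eq_two_pow hq.one_lt hd (hm3.symm.trans hk)
  rw [pow_one] at hm2 hm3
  have hC : S ⊓ C_(U) ≤ C_(B) := by
    by_contra hne
    set S₁ := S ⊓ C_(U) with hS₁
    set B₀ := B ⊓ C_(S₁) with hB₀
    have hlt : B₀ < B := lt_of_le_of_ne inf_le_left fun e => hne (cent_symm (e.ge.trans inf_le_right))
    have hU0 : U ≤ B₀ := le_inf hU (cent_symm inf_le_right)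
    have hBS₁ : B ≤ N_(S₁) := norm_inf h.BS (norm_cent hBU)
    have nB : B ≤ N_(B₀) := le_norm_of_abelian hBa hlt.le
    have hW0 : V ⊓ C_(B₀) ≠ ⊥ := fun e => by
      have h1 := h.up hT hTS hlt.le (hlt.le.trans hBT) (fun a ha => hreg a (hlt.le ha)) le_rfl h.ne (hTS.trans h.SV)
        (hlt.le.trans h.BV) e hm2
      have := card_lt hlt
      omega
    set W := V ⊓ C_(B₀) with hW
    obtain ⟨U', hU', hU'c⟩ := exists_card_eq_prime Nat.prime_two
      (pg_dvd Nat.prime_two (pgroup_quo B₀ hB2) (quo_ne_bot nB hlt.not_ge))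
    set B₁ := coquo B₀ U' with hB₁
    have hB₁B : B₁ ≤ B := coquo_le_of_le_quo hlt.le hU'
    have hX₁ := hX.centr (hU.trans h.BS) hZU (coprime_mono h.cBS hU le_rfl) h.sol fun e => hne (e.trans h.ZB)
    obtain ⟨hL, hLB⟩ := hX₁.comm (hB₁B.trans hBS₁) (h.ZB.trans (cent_anti hB₁B)) (coprime_mono h.cBS hB₁B inf_le_left)
      (sol_of_le h.sol inf_le_left) fun e => ne_bot_of_prime (hU'c ▸ Nat.prime_two)
        (coquo_eq_self_iff.1 (le_antisymm (le_inf hB₁B e) (le_coquo _)))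
    set L := ⁅S₁, B₁⁆ ⊔ Z with hLd
    have hLS₁ : L ≤ S₁ := sup_le (comm_le_left (hB₁B.trans hBS₁)) hX₁.le
    have hLS : L ≤ S := hLS₁.trans inf_le_left
    have hBL : B ≤ N_(L) := norm_sup (norm_comm hBS₁ (le_norm_of_abelian hBa hB₁B)) hBZ
    have cL : L ≤ C_(B₀) := hLS₁.trans (cent_symm inf_le_right)
    have nL : L ≤ N_(B₀) := le_norm_of_cent cL
    have nW : W ≤ N_(B₀) := le_norm_of_cent inf_le_right
    have nZ : Z ≤ N_(B₀) := hL.le.trans nL
    have hLW : L ≤ N_(W) := norm_inf (hLS.trans h.SV) (norm_cent nL)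
    have hBW : B ≤ N_(W) := norm_inf h.BV (norm_cent nB)
    have dL : B₀ ⊓ L = ⊥ := BG.inf_eq_bot_of_coprime (coprime_mono h.cBS hlt.le hLS)
    have dW : B₀ ⊓ W = ⊥ := BG.inf_eq_bot_of_coprime (coprime_mono h.cBV hlt.le inf_le_left)
    have cZ : Nat.card (quo B₀ Z) = Nat.card Z := card_quo_of_disj nZ (eq_bot_mono dL (inf_le_inf_left _ hL.le))
    obtain ⟨l, hl⟩ := hL.exists_sq h.zp
    obtain ⟨d, hd, rfl⟩ := hsq _ hLS l (hL.one_lt hl) hl
    have htW : t ∣ Nat.card W := pg_dvd h.ht (h.elem.of_le inf_le_left).pg hW0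
    have h1 := (hL.quo nL dL).up (R := quo B₀ B) h.ht (elem_quo B₀ (h.elem.of_le (inf_le_left : W ≤ V)))
      (quo_ne_bot nW fun e => hW0 (eq_bot_mono dW (le_inf e le_rfl)))
      (not_dvd_card_quo _ (BG.not_dvd_of_coprime h.ht (coprime_mono h.cSV.symm inf_le_left hLS) htW)) (quo_le_norm _ hLW)
      (semiregular_prime (cZ ▸ h.zp) (quo_cent_disj_bot nZ nW (norm_inf (hX.le.trans h.SV) (norm_cent nZ)) dW
        (eq_bot_mono h.fixZ (inf_le_inf_right _ inf_le_left))))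
      (quo_le_norm _ hBL) (coprime_quo _ (coprime_mono h.cBS le_rfl hLS)) (quo_le_cent _ h.ZB) (fun a ha h1 => by
        refine (inf_le_inf_left _ (cent1_le_of_cyc Nat.prime_two (cyclic_quo _ hB) (pgroup_quo _ hB2) hU' hU'c ha h1)).trans ?_
        rw [← quo_coquo U', quo_cent_disj (coquo_le_norm _) nL (hB₁B.trans hBL) dL]
        exact quo_mono _ hLB)
      (not_dvd_card_quo _ (BG.not_dvd_of_coprime h.ht (coprime_mono h.cBV.symm inf_le_left le_rfl) htW)) (quo_le_norm _ hBW)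
      (quo_cent_disj_bot nB nW hBW dW (eq_bot_mono h.fixB (inf_le_inf_right _ inf_le_left)))
      (s := q ^ d) (by rw [cZ, card_quo_of_disj nL dL, hl])
    have h2 := card_quo_mul nB hlt.le
    have h3 := hUc ▸ card_le hU0
    have h4 : q ≤ q ^ d := Nat.le_self_pow hd.ne' q
    have := hq.pos
    nlinarith
  have nS := hX.norm
  have nP : P ≤ N_(Z) := norm_der hPS
  have dB : Z ⊓ B = ⊥ := BG.inf_eq_bot_of_coprime (coprime_mono h.cBS.symm hX.le le_rfl)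
  have h1 := twist hq hr hqr (hX.elem_quo h.card) (pgroup_quo Z hP) (cyclic_quo Z hB) (pgroup_quo Z hB2)
    (by rwa [card_quo_of_disj hBZ dB]) (quo_mono Z hU)
    (by rwa [card_quo_of_disj (hU.trans hBZ) (eq_bot_mono dB (inf_le_inf_left _ hU))]) (quo_le_norm Z hPS)
    (quo_le_norm Z h.BS) (quo_le_norm Z hBP) (coprime_quo Z cBP) (by rw [← quo_comm nP (hU.trans hBZ), hPU]) (by
      rw [← quo_cent_coprime (hU.trans hBZ) hX.le (coprime_mono h.cBS hU hX.le) (Or.inr (sol_of_le h.sol hX.le))]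
      exact quo_le_cent Z hC)
  exact hPn (coprime_cent_of_comm hPS (pg_coprime_ne hr hq hP h.pg hqr) (Or.inr h.sol)
    ((comm_le_of_quo nS nP (cent_symm h1)).trans hZP))

theorem three_core2_f (hA : IsCyclic A) (hA2 : IsPGroup 2 A) (hU : U ≤ A) (hUc : Nat.card U = 2) (ht : t.Prime)
    (hq : q.Prime) (hr : r.Prime) (hqr : r ≠ q) (hP : IsPGroup r P) (hQ : IsPGroup q Q) (hV : IsElementaryAbelian t V)
    (hAP : A ≤ N_(P)) (hAQ : A ≤ N_(Q)) (hPQ : P ≤ N_(Q)) (hPV : P ≤ N_(V)) (hQV : Q ≤ N_(V)) (hAV : A ≤ N_(V))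
    (cQV : (Nat.card Q).Coprime (Nat.card V)) (cAV : (Nat.card A).Coprime (Nat.card V))
    (cAQ : (Nat.card A).Coprime (Nat.card Q)) (cAP : (Nat.card A).Coprime (Nat.card P)) (hfix : V ⊓ C_(A) = ⊥)
    (hf : Q ⊓ C_(V) = ⊥) : ⁅Q, ⁅P, U⁆⁆ = ⊥ := by
  by_contra hne
  have := Fact.mk hq
  set P₁ := ⁅P, U⁆ with hP₁
  have hP₁P : P₁ ≤ P := comm_le_left (hU.trans hAP)
  have hPU : ⁅P₁, U⁆ = P₁ := coprime_comm_comm (hU.trans hAP) (coprime_mono cAP hU le_rfl) (Or.inr (pg_sol hr hP))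
  have hAP₁ : A ≤ N_(P₁) := norm_comm hAP (le_norm_of_abelian (abelian_of_cyclic hA) hU)
  obtain ⟨S, hSQ, h⟩ := exists_minAct (B := P₁ ⊔ A) hQ (sup_le (hP₁P.trans hPQ) hAQ) le_sup_left (sup_le_norm_left hAP₁)
    (((Nat.Prime.coprime_iff_not_dvd hq).2 (pg_not_dvd hq hr (pg_le hP hP₁P) hqr.symm)).symm) hne
  have hAS : A ≤ N_(S) := le_sup_right.trans h.norm
  have hfS : S ⊓ C_(V) = ⊥ := eq_bot_mono hf (inf_le_inf_right _ hSQ)
  have cSV := coprime_mono cQV hSQ le_rfl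
  have cAS := coprime_mono cAQ le_rfl hSQ
  have key : ∀ D ≤ S, IsMulCommutative D → A ≤ N_(D) → D ≤ C_(U) := fun D h1 h2 h3 =>
    comm_eq_bot.1 (eq_bot_mono hfS (le_inf ((comm_le_left (hU.trans h3)).trans h1)
      (comm_le_cent_of_abelian Nat.prime_two hA hA2 hU hUc hV.abelian h2 h3 ((h1.trans hSQ).trans hQV) hAV
        (coprime_mono cAS le_rfl h1) (coprime_mono cSV h1 le_rfl) hfix)))
  have hZa := (der_elem hq h).abelian
  obtain ⟨Z₀, V₀, h1, h2, h3, h4, h5, h6, h6', h7, h8, hS⟩ := exists_sit ht hq h le_sup_right hV (hSQ.trans hQV)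
    (sup_le (hP₁P.trans hPV) hAV) cSV cAV cAS hfix fun e => h.ne (comm_eq_bot.2 (cent_symm (le_cent_of_comm_eq hPU h.normA'
      (cent_symm (key S le_rfl (abelian_iff_der.2 (eq_bot_mono hfS (le_inf (der_le S) e))) hAS)))))
  set Z := ⁅S, S⁆ with hZd
  set B := A ⊓ cm Z Z₀ with hB
  set N := S ⊓ C_(V₀) with hN
  have hZ0 : Z ≤ N_(Z₀) := le_norm_of_abelian hZa h1.le
  have hZP : Z ≤ C_(P₁) := h.cent_eq_der.ge.trans inf_le_right
  have hUB : U ≤ B := le_inf hU (le_cm hZ0 h1.le ((comm_eq_bot.2 (key Z (der_le S) hZa (norm_der hAS))).le.trans bot_le))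
  have hP0 : P₁ ≤ N_(V₀) := h8 P₁ le_sup_left (le_cm hZ0 h1.le ((comm_eq_bot.2 hZP).le.trans bot_le))
  have hB0 : B ≤ N_(V₀) := h8 B (inf_le_left.trans le_sup_right) inf_le_right
  have nS : S ≤ N_(N) := le_norm_inf_cent h4
  have nB : B ≤ N_(N) := norm_inf (inf_le_left.trans hAS) (norm_cent hB0)
  have nP : P₁ ≤ N_(N) := norm_inf h.normA' (norm_cent hP0)
  have hd : N ⊓ U = ⊥ := BG.inf_eq_bot_of_coprime (coprime_mono cAS.symm inf_le_left hU)
  refine g_core hS (cyclic_quo N (cyclic_of_le hA inf_le_left)) (pgroup_quo N (pg_le hA2 inf_le_left)) (quo_mono N hUB)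
    (by rwa [card_quo_of_disj (hUB.trans nB) hd]) hr hqr (pgroup_quo N (pg_le hP hP₁P))
    (quo_le_norm N (inf_le_left.trans hAP₁)) (quo_le_norm N h.normA') (coprime_quo N (coprime_mono cAP inf_le_left hP₁P))
    (by rw [← quo_comm nP (hUB.trans nB), hPU]) ?_ ?_
  · rw [← quo_cent_coprime nP inf_le_left (coprime_mono h.cop' le_rfl inf_le_left) (Or.inl (pg_sol hr (pg_le hP hP₁P))),
      h.cent_eq_der, quo_comm nS nS]
  · rw [← quo_comm nS nS]
    exact quo_le_cent N hZP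

theorem three_core2 (hA : IsCyclic A) (hA2 : IsPGroup 2 A) (hU : U ≤ A) (hUc : Nat.card U = 2) (ht : t.Prime)
    (hq : q.Prime) (hr : r.Prime) (hqr : r ≠ q) (hP : IsPGroup r P) (hQ : IsPGroup q Q) (hV : IsPGroup t V)
    (hAP : A ≤ N_(P)) (hAQ : A ≤ N_(Q)) (hPQ : P ≤ N_(Q)) (hPV : P ≤ N_(V)) (hQV : Q ≤ N_(V)) (hAV : A ≤ N_(V))
    (cQV : (Nat.card Q).Coprime (Nat.card V)) (cAV : (Nat.card A).Coprime (Nat.card V))
    (cAQ : (Nat.card A).Coprime (Nat.card Q)) (cAP : (Nat.card A).Coprime (Nat.card P)) (hfix : V ⊓ C_(A) = ⊥) :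
    ⁅Q, ⁅P, U⁆⁆ ≤ C_(V) := by
  set N := rN V Q with hN
  have nQ : Q ≤ N_(N) := rN_norm hQV (le_norm Q)
  have nA : A ≤ N_(N) := rN_norm hAV hAQ
  have nP : P ≤ N_(N) := rN_norm hPV hPQ
  have hd : N ⊓ A = ⊥ := rN_disj cAV cAQ
  have h0 := comm_le_left (hU.trans hAP)
  have h1 := three_core2_f (cyclic_quo N hA) (pgroup_quo N hA2) (quo_mono N hU)
    (by rw [card_quo_of_disj (hU.trans nA) (eq_bot_mono hd (inf_le_inf_left _ hU)), hUc]) ht hq hr hqr (pgroup_quo N hP)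
    (pgroup_quo N hQ) (rN_elem ht hV) (quo_le_norm N hAP) (quo_le_norm N hAQ) (quo_le_norm N hPQ) (quo_le_norm N hPV)
    (quo_le_norm N hQV) (quo_le_norm N hAV) (coprime_quo N cQV) (coprime_quo N cAV) (coprime_quo N cAQ) (coprime_quo N cAP)
    (quo_cent_bot nA rN_normV hAV cAV (pg_sol ht hV) (hfix.le.trans bot_le)) (rN_faith ht hV hQV cQV)
  rw [← quo_comm nP (hU.trans nA)] at h1
  exact (le_inf (comm_le_left (h0.trans hPQ)) ((quo_comm_eq_bot_iff nQ (h0.trans nP)).1 h1)).trans (rN_inf cQV)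

theorem gross (n : ℕ) : ∀ {X : Type u} [Group X] [Finite X] {K A : Subgroup X},
    IsCyclic A → Nat.card A = 2 ^ (n + 2) → Group.IsSolvable K → A ≤ N_(K) → (Nat.card A).Coprime (Nat.card K) →
    K ⊓ C_(A) = ⊥ → res^[2 * n + 2] K = ⊥ := by
  induction n with
  | zero =>
    intro X _ _ K A hA hc hs hAK cAK hfix
    exact resn_succ_of_le (n := 1) (res_le_of (nilMod_of_der_le (four_der hA (by rw [hc]; rfl) hs hAK cAK hfix))) (fit_nil K)
  | succ n ih =>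
    intro X _ _ K A hA hc hs hAK cAK hfix
    obtain ⟨U, hU, hUc⟩ := exists_card_eq_prime Nat.prime_two (H := A) (hc ▸ dvd_pow_self 2 (by omega))
    have h1 := three_layer hs hAK cAK hU fun p q r hp hq hr h1 h2 P hPK Q hQK hP hQ hAP hAQ hPQ =>
      three_core2 hA (pg_of_card hc) hU hUc hr hq hp h1.symm hP hQ (pcore_pg hr K) hAP hAQ hPQ
        (hPK.trans (le_norm_pcore _ K)) (hQK.trans (le_norm_pcore _ K)) (norm_pcore _ hAK)
        (pg_coprime_ne hq hr hQ (pcore_pg hr K) h2.symm) (coprime_mono cAK le_rfl (pcore_le _ K))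
        (coprime_mono cAK le_rfl hQK) (coprime_mono cAK le_rfl hPK) (eq_bot_mono hfix (inf_le_inf_right _ (pcore_le _ K)))
    set F := fittingOf K with hF
    have nA : A ≤ N_(F) := norm_fit hAK
    have hd : F ⊓ A = ⊥ := BG.inf_eq_bot_of_coprime (coprime_mono cAK.symm (fit_le K) le_rfl)
    obtain ⟨Y, _, _, K', A', a1, a2, a3, a4, a5, a6, a7, -⟩ := exists_step (cyclic_quo F hA) (quo_mono F hU) (sol_quo F hs)
      (quo_le_norm F hAK) (coprime_quo F cAK) (quo_cent_bot nA (le_norm_fit K) hAK cAK hs (hfix.le.trans bot_le))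
      (fit_le _) (le_norm_fit _) (norm_fit (quo_le_norm F hAK)) h1
    rw [card_quo_of_disj nA hd, card_quo_of_disj (hU.trans nA) (eq_bot_mono hd (inf_le_inf_left _ hU)), hUc, hc,
      show n + 1 + 2 = n + 2 + 1 by ring, pow_succ'] at a2
    exact resn_succ_of_quo (resn_succ_of_le (a7 _ (ih a1 (Nat.eq_of_mul_eq_mul_left two_pos a2) a3 a4 a5 a6)) (fit_nil _))

end H03
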