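import Mathlib
import Cfsg.Agent.H03.FP3

/-!
Fixed point free noncyclic operator groups of order `p²` or `pq` (Ward, Shult; namespace H03):
`TwoP`, `k1_ab`, `k1`, `lemAB`, `tl3_fin`, `tl3_core`, `tl3`, `height_two`.
-/

set_option autoImplicit false
open Cfsg BG H24
open scoped IsMulCommutative commutatorElement

namespace H03

universe u
variable {X : Type u} [Group X] [Finite X] {V W D A B H L N P S T U K R Q Z : Subgroup X} {a g : X} {p q r s t : ℕ}

/-- operator groups which are noncyclic of order `p²` or `pq` (or smaller) -/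
structure TwoP (A : Subgroup X) : Prop where
  prime : ∀ B ≤ A, B ≠ ⊥ → B ≠ A → (Nat.card B).Prime
  compl : ∀ B ≤ A, (Nat.card B).Prime → ∃ B' ≤ A, (Nat.card B').Prime ∧ B ⊔ B' = A ∧ (A ≤ N_(B) ∨ A ≤ N_(B'))
  sol : Group.IsSolvable A

omit [Finite X] in
theorem TwoP.quo (h : TwoP A) (hA : A ≤ N_(N)) (hd : N ⊓ A = ⊥) : TwoP (quo N A) := by
  have key : ∀ B' ≤ BG.quo N A, ∃ B ≤ A, BG.quo N B = B' := fun B' hB' => ⟨_, inf_le_left, quo_inf_coquo_eq hB'⟩
  have hc : ∀ B ≤ A, Nat.card (BG.quo N B) = Nat.card B := fun B hB =>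
    card_quo_of_disj (hB.trans hA) (eq_bot_mono hd (inf_le_inf_left _ hB))
  refine ⟨fun B' hB' h1 h2 => ?_, fun B' hB' h1 => ?_, sol_quo N h.sol⟩
  · obtain ⟨B, hB, rfl⟩ := key B' hB'
    rw [hc B hB]
    exact h.prime B hB (fun e => h1 (by rw [e, quo_bot])) fun e => h2 (by rw [e])
  · obtain ⟨B, hB, rfl⟩ := key B' hB'
    rw [hc B hB] at h1
    obtain ⟨C, h2, h3, h4, h5⟩ := h.compl B hB h1
    exact ⟨_, quo_mono N h2, by rwa [hc C h2], by rw [← quo_sup (hB.trans hA) (h2.trans hA), h4],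
      h5.imp (quo_le_norm N) (quo_le_norm N)⟩

omit [Finite X] in
theorem le_norm_comm_sup (R B : Subgroup X) : R ≤ N_(⁅R, B⁆ ⊔ B) :=
  le_norm_of_comm_le ((comm_sup_le (le_norm _) (right_le_norm_comm R B) (comm_le_left (left_le_norm_comm R B))
    (comm_comm B R).le).trans le_sup_left)

theorem k1_ab (hA : TwoP A) (hW : IsMulCommutative W) (hR : IsMulCommutative R) (hAR : A ≤ N_(R)) (hRW : R ≤ N_(W))
    (hAW : A ≤ N_(W)) (cRW : (Nat.card R).Coprime (Nat.card W)) (cAW : (Nat.card A).Coprime (Nat.card W))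
    (cAR : (Nat.card A).Coprime (Nat.card R)) (hR0 : R ≠ ⊥) (hRm : ∀ L ≤ R, A ≤ N_(L) → L = ⊥ ∨ L = R)
    (hWm : ∀ Y ≤ W, R ≤ N_(Y) → A ≤ N_(Y) → Y = ⊥ ∨ Y = W) (fWR : W ⊓ C_(R) = ⊥) (fWA : W ⊓ C_(A) = ⊥)
    (fRA : R ⊓ C_(A) = ⊥) (hB : B ≤ A) (hp : (Nat.card B).Prime) : W ⊓ C_(⁅R, B⁆ ⊔ B) = ⊥ := by
  obtain ⟨B', h1, h2, h3, h4⟩ := hA.compl B hB hp
  have hY : R ≤ N_(W ⊓ C_(⁅R, B⁆ ⊔ B)) := norm_inf hRW (norm_cent (le_norm_comm_sup R B))
  have full : ⁅R, B⁆ = R → W ⊓ C_(⁅R, B⁆ ⊔ B) = ⊥ := fun e =>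
    eq_bot_mono fWR (inf_le_inf_left _ (cent_anti (e.ge.trans le_sup_left)))
  rcases h4 with h4 | h4
  · rcases hRm _ (comm_le_left (hB.trans hAR)) (norm_comm hAR h4) with e | e
    · have h5 : R ⊓ C_(B') = ⊥ := eq_bot_mono fRA (le_inf inf_le_left (h3 ▸ le_cent_sup
        (inf_le_left.trans (comm_eq_bot.1 e)) inf_le_right))
      rcases hWm _ inf_le_left hY (norm_inf hAW (norm_cent (norm_sup (norm_comm hAR h4) h4))) with e' | e'
      · exact e'
      · refine eq_bot_mono (lemF (E := ⊥) (A := B') hW hR hR0 hRW (h1.trans hAW) (h1.trans hAR) cRW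
          (coprime_mono cAW h1 le_rfl) le_rfl hRW bot_le bot_le le_cent_bot ?_ (semiregular_prime h2 h5) fWR) inf_le_left
        rw [sup_bot_eq]
        refine eq_bot_mono fWA (le_inf inf_le_left (h3 ▸ le_cent_sup ?_ inf_le_right))
        exact inf_le_left.trans ((e'.ge.trans inf_le_right).trans (cent_anti le_sup_right))
    · exact full e
  · rcases hRm (R ⊓ C_(B')) inf_le_left (norm_inf hAR (norm_cent h4)) with e | e
    · exact lemF (E := B) (A := B') hW hR hR0 hRW (h1.trans hAW) (h1.trans hAR) cRW (coprime_mono cAW h1 le_rfl)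
        inf_le_left hY (hB.trans h4) (hB.trans hAW) (inf_le_right.trans (cent_anti le_sup_right))
        (by rwa [sup_comm, h3]) (semiregular_prime h2 e) fWR
    · refine full (coprime_comm_eq_of_cent_bot (hB.trans hAR) (coprime_mono cAR hB le_rfl) (Or.inr (sol_of_abelian hR)) ?_)
      exact eq_bot_mono fRA (le_inf inf_le_left (h3 ▸ le_cent_sup inf_le_right
        (inf_le_left.trans (e.ge.trans inf_le_right))))

omit [Finite X] in
theorem rN_inf' (hc : (Nat.card Q).Coprime (Nat.card V)) : V ⊓ rN V Q = frattiniOf V := by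
  rw [rN, dedekind (phi_le V) (Or.inl (le_norm_of_cent (inf_le_right.trans (cent_anti (phi_le V))))),
    BG.inf_eq_bot_of_coprime (coprime_mono hc.symm le_rfl inf_le_left), sup_bot_eq]

omit [Finite X] in
theorem der_lt (hs : Group.IsSolvable H) (h : H ≠ ⊥) : ⁅H, H⁆ < H := by
  rw [← Subgroup.nontrivial_iff_ne_bot] at h
  rw [← H.range_subtype, MonoidHom.range_eq_map, ← Subgroup.map_commutator, Subgroup.map_subtype_lt_map_subtype]
  exact Group.IsSolvable.commutator_lt_top_of_nontrivial H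

theorem k1 (hA : TwoP A) (hs : s.Prime) (hR : Group.IsSolvable R) (hAR : A ≤ N_(R)) (h : MinAct s (R ⊔ A) R S)
    (hmin : ∀ L < R, A ≤ N_(L) → L ≤ C_(S)) (cAS : (Nat.card A).Coprime (Nat.card S))
    (cAR : (Nat.card A).Coprime (Nat.card R)) (fS : S ⊓ C_(A) = ⊥) (fR : R ⊓ C_(A) = ⊥) (hB : B ≤ A)
    (hp : (Nat.card B).Prime) : S ⊓ C_(⁅R, B⁆ ⊔ B) ≤ ⁅S, S⁆ := by
  have := Fact.mk hs
  set N := rN S R with hN
  have hAS : A ≤ N_(S) := le_sup_right.trans h.norm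
  have nS : S ≤ N_(N) := rN_normV
  have nR : R ≤ N_(N) := rN_norm h.normA' (le_norm R)
  have nA : A ≤ N_(N) := rN_norm hAS hAR
  have hR0 : ¬ R ≤ C_(S) := fun e => h.ne (comm_eq_bot.2 (cent_symm e))
  have hmin' : ∀ L < R, A ≤ N_(L) → L ≤ N := fun L a b => (le_inf a.le (hmin L a b)).trans le_sup_right
  have h1 := k1_ab (hA.quo nA (rN_disj cAS cAR)) (rN_elem hs h.pg).abelian ((abelian_quo_iff nR).2
    (hmin' _ (der_lt hR fun e => hR0 (e.le.trans bot_le)) (norm_der hAR))) (quo_le_norm N hAR) (quo_le_norm N h.normA')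
    (quo_le_norm N hAS) (coprime_quo N h.cop') (coprime_quo N cAS) (coprime_quo N cAR)
    (quo_ne_bot nR fun e => hR0 ((le_inf le_rfl e).trans (rN_inf h.cop'))) (fun L' a b => by
      rw [← quo_inf_coquo_eq a]
      rcases (inf_le_left : R ⊓ coquo N L' ≤ R).lt_or_eq with e | e
      · exact Or.inl (quo_eq_bot_of_le (hmin' _ e (norm_inf hAR (le_norm_coquo nA b))))
      · exact Or.inr (by rw [e])) (fun Y a b c => by
      rw [← quo_inf_coquo_eq a]
      rcases h.irred (U := S ⊓ coquo N Y) (le_inf (phi_le S) (le_sup_left.trans (le_coquo Y))) inf_le_left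
        (norm_inf h.norm (sup_le (le_norm_coquo nR b) (le_norm_coquo nA c))) with e | e
      · exact Or.inl (quo_eq_bot_of_le (e.le.trans le_sup_left))
      · exact Or.inr (by rw [e]))
    (quo_cent_bot nR nS h.normA' h.cop' (pg_sol hs h.pg) (h.cent_eq_phi.le.trans le_sup_left))
    (quo_cent_bot nA nS hAS cAS (pg_sol hs h.pg) (fS.le.trans bot_le))
    (quo_cent_bot nA nR hAR cAR hR (fR.le.trans bot_le)) (quo_mono N hB)
    (by rwa [card_quo_of_disj (hB.trans nA) (eq_bot_mono (rN_disj cAS cAR) (inf_le_inf_left _ hB))])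
  rw [← quo_comm nR (hB.trans nA), ← quo_sup ((comm_le_left (hB.trans hAR)).trans nR) (hB.trans nA)] at h1
  rw [← h.cent_eq_der, h.cent_eq_phi, ← rN_inf' h.cop']
  exact le_inf inf_le_left ((quo_eq_bot_iff (inf_le_left.trans nS)).1 (eq_bot_mono h1 (quo_inf_cent_le _ _ _)))

theorem lemAB (hW : IsMulCommutative W) (hV : IsMulCommutative V) (hRW : R ≤ N_(W)) (hAW : A ≤ N_(W)) (hAR : A ≤ N_(R))
    (hWV : W ≤ N_(V)) (hRV : R ≤ N_(V)) (hAV : A ≤ N_(V)) (cWV : (Nat.card W).Coprime (Nat.card V))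
    (cAV : (Nat.card A).Coprime (Nat.card V)) (cAW : (Nat.card A).Coprime (Nat.card W))
    (cRW : (Nat.card R).Coprime (Nat.card W)) (cAR : (Nat.card A).Coprime (Nat.card R)) (hR : Group.IsSolvable R)
    (hfix : V ⊓ C_(A) = ⊥) (hK : ∀ B ≤ A, (Nat.card B).Prime → W ⊓ C_(⁅R, B⁆ ⊔ B) = ⊥)
    (hA : (Nat.card A).Prime ∨ W ⊓ C_(A) = ⊥) (hA' : ∀ B ≤ A, B ≠ ⊥ → B ≠ A → (Nat.card B).Prime) : W ≤ C_(V) := by
  by_contra hne
  obtain ⟨W₀, -, h1, -, -, -, -, -, -, h2⟩ := exists_comp hV hW hWV hAV hAW cWV cAV hfix hne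
  have hs := sol_of_abelian hW
  have full : ∀ L W₁ : Subgroup X, W₁ < W → L ≤ N_(W) → (Nat.card L).Coprime (Nat.card W) → W ⊓ C_(L) = ⊥ →
      ¬ L ≤ cm W W₁ := fun L W₁ a b c d e =>
    a.not_ge ((coprime_comm_eq_of_cent_bot b c (Or.inr hs) d).ge.trans (comm_cm (le_norm_of_abelian hW a.le) e))
  have hlt : ∀ x ∈ R, cj x W₀ < W := fun x hx => by
    rw [← cj_of_mem_norm (hRW hx)]; exact cj_lt_cj_iff.2 h1
  have hp : ∀ x ∈ R, (Nat.card ↥(A ⊓ cm W (cj x W₀))).Prime := fun x hx => by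
    by_cases e : A ⊓ cm W (cj x W₀) = A
    · rw [e]
      exact hA.resolve_right fun e' => full A _ (hlt x hx) hAW cAW e' (e.ge.trans inf_le_right)
    · exact hA' _ inf_le_left (h2 x (hRV hx) (hRW hx)) e
  have hcj : ∀ x ∈ R, ∀ B ≤ cm W (cj x W₀), cj x⁻¹ B ≤ cm W W₀ := fun x hx B hB => by
    refine le_cm (le_norm_of_abelian hW h1.le) h1.le ?_
    rw [← cj_of_mem_norm (inv_mem (hRW hx)), ← cj_comm, cj_le_iff, inv_inv]
    exact comm_cm (le_norm_of_abelian hW (hlt x hx).le) hB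
  set B := A ⊓ cm W W₀ with hB
  have hBp : (Nat.card B).Prime := by have := hp 1 (one_mem _); rwa [cj_one] at this
  have h3 : ∀ x ∈ R, B = A ⊓ cm W (cj x W₀) := by
    intro x hx
    by_contra e
    set B' := A ⊓ cm W (cj x W₀) with hB'
    have h4 : B ⊔ B' = A := by
      by_contra e'
      have := hA' _ (sup_le inf_le_left inf_le_left) (ne_bot_mono (ne_bot_of_prime hBp) le_sup_left) e'
      exact e ((eq_of_prime this le_sup_left (ne_bot_of_prime hBp)).trans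
        (eq_of_prime this le_sup_right (ne_bot_of_prime (hp x hx))).symm)
    have h5 : W ⊓ C_(A) = ⊥ := hA.resolve_left fun e' => e ((eq_of_prime e' inf_le_left (ne_bot_of_prime hBp)).trans
      (eq_of_prime e' inf_le_left (ne_bot_of_prime (hp x hx))).symm)
    set Y := (R ⊔ A) ⊓ cm W W₀ with hY
    have hYR : Y ≤ N_(R) := inf_le_left.trans (sup_le_norm_left hAR)
    have h6 : R ⊔ Y = R ⊔ A := by
      refine le_antisymm (sup_le le_sup_left inf_le_left) (sup_le le_sup_left (h4.ge.trans (sup_le ?_ ?_)))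
      · exact (inf_le_inf_right _ le_sup_right).trans le_sup_right
      · rw [← cj_cj_inv x B']
        refine cj_le_of_mem (le_trans (le_inf ?_ (hcj x hx B' inf_le_right)) le_sup_right) (Subgroup.mem_sup_left hx)
        exact cj_le_of_mem (inf_le_left.trans le_sup_right) (Subgroup.mem_sup_left (inv_mem hx))
    have h7 : (Y ⊓ R).relIndex Y = Nat.card A := by
      rw [Subgroup.inf_relIndex_left, ← relIndex_sup hYR, h6]
      exact (sdprod_sup hAR (BG.inf_eq_bot_of_coprime cAR.symm)).relIndex_left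
    obtain ⟨C, hC⟩ := exists_compl_of_coprime (inf_le_left : Y ⊓ R ≤ Y) (le_norm_inf hYR)
      (h7 ▸ coprime_mono cAR.symm inf_le_right le_rfl)
    have h8 : Nat.card C = Nat.card A := hC.relIndex_left.symm.trans h7
    obtain ⟨n, hn, e'⟩ := H01.conj_of_le_sup hAR cAR (Or.inr hR) ((hC.le_right.trans inf_le_left).trans (sup_comm R A).le) h8
    rw [← cj_eq_smul] at e'
    refine full C _ h1 ((hC.le_right.trans inf_le_left).trans (sup_le hRW hAW)) (h8 ▸ cAW) ?_ (hC.le_right.trans inf_le_right)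
    rw [← e', ← cj_cent, ← cj_of_mem_norm (hRW hn), ← cj_inf, h5, cj_bot]
  have hBR : B ≤ N_(R) := inf_le_left.trans hAR
  refine full _ _ h1 (sup_le ((comm_le_left hBR).trans hRW) (inf_le_left.trans hAW)) ?_ (hK B inf_le_left hBp)
    (sup_le (Subgroup.commutator_le.2 fun x hx b hb => ?_) inf_le_right)
  · exact Nat.Coprime.coprime_dvd_left (card_sup_dvd (right_le_norm_comm R B)) (Nat.Coprime.mul_left
      (coprime_mono cRW (comm_le_left hBR) le_rfl) (coprime_mono cAW inf_le_left le_rfl))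
  · refine mul_mem (hcj x⁻¹ (inv_mem hx) B ((h3 _ (inv_mem hx)).le.trans inf_le_right) ?_) (inv_mem hb.2)
    rw [inv_inv]
    exact conj_mem_cj x hb

theorem tl3_fin (hs : s.Prime) (hS : IsPGroup s S) (hX : Xsp S Z) (hZ : (Nat.card Z).Prime) (hR : IsMulCommutative R)
    (hf : R ⊓ C_(S) = ⊥) (hB : (Nat.card B).Prime) (cBS : (Nat.card B).Coprime (Nat.card S))
    (cBR : (Nat.card B).Coprime (Nat.card R)) (cRS : (Nat.card R).Coprime (Nat.card S)) (hBR : B ≤ N_(R)) (hBS : B ≤ N_(S))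
    (hRS : R ≤ N_(S)) (hZR : Z ≤ C_(R)) (hZB : Z ≤ C_(B)) (hSR : S ⊓ C_(R) ≤ Z) (hK : S ⊓ C_(⁅R, B⁆ ⊔ B) ≤ Z)
    {m : ℕ} (hm1 : 1 < m) (hm2 : Nat.card ↥(⁅S, B⁆ ⊔ Z) = m ^ 2 * Nat.card Z) (hm3 : Nat.card B = m + 1) : False := by
  have hsol := pg_sol hs hS
  set K := ⁅R, B⁆ with hKd
  have hKR : K ≤ R := comm_le_left hBR
  have hBK : B ≤ N_(K) := right_le_norm_comm R B
  have hBZ : B ≤ N_(Z) := le_norm_of_cent (cent_symm hZB)
  have hK0 : K ≤ C_(S) := by
    by_contra hne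
    have hZK := hZR.trans (cent_anti hKR)
    obtain ⟨hM, hMK⟩ := hX.comm (hKR.trans hRS) hZK (coprime_mono cRS hKR le_rfl) hsol hne
    set M := ⁅S, K⁆ ⊔ Z with hMd
    have hMS : M ≤ S := sup_le (comm_le_left (hKR.trans hRS)) hX.le
    have nK : K ≤ N_(Z) := le_norm_of_cent (cent_symm hZK)
    have hKM : K ≤ N_(M) := norm_sup (right_le_norm_comm S K) nK
    have hBM : B ≤ N_(M) := norm_sup (norm_comm hBS hBK) hBZ
    have dK : Z ⊓ K = ⊥ := BG.inf_eq_bot_of_coprime (coprime_mono cRS.symm hX.le hKR)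
    have dB : Z ⊓ B = ⊥ := BG.inf_eq_bot_of_coprime (coprime_mono cBS.symm hX.le le_rfl)
    have cB : Nat.card (quo Z B) = m + 1 := by rw [card_quo_of_disj hBZ dB, hm3]
    obtain ⟨μ, hμ⟩ := hM.exists_sq hZ
    have h1 := card_eq_pow_of_frob (K := quo Z K) (R := quo Z B) (M := quo Z M) (quo_le_norm Z hBK)
      (semiregular_prime (by rwa [cB, ← hm3]) (quo_cent_disj_bot hBZ nK hBK dK (comm_inf_cent hR hBR cBR)))
      (sol_quo Z (sol_of_le hsol hMS)) (Nat.Coprime.coprime_dvd_left (card_sup_dvd (quo_le_norm Z hBK)) (Nat.Coprime.mul_left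
        (coprime_quo Z (coprime_mono cRS hKR hMS)) (coprime_quo Z (coprime_mono cBS le_rfl hMS))))
      (sup_le (quo_le_norm Z hKM) (quo_le_norm Z hBM))
      (quo_cent_bot nK hM.norm hKM (coprime_mono cRS hKR hMS) (sol_of_le hsol hMS) hMK)
    have h2 := (coprime_abelian_dprod (quo_le_norm Z hBM) (coprime_quo Z (coprime_mono cBS le_rfl hMS))
      ((abelian_quo_iff hM.norm).2 hM.der)).card
    have h3 : Nat.card ↥⁅quo Z M, quo Z B⁆ ≤ m ^ 2 := by
      have hT : ⁅S, B⁆ ⊔ Z ≤ N_(Z) := (sup_le (comm_le_left hBS) hX.le).trans hX.norm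
      have h4 := card_quo_mul hT le_sup_right
      rw [hm2, mul_comm (m ^ 2)] at h4
      rw [← Nat.eq_of_mul_eq_mul_left (card_pos Z) h4, ← quo_comm hM.norm hBZ]
      exact card_le (quo_mono Z ((comm_mono hMS le_rfl).trans le_sup_left))
    have h4 := card_quo_mul hM.norm hM.le
    rw [hμ, mul_comm (μ ^ 2)] at h4
    replace h4 := Nat.eq_of_mul_eq_mul_left (card_pos Z) h4
    obtain ⟨j, hj⟩ := pg_card hs (pg_le (pgroup_quo Z (pg_le hS hMS)) (inf_le_left : quo Z M ⊓ C_(quo Z B) ≤ _))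
    rw [hj, cB] at h1
    rw [hj, h1, pow_succ'] at h2
    have h5 := Nat.eq_of_mul_eq_mul_left (pow_pos hs.pos j) h2
    rw [h4, ← pow_mul] at h1
    obtain ⟨i, -, rfl⟩ := (Nat.dvd_prime_pow hs).1 ((dvd_pow_self μ two_ne_zero).trans h1.dvd)
    rw [← pow_mul] at h1
    have h6 := Nat.pow_right_injective hs.two_le h1
    have h7 : i ≠ 0 := by rintro rfl; simpa using hM.one_lt hμ
    have h8 : Odd (m + 1) := (hm3 ▸ hB).odd_of_ne_two (by omega)
    have h9 : Even j := by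
      have : Even (j * (m + 1)) := h6 ▸ ⟨i, by ring⟩
      exact (Nat.even_mul.1 this).resolve_right (Nat.not_even_iff_odd.2 h8)
    have h10 : 2 ≤ j := by
      obtain ⟨c, rfl⟩ := h9
      rcases c with _ | c
      · simp at h6; omega
      · omega
    have h11 : (2 ^ m) ^ 2 ≤ (s ^ j) ^ m := by
      rw [← pow_mul, mul_comm, pow_mul]
      exact Nat.pow_le_pow_left ((Nat.pow_le_pow_left hs.two_le 2).trans (Nat.pow_le_pow_right hs.pos h10)) m
    have h12 := Nat.pow_lt_pow_left (Nat.lt_two_pow_self (n := m)) two_ne_zero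
    omega
  have hK1 : K = ⊥ := eq_bot_mono hf (le_inf hKR hK0)
  rw [hK1, bot_sup_eq] at hK
  have hST : ⁅S, B⁆ ⊔ Z = S := le_antisymm (sup_le (comm_le_left hBS) hX.le)
    ((coprime_comm_sup_cent hBS cBS (Or.inr hsol)).ge.trans (sup_le_sup_left hK _))
  rw [hST] at hm2
  obtain ⟨R₁, hR₁, hp⟩ := exists_prime_card_le (H := R) fun e => hX.ne (le_antisymm (by simpa [e] using hSR) hX.le)
  have hc : B ≤ C_(R₁) := (cent_symm (comm_eq_bot.1 hK1)).trans (cent_anti hR₁)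
  have cRB := coprime_mono cBR.symm hR₁ le_rfl
  have hD := dprod_sup hc (BG.inf_eq_bot_of_coprime cRB)
  have hcyc := hD.cyclic (cyclic_of_prime hp) (cyclic_of_prime hB) cRB
  have hregB : ∀ L ≤ S, ∀ b ∈ B, b ≠ 1 → L ⊓ C_[b] ≤ Z := fun L hL b hb h1 => by
    rw [cent1_eq_of_prime hB hb h1]; exact (inf_le_inf_right _ hL).trans hK
  have hR₁Z : S ⊓ C_(R₁) ≤ Z := by
    by_contra hne
    have hL := hX.centr (hR₁.trans hRS) (hZR.trans (cent_anti hR₁)) (coprime_mono cRS hR₁ le_rfl) hsol hne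
    obtain ⟨l, hl⟩ := hL.exists_sq hZ
    have h1 := hL.low hZ (norm_inf hBS (norm_cent (le_norm_of_cent hc))) (cyclic_of_prime hB)
      (coprime_mono cBS le_rfl inf_le_left) hZB (hregB _ inf_le_left) hl
    have h2 := eq_of_le_of_card_le (inf_le_left : S ⊓ C_(R₁) ≤ S) (by
      rw [hl, hm2]
      exact Nat.mul_le_mul_right _ (Nat.pow_le_pow_left (by omega) 2))
    exact ne_bot_of_prime hp (eq_bot_mono hf (le_inf hR₁ (cent_symm (h2.ge.trans inf_le_right))))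
  have h1 := hX.low hZ (sup_le (hR₁.trans hRS) hBS) hcyc (by
    rw [hD.card]; exact Nat.Coprime.mul_left (coprime_mono cRS hR₁ le_rfl) cBS)
    (le_cent_sup (hZR.trans (cent_anti hR₁)) hZB) (fun c hc h1 => by
      obtain ⟨Y, hY, hYp⟩ := exists_prime_card_le (zpowers_ne_bot h1)
      have hY' := hY.trans (Subgroup.zpowers_le.2 hc)
      refine (inf_le_inf_left _ ((cent_zpowers c).ge.trans (cent_anti hY))).trans ?_
      rcases (Nat.Prime.dvd_mul hYp).1 (hD.card ▸ card_dvd hY') with e | e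
      · rwa [eq_of_card_eq_of_cyclic hcyc hY' le_sup_left ((Nat.prime_dvd_prime_iff_eq hYp hp).1 e)]
      · rwa [eq_of_card_eq_of_cyclic hcyc hY' le_sup_right ((Nat.prime_dvd_prime_iff_eq hYp hB).1 e)]) hm2
  rw [hD.card, hm3] at h1
  have := hp.two_le
  nlinarith

theorem tl3_core (h : Sit t s V S B) (hB : (Nat.card B).Prime) (hR : Group.IsSolvable R) (hRR : ⁅R, R⁆ ≤ C_(S))
    (cBR : (Nat.card B).Coprime (Nat.card R)) (cRS : (Nat.card R).Coprime (Nat.card S)) (hBR : B ≤ N_(R))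
    (hRS : R ≤ N_(S)) (hRV : R ≤ N_(V)) (hZR : ⁅S, S⁆ ≤ C_(R)) (hSR : S ⊓ C_(R) ≤ ⁅S, S⁆)
    (hK : S ⊓ C_(⁅R, B⁆ ⊔ B) ≤ ⁅S, S⁆) : False := by
  have hX : Xsp S ⁅S, S⁆ := by
    refine h.xsp hSR ?_ hRS
    have h0 : R ≤ N_(S ⊓ C_(S)) := norm_inf hRS (norm_cent hRS)
    have h1 : ⁅S ⊓ C_(S), R⁆ ≤ S ⊓ C_(S) := comm_le_left h0
    have h2 := h1.trans inf_le_left
    refine lemAB (A := B) (R := R) (abelian_of_le (abelian_center S) h1) h.elem.abelian (right_le_norm_comm _ _)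
      (norm_comm (norm_inf h.BS (norm_cent h.BS)) hBR) hBR (h2.trans h.SV) hRV h.BV (coprime_mono h.cSV h2 le_rfl) h.cBV
      (coprime_mono h.cBS le_rfl h2) (coprime_mono cRS le_rfl h2) cBR hR h.fixB (fun B' a b => ?_) (Or.inl hB)
      fun B' a b c => absurd (eq_of_prime hB a b) c
    rw [eq_of_prime hB a (ne_bot_of_prime b)]
    exact eq_bot_mono (comm_inf_cent (abelian_center S) h0 (coprime_mono cRS le_rfl inf_le_left))
      (le_inf inf_le_left (((inf_le_inf_right _ h2).trans hK).trans hZR))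
  set Z := ⁅S, S⁆ with hZ
  obtain ⟨hT, hTB⟩ := hX.comm h.BS h.ZB h.cBS h.sol fun e => hX.ne (le_antisymm (le_trans (le_inf le_rfl (cent_symm
    (sup_le ((comm_mono le_rfl e).trans (comm_le_right (norm_cent hRS))) e))) hK) hX.le)
  obtain ⟨m, hm1, hm2, hm3⟩ := h.card_eq (cyclic_of_prime hB) hT (sup_le (comm_le_left h.BS) hX.le)
    (norm_sup (right_le_norm_comm S B) (norm_der h.BS)) fun b hb h1 => by rwa [cent1_eq_of_prime hB hb h1]
  set N := R ⊓ C_(S) with hN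
  have nS : S ≤ N_(N) := le_norm_of_cent (cent_symm inf_le_right)
  have nR : R ≤ N_(N) := le_norm_inf_cent hRS
  have nB : B ≤ N_(N) := norm_inf hBR (norm_cent h.BS)
  have dS : N ⊓ S = ⊥ := BG.inf_eq_bot_of_coprime (coprime_mono cRS inf_le_left le_rfl)
  have dB : N ⊓ B = ⊥ := BG.inf_eq_bot_of_coprime (coprime_mono cBR.symm inf_le_left le_rfl)
  have hc : ∀ T ≤ S, Nat.card (quo N T) = Nat.card T := fun T hT =>
    card_quo_of_disj (hT.trans nS) (eq_bot_mono dS (inf_le_inf_left _ hT))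
  have cB := card_quo_of_disj nB dB
  have hKR := comm_le_left hBR
  refine tl3_fin (m := m) h.hs (pgroup_quo N h.pg) (hX.quo nS dS) (hc Z hX.le ▸ h.zp)
    ((abelian_quo_iff nR).2 (le_inf (der_le R) hRR)) ?_ (cB ▸ hB) (coprime_quo N h.cBS) (coprime_quo N cBR)
    (coprime_quo N cRS) (quo_le_norm N hBR) (quo_le_norm N h.BS) (quo_le_norm N hRS) (quo_le_cent N hZR)
    (quo_le_cent N h.ZB) ?_ ?_ hm1 ?_ (cB ▸ hm3)
  · rw [← quo_cent_coprime nS inf_le_left (coprime_mono cRS.symm le_rfl inf_le_left) (Or.inl h.sol), quo_self]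
  · rw [quo_cent_disj nR nS hRS dS]; exact quo_mono N hSR
  · rw [← quo_comm nR nB, ← quo_sup (hKR.trans nR) nB, quo_cent_disj (sup_le (hKR.trans nR) nB) nS
      (sup_le (hKR.trans hRS) h.BS) dS]
    exact quo_mono N hK
  · rw [← quo_comm nS nB, ← quo_sup ((comm_le_left h.BS).trans nS) (hX.le.trans nS), hc _ (sup_le (comm_le_left h.BS) hX.le),
      hc Z hX.le, hm2]

theorem tl3_f (hA : TwoP A) (ht : t.Prime) (hq : q.Prime) (hr : r.Prime) (hqr : r ≠ q) (hP : IsPGroup r P)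
    (hQ : IsPGroup q Q) (hV : IsElementaryAbelian t V) (hAP : A ≤ N_(P)) (hAQ : A ≤ N_(Q)) (hPQ : P ≤ N_(Q))
    (hPV : P ≤ N_(V)) (hQV : Q ≤ N_(V)) (hAV : A ≤ N_(V)) (cQV : (Nat.card Q).Coprime (Nat.card V))
    (cAV : (Nat.card A).Coprime (Nat.card V)) (cAQ : (Nat.card A).Coprime (Nat.card Q))
    (cAP : (Nat.card A).Coprime (Nat.card P)) (fV : V ⊓ C_(A) = ⊥) (fQ : Q ⊓ C_(A) = ⊥) (fP : P ⊓ C_(A) = ⊥)
    (hf : Q ⊓ C_(V) = ⊥) : P ≤ C_(Q) := by
  by_contra hne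
  have := Fact.mk hq
  have cP : ∀ R ≤ P, (Nat.card R).Coprime q := fun R hR =>
    ((Nat.Prime.coprime_iff_not_dvd hq).2 (pg_not_dvd hq hr (pg_le hP hR) hqr.symm)).symm
  obtain ⟨⟨R, S⟩, ⟨hRP, hSQ, hAR, hRS, hAS, hne⟩, hmin⟩ := (wellFounded_lt (α := Subgroup X × Subgroup X)).has_min
    {Y | Y.1 ≤ P ∧ Y.2 ≤ Q ∧ A ≤ N_(Y.1) ∧ Y.1 ≤ N_(Y.2) ∧ A ≤ N_(Y.2) ∧ ¬ Y.1 ≤ C_(Y.2)} ⟨(P, Q), le_rfl, le_rfl, hAP, hPQ, hAQ, hne⟩
  simp only at hRP hSQ hAR hRS hAS hne
  have h : MinAct q (R ⊔ A) R S := ⟨pg_le hQ hSQ, sup_le hRS hAS, le_sup_left, sup_le_norm_left hAR, cP R hRP,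
    fun e => hne (cent_symm (comm_eq_bot.1 e)), fun Y a b => comm_eq_bot.2 (cent_symm (by_contra fun c => hmin (R, Y)
      ⟨hRP, a.le.trans hSQ, hAR, le_sup_left.trans b, le_sup_right.trans b, c⟩ (Prod.lt_iff.2 (Or.inr ⟨le_rfl, a⟩))))⟩
  have hRm : ∀ L < R, A ≤ N_(L) → L ≤ C_(S) := fun L a b => by_contra fun c => hmin (L, S)
    ⟨a.le.trans hRP, hSQ, b, a.le.trans hRS, hAS, c⟩ (Prod.lt_iff.2 (Or.inl ⟨a, le_rfl⟩))
  have hRs := pg_sol hr (pg_le hP hRP)
  have cAS := coprime_mono cAQ le_rfl hSQ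
  have cAR := coprime_mono cAP le_rfl hRP
  have cSV := coprime_mono cQV hSQ le_rfl
  have fS := eq_bot_mono fQ (inf_le_inf_right _ hSQ)
  have hfS := eq_bot_mono hf (inf_le_inf_right _ hSQ)
  have hK := fun B a b => k1 (B := B) hA hq hRs hAR h hRm cAS cAR fS (eq_bot_mono fP (inf_le_inf_right _ hRP)) a b
  have hZa := (der_elem hq h).abelian
  obtain ⟨Z₀, V₀, h1, h2, h3, h4, h5, h6, h6', h7, h8, hS⟩ := exists_sit ht hq h le_sup_right hV (hSQ.trans hQV)
    (sup_le (hRP.trans hPV) hAV) cSV cAV cAS fV fun e => by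
      have e' := eq_bot_mono hfS (le_inf (der_le S) e)
      exact h.ne_bot (eq_bot_mono hfS (le_inf le_rfl (lemAB (abelian_iff_der.2 e') hV.abelian hRS hAS hAR (hSQ.trans hQV)
        (hRP.trans hPV) hAV cSV cAV cAS h.cop' cAR hRs fV (fun B a b => eq_bot_mono e' (hK B a b)) (Or.inr fS) hA.prime)))
  set Z := ⁅S, S⁆ with hZd
  set B := A ⊓ cm Z Z₀ with hB
  set N := S ⊓ C_(V₀) with hN
  have hZ0 : Z ≤ N_(Z₀) := le_norm_of_abelian hZa h1.le
  have hBp : (Nat.card B).Prime := hA.prime B inf_le_left (fun e => h3 (by simpa [e] using h7)) fun e => h1.not_ge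
    ((coprime_comm_eq_of_cent_bot (norm_der hAS) (coprime_mono cAS le_rfl (der_le S)) (Or.inr (sol_of_abelian hZa))
      (eq_bot_mono fS (inf_le_inf_right _ (der_le S)))).ge.trans (comm_cm hZ0 (e.ge.trans inf_le_right)))
  have hZR : Z ≤ C_(R) := h.cent_eq_der.ge.trans inf_le_right
  have hR0 : R ≤ N_(V₀) := h8 R le_sup_left (le_cm hZ0 h1.le ((comm_eq_bot.2 hZR).le.trans bot_le))
  have hB0 : B ≤ N_(V₀) := h8 B (inf_le_left.trans le_sup_right) inf_le_right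
  have hBR : B ≤ N_(R) := inf_le_left.trans hAR
  have nS : S ≤ N_(N) := le_norm_inf_cent h4
  have nB : B ≤ N_(N) := norm_inf (inf_le_left.trans hAS) (norm_cent hB0)
  have nR : R ≤ N_(N) := norm_inf hRS (norm_cent hR0)
  have hd : N ⊓ B = ⊥ := BG.inf_eq_bot_of_coprime (coprime_mono cAS.symm inf_le_left inf_le_left)
  have hKR := comm_le_left hBR
  have hSs := pg_sol hq h.pg
  refine tl3_core hS (by rwa [card_quo_of_disj nB hd]) (sol_quo N hRs) ?_ (coprime_quo N (coprime_mono cAR inf_le_left le_rfl))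
    (coprime_quo N h.cop') (quo_le_norm N hBR) (quo_le_norm N hRS) (quo_le_norm N hR0) ?_ ?_ ?_
  · rw [← quo_comm nR nR]
    exact quo_le_cent N (hRm _ (der_lt hRs fun e => hne (e.le.trans bot_le)) (norm_der hAR))
  · rw [← quo_comm nS nS]
    exact quo_le_cent N hZR
  · rw [← quo_cent_coprime nR inf_le_left (coprime_mono h.cop' le_rfl inf_le_left) (Or.inl hRs),
      h.cent_eq_der, quo_comm nS nS]
  · rw [← quo_comm nR nB, ← quo_sup (hKR.trans nR) nB, ← quo_cent_coprime (sup_le (hKR.trans nR) nB) inf_le_left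
      (Nat.Coprime.coprime_dvd_left (card_sup_dvd (right_le_norm_comm R B)) (Nat.Coprime.mul_left
        (coprime_mono h.cop' hKR inf_le_left) (coprime_mono cAS inf_le_left inf_le_left)))
      (Or.inr (sol_of_le hSs inf_le_left)), ← quo_comm nS nS]
    exact quo_mono N (hK B inf_le_left hBp)

theorem tl3 (hA : TwoP A) (ht : t.Prime) (hq : q.Prime) (hr : r.Prime) (hqr : r ≠ q) (hP : IsPGroup r P)
    (hQ : IsPGroup q Q) (hV : IsPGroup t V) (hAP : A ≤ N_(P)) (hAQ : A ≤ N_(Q)) (hPQ : P ≤ N_(Q))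
    (hPV : P ≤ N_(V)) (hQV : Q ≤ N_(V)) (hAV : A ≤ N_(V)) (cQV : (Nat.card Q).Coprime (Nat.card V))
    (cAV : (Nat.card A).Coprime (Nat.card V)) (cAQ : (Nat.card A).Coprime (Nat.card Q))
    (cAP : (Nat.card A).Coprime (Nat.card P)) (fV : V ⊓ C_(A) = ⊥) (fQ : Q ⊓ C_(A) = ⊥) (fP : P ⊓ C_(A) = ⊥) :
    ⁅Q, P⁆ ≤ C_(V) := by
  set N := rN V Q with hN
  have nQ : Q ≤ N_(N) := rN_norm hQV (le_norm Q)
  have nA : A ≤ N_(N) := rN_norm hAV hAQ
  have nP : P ≤ N_(N) := rN_norm hPV hPQ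
  have hd : N ⊓ A = ⊥ := rN_disj cAV cAQ
  have h1 := tl3_f (hA.quo nA hd) ht hq hr hqr (pgroup_quo N hP)
    (pgroup_quo N hQ) (rN_elem ht hV) (quo_le_norm N hAP) (quo_le_norm N hAQ) (quo_le_norm N hPQ) (quo_le_norm N hPV)
    (quo_le_norm N hQV) (quo_le_norm N hAV) (coprime_quo N cQV) (coprime_quo N cAV) (coprime_quo N cAQ) (coprime_quo N cAP)
    (quo_cent_bot nA rN_normV hAV cAV (pg_sol ht hV) (fV.le.trans bot_le))
    (quo_cent_bot nA nQ hAQ cAQ (pg_sol hq hQ) (fQ.le.trans bot_le))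
    (quo_cent_bot nA nP hAP cAP (pg_sol hr hP) (fP.le.trans bot_le)) (rN_faith ht hV hQV cQV)
  exact (le_inf (comm_le_left hPQ) (comm_le_of_quo nQ nP (cent_symm h1))).trans (rN_inf cQV)

theorem height_two (hA : TwoP A) (hs : Group.IsSolvable K) (hAK : A ≤ N_(K)) (cAK : (Nat.card A).Coprime (Nat.card K))
    (hfix : K ⊓ C_(A) = ⊥) : Group.IsNilpotent (quo (fittingOf K) K) := by
  have h1 := three_layer hs hAK cAK le_rfl fun p q r hp hq hr h1 h2 P hPK Q hQK hP hQ hAP hAQ hPQ =>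
    (comm_mono le_rfl (comm_le_left hAP)).trans (tl3 hA hr hq hp h1.symm hP hQ (pcore_pg hr K) hAP hAQ hPQ
      (hPK.trans (le_norm_pcore _ K)) (hQK.trans (le_norm_pcore _ K)) (norm_pcore _ hAK)
      (pg_coprime_ne hq hr hQ (pcore_pg hr K) h2.symm) (coprime_mono cAK le_rfl (pcore_le _ K))
      (coprime_mono cAK le_rfl hQK) (coprime_mono cAK le_rfl hPK) (eq_bot_mono hfix (inf_le_inf_right _ (pcore_le _ K)))
      (eq_bot_mono hfix (inf_le_inf_right _ hQK)) (eq_bot_mono hfix (inf_le_inf_right _ hPK)))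
  rw [coprime_comm_eq_of_cent_bot (quo_le_norm _ hAK) (coprime_quo _ cAK) (Or.inr (sol_quo _ hs))
    (quo_cent_bot (norm_fit hAK) (le_norm_fit K) hAK cAK hs (hfix.le.trans bot_le))] at h1
  exact nil_of_le_fit h1

theorem res_two (hA : TwoP A) (hs : Group.IsSolvable K) (hAK : A ≤ N_(K)) (cAK : (Nat.card A).Coprime (Nat.card K))
    (hfix : K ⊓ C_(A) = ⊥) : res^[2] K = ⊥ :=
  resn_succ_of_quo (n := 1) (res_eq_bot.2 (height_two hA hs hAK cAK hfix))

theorem twoP_of_elem (hp : p.Prime) (h : IsElem p 2 A H) : TwoP A := by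
  refine ⟨fun B a b c => h.card_of_ne hp a b c ▸ hp, fun B a b => ?_, sol_of_abelian h.abelian⟩
  have e := pg_prime_eq hp (pg_le h.elemAb.pg a) b dvd_rfl
  obtain ⟨Y, h1, h2, -, h3⟩ := h.exists_other hp a e
  exact ⟨Y, h1, h2 ▸ hp, h3.sup, Or.inl (le_norm_of_abelian h.abelian a)⟩

theorem twoP_of_pq (hp : p.Prime) (hq : q.Prime) (hpq : p ≠ q) (h : Nat.card A = p * q) : TwoP A := by
  wlog hlt : p < q generalizing p q
  · exact this hq hp hpq.symm (h.trans (mul_comm _ _)) (by omega)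
  have h1 : ∀ B ≤ A, Nat.card B = q → A ≤ N_(B) := by
    intro B hB hc
    have h2 := card_mul_relIndex hB
    rw [hc, h, mul_comm p] at h2
    have h3 : (B.subgroupOf A).index = (Nat.card A).minFac := by
      rw [h, show (B.subgroupOf A).index = p from Nat.eq_of_mul_eq_mul_left hq.pos h2]
      refine le_antisymm ?_ (Nat.minFac_le_of_dvd hp.two_le (Dvd.intro _ rfl))
      rcases (Nat.Prime.dvd_mul (Nat.minFac_prime (by nlinarith [hp.two_le, hq.two_le] : p * q ≠ 1))).1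
        (Nat.minFac_dvd (p * q)) with e | e
      · exact ((Nat.prime_dvd_prime_iff_eq (Nat.minFac_prime (by nlinarith [hp.two_le, hq.two_le])) hp).1 e).ge
      · exact hlt.le.trans ((Nat.prime_dvd_prime_iff_eq (Nat.minFac_prime (by nlinarith [hp.two_le, hq.two_le])) hq).1 e).ge
    exact (Subgroup.normal_subgroupOf_iff_le_normalizer hB).1 (Subgroup.normal_of_index_eq_minFac_card h3)
  have h2 : ∀ B ≤ A, ∀ C ≤ A, Nat.card B = p → Nat.card C = q → B ⊔ C = A := fun B a C b c d =>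
    eq_of_le_of_card_le (sup_le a b) (h ▸ Nat.le_of_dvd (card_pos _) (((Nat.coprime_primes hp hq).2 hpq).mul_dvd_of_dvd_of_dvd
      (c ▸ card_dvd le_sup_left) (d ▸ card_dvd le_sup_right)))
  obtain ⟨P, hP, cP⟩ := exists_card_eq_prime hp (H := A) (h ▸ Dvd.intro _ rfl)
  obtain ⟨Q, hQ, cQ⟩ := exists_card_eq_prime hq (H := A) (h ▸ Dvd.intro_left _ rfl)
  refine ⟨fun B a b c => ?_, fun B a b => ?_, ?_⟩
  · obtain ⟨x, y, hx, hy, e⟩ := (Nat.dvd_mul).1 (h ▸ card_dvd a)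
    rcases (Nat.dvd_prime hp).1 hx with rfl | rfl <;> rcases (Nat.dvd_prime hq).1 hy with rfl | rfl
    · exact absurd (BG.card_eq_one.1 e.symm) b
    · rwa [← e, one_mul]
    · rwa [← e, mul_one]
    · exact absurd (eq_of_le_of_card_eq a (e.symm.trans h.symm)) c
  · rcases (Nat.Prime.dvd_mul b).1 (h ▸ card_dvd a) with e | e
    · exact ⟨Q, hQ, cQ ▸ hq, h2 B a Q hQ ((Nat.prime_dvd_prime_iff_eq b hp).1 e) cQ, Or.inr (h1 Q hQ cQ)⟩
    · have e' := (Nat.prime_dvd_prime_iff_eq b hq).1 e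
      exact ⟨P, hP, cP ▸ hp, (sup_comm _ _).trans (h2 P hP B a cP e'), Or.inl (h1 B a e')⟩
  · rw [← h2 P hP Q hQ cP cQ, sup_comm]
    exact sol_sup (pg_sol hp (pg_of_card_eq cP)) (pg_sol hq (pg_of_card_eq cQ)) (hP.trans (h1 Q hQ cQ))

end H03
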