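import Mathlib
import Cfsg.Agent.H03.FP4

/-!
Fixed point free operator groups isomorphic to the symmetric group of degree 3 (Shult; namespace H03):
`S3`, `S3.der_le_t`, `S3.der_le_s`, `s3_der`.
-/

set_option autoImplicit false
open Cfsg BG H24
open scoped IsMulCommutative commutatorElement

namespace H03

universe u
variable {X : Type u} [Group X] [Finite X] {V A B C N S T K Q : Subgroup X} {s t : X} {q r : ℕ}

/-- `A` is generated by `s`, `t` satisfying the relations of the symmetric group of degree 3 -/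
structure S3 (A : Subgroup X) (s t : X) : Prop where
  ss : s * s = s⁻¹
  tt : t * t = 1
  ts : t * s * t⁻¹ = s⁻¹
  gen : Subgroup.zpowers s ⊔ Subgroup.zpowers t = A

omit [Finite X] in
theorem S3.s_mem (h : S3 A s t) : s ∈ A := h.gen ▸ Subgroup.mem_sup_left (Subgroup.mem_zpowers s)

omit [Finite X] in
theorem S3.t_mem (h : S3 A s t) : t ∈ A := h.gen ▸ Subgroup.mem_sup_right (Subgroup.mem_zpowers t)

omit [Finite X] in
theorem S3.le (h : S3 A s t) (h1 : s ∈ B) (h2 : t ∈ B) : A ≤ B :=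
  h.gen ▸ sup_le (Subgroup.zpowers_le.2 h1) (Subgroup.zpowers_le.2 h2)

omit [Finite X] in
theorem S3.quo (h : S3 A s t) (hA : A ≤ N_(N)) : S3 (quo N A) (qmk N ⟨s, hA h.s_mem⟩) (qmk N ⟨t, hA h.t_mem⟩) := by
  refine ⟨?_, ?_, ?_, ?_⟩
  · rw [← map_mul, ← map_inv]; congr 1; exact Subtype.ext h.ss
  · rw [← map_mul, ← map_one (qmk N)]; congr 1; exact Subtype.ext h.tt
  · rw [← map_mul, ← map_inv, ← map_mul, ← map_inv]; congr 1; exact Subtype.ext h.ts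
  · rw [← quo_zpowers, ← quo_zpowers, ← quo_sup (Subgroup.zpowers_le.2 (hA h.s_mem)) (Subgroup.zpowers_le.2 (hA h.t_mem)),
      h.gen]

theorem exists_s3 (hc : Nat.card A = 6) (hna : ¬ IsMulCommutative A) (hS : S ≤ A) (cS : Nat.card S = 3) (hT : T ≤ A)
    (cT : Nat.card T = 2) : ∃ s t, S3 A s t ∧ Subgroup.zpowers s = S ∧ Subgroup.zpowers t = T := by
  have pS : (Nat.card S).Prime := cS ▸ Nat.prime_three
  have pT : (Nat.card T).Prime := cT ▸ Nat.prime_two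
  obtain ⟨s, rfl⟩ := cyclic_iff.1 (cyclic_of_prime pS)
  obtain ⟨t, rfl⟩ := cyclic_iff.1 (cyclic_of_prime pT)
  have h1 : A ≤ N_(Subgroup.zpowers s) := by
    have h2 := card_mul_relIndex hS
    rw [cS, hc] at h2
    exact (Subgroup.normal_subgroupOf_iff_le_normalizer hS).1
      (Subgroup.normal_of_index_eq_two (show (Subgroup.zpowers s).relIndex A = 2 by omega))
  have h2 : Subgroup.zpowers s ⊔ Subgroup.zpowers t = A :=
    eq_of_le_of_card_le (sup_le hS hT) (hc ▸ Nat.le_of_dvd (card_pos _)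
      ((show Nat.Coprime 3 2 by norm_num).mul_dvd_of_dvd_of_dvd (cS ▸ card_dvd le_sup_left) (cT ▸ card_dvd le_sup_right)))
  have h3 : t * t = 1 := by rw [← pow_two, ← cT]; exact pow_card_eq_one (Subgroup.mem_zpowers t)
  have h4 : s ^ 3 = 1 := by rw [← cS]; exact pow_card_eq_one (Subgroup.mem_zpowers s)
  refine ⟨s, t, ⟨?_, h3, ?_, h2⟩, rfl, rfl⟩
  · rw [eq_inv_iff_mul_eq_one, ← h4, pow_three']
  · refine inv_of_fpf (h1 (hT (Subgroup.mem_zpowers t))) (h3 ▸ one_mem _) (inf_eq_bot_of_prime pS fun e => hna ?_) s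
      (Subgroup.mem_zpowers s)
    rw [← cent_zpowers] at e
    rw [← h2]
    exact abelian_sup (abelian_of_cyclic (cyclic_of_prime pS)) (abelian_of_cyclic (cyclic_of_prime pT)) e

theorem S3.abelian (h : S3 A s t) (hAQ : A ≤ N_(Q)) (hc : (Nat.card A).Coprime (Nat.card Q)) (hs : Group.IsSolvable Q)
    (hfix : Q ⊓ C_(A) = ⊥) (hN : ⁅Q, Subgroup.zpowers t⁆ = N) (h0 : N ⊓ cj s N ⊓ cj s⁻¹ N = ⊥) : IsMulCommutative Q := by
  have sQ := hAQ h.s_mem
  have tQ := hAQ h.t_mem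
  have hNQ : N ≤ Q := hN ▸ comm_le_left (Subgroup.zpowers_le.2 tQ)
  have hQN : Q ≤ N_(N) := hN ▸ left_le_norm_comm _ _
  have htN : t ∈ N_(N) := hN ▸ right_le_norm_comm _ _ (Subgroup.mem_zpowers t)
  have n1 : ∀ x ∈ N_(Q), cj x N ≤ Q ∧ Q ≤ N_(cj x N) := fun x hx =>
    ⟨cj_le_of_mem_norm hNQ hx, by rw [← cj_norm, le_cj_iff, cj_of_mem_norm (inv_mem hx)]; exact hQN⟩
  obtain ⟨a1, a2⟩ := n1 s sQ
  obtain ⟨b1, b2⟩ := n1 s⁻¹ (inv_mem sQ)
  have ss' : s⁻¹ * s⁻¹ = s := by rw [← mul_inv_rev, h.ss, inv_inv]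
  have ts' : t * s⁻¹ * t⁻¹ = s := inv_injective ((by group : _ = t * s * t⁻¹).trans h.ts)
  have c1 : cj s (cj s N) = cj s⁻¹ N := by rw [cj_cj, h.ss]
  have c2 : cj s⁻¹ (cj s⁻¹ N) = cj s N := by rw [cj_cj, ss']
  have c3 : cj t (cj s N) = cj s⁻¹ N := by
    rw [cj_cj, show t * s = s⁻¹ * t by rw [← h.ts]; group, cj_mul_of_mem_norm htN]
  have c4 : cj t (cj s⁻¹ N) = cj s N := by
    rw [cj_cj, show t * s⁻¹ = s * t from mul_inv_eq_iff_eq_mul.1 ts', cj_mul_of_mem_norm htN]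
  -- `Q = N N^s`
  have g1 : Q ≤ N ⊔ cj s N := by
    have hL : Q ≤ N_(N ⊔ cj s N) := norm_sup hQN a2
    have hL' : N ⊔ cj s N ≤ Q := sup_le hNQ a1
    have e1 : t ∈ cm Q (N ⊔ cj s N) := le_cm hL hL' (hN.le.trans le_sup_left) (Subgroup.mem_zpowers t)
    have e2 : s * t * s⁻¹ ∈ cm Q (N ⊔ cj s N) := by
      refine le_cm hL hL' (le_trans ?_ le_sup_right) (Subgroup.mem_zpowers _)
      rw [← hN, cj_comm, cj_zpowers, cj_of_mem_norm sQ]
    have e3 : s ∈ cm Q (N ⊔ cj s N) := by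
      have e4 := mul_mem e1 (inv_mem e2)
      rwa [show t * (s * t * s⁻¹)⁻¹ = t * s * t⁻¹ * s⁻¹ by group, h.ts, ss'] at e4
    rw [← coprime_comm_eq_of_cent_bot hAQ hc (Or.inr hs) hfix]
    exact comm_cm hL (h.le e3 e1)
  -- `N^s ∩ N^{s⁻¹} = 1`
  have g2 : cj s N ⊓ cj s⁻¹ N = ⊥ := by
    set M := cj s N ⊓ cj s⁻¹ N with hM
    have hMN : M ⊓ N = ⊥ := by rw [← h0, hM]; ac_rfl
    have m1 : cj s M ≤ N := by rw [hM, cj_inf, cj_cj_inv]; exact inf_le_right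
    have m2 : cj s⁻¹ M ≤ N := by rw [hM, cj_inf, cj_inv_cj]; exact inf_le_left
    have m3 : M ≤ C_(N) := le_cent_of_disj ((inf_le_left.trans a1).trans hQN) (hNQ.trans (norm_inf a2 b2)) hMN
    have m4 : M ≤ C_(Subgroup.zpowers t) := by
      refine comm_eq_bot.1 (eq_bot_mono hMN (le_inf (comm_le_left (Subgroup.zpowers_le.2 ?_)) ?_))
      · rw [← cj_eq_self_iff, hM, cj_inf, c3, c4, inf_comm]
      · exact (comm_mono (inf_le_left.trans a1) le_rfl).trans hN.le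
    refine le_bot_iff.1 fun m hm => ?_
    have k1 : s * m * s⁻¹ ∈ N := m1 (conj_mem_cj s hm)
    have k2 : s⁻¹ * m * s⁻¹⁻¹ ∈ N := m2 (conj_mem_cj s⁻¹ hm)
    rw [inv_inv] at k2
    have l1 : s * m * s⁻¹ * m = m * (s * m * s⁻¹) := mem_cent.1 (m3 hm) _ k1
    have l2 : s⁻¹ * m * s * m = m * (s⁻¹ * m * s) := mem_cent.1 (m3 hm) _ k2
    have tm : t * m * t⁻¹ = m := by rw [mem_cent.1 (m4 hm) t (Subgroup.mem_zpowers t)]; group
    have su : s * (s * m * s⁻¹) * s⁻¹ = s⁻¹ * m * s :=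
      (by group : _ = s * s * m * (s⁻¹ * s⁻¹)).trans (by rw [h.ss, ss'])
    have tu : t * (s * m * s⁻¹) * t⁻¹ = s⁻¹ * m * s :=
      (by group : _ = t * s * t⁻¹ * (t * m * t⁻¹) * (t * s⁻¹ * t⁻¹)).trans (by rw [h.ts, ts', tm])
    have tv : t * (s⁻¹ * m * s) * t⁻¹ = s * m * s⁻¹ :=
      (by group : _ = t * s⁻¹ * t⁻¹ * (t * m * t⁻¹) * (t * s * t⁻¹)).trans (by rw [h.ts, ts', tm])
    have sv : s * (s⁻¹ * m * s) * s⁻¹ = m := by group
    generalize hu : s * m * s⁻¹ = u at *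
    generalize s⁻¹ * m * s = v at *
    have l3 : v * u = u * v := by
      calc v * u = s * (u * m) * s⁻¹ := by rw [← su, ← hu]; group
        _ = _ := by rw [l1, ← su, ← hu]; group
    have hy : m * u * v ∈ Q ⊓ C_(A) := by
      refine Subgroup.mem_inf.2 ⟨mul_mem (mul_mem (a1 hm.1) (hNQ k1)) (hNQ k2), ?_⟩
      refine Subgroup.zpowers_le.1 (cent_symm (h.le ?_ ?_)) <;> rw [cent_zpowers, mem_cent1, ← mul_inv_eq_iff_eq_mul]
      · calc s * (m * u * v) * s⁻¹ = (s * m * s⁻¹) * (s * u * s⁻¹) * (s * v * s⁻¹) := by group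
          _ = _ := by rw [hu, su, sv, mul_assoc, l2, ← mul_assoc, l1]
      · calc t * (m * u * v) * t⁻¹ = (t * m * t⁻¹) * (t * u * t⁻¹) * (t * v * t⁻¹) := by group
          _ = _ := by rw [tm, tu, tv, mul_assoc, l3, mul_assoc]
    rw [hfix, Subgroup.mem_bot, mul_assoc, mul_eq_one_iff_eq_inv] at hy
    exact hMN.le (Subgroup.mem_inf.2 ⟨hm, hy ▸ inv_mem (mul_mem k1 k2)⟩)
  have g3 : N ⊓ cj s N = ⊥ := by rw [← cj_eq_bot_iff (g := s), cj_inf, c1, g2]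
  have g4 : N ⊓ cj s⁻¹ N = ⊥ := by rw [← cj_eq_bot_iff (g := s⁻¹), cj_inf, c2, inf_comm, g2]
  have g5 : N ≤ C_(Q) := by
    have e : Q ≤ cj s N ⊔ cj s⁻¹ N := by rw [← c1, ← cj_sup, le_cj_iff, cj_of_mem_norm (inv_mem sQ)]; exact g1
    exact (le_cent_sup (le_cent_of_disj (hNQ.trans a2) (a1.trans hQN) g3)
      (le_cent_of_disj (hNQ.trans b2) (b1.trans hQN) g4)).trans (cent_anti e)
  refine abelian_iff.2 (g1.trans (sup_le g5 ?_))
  rw [cj_le_iff, cj_cent, cj_of_mem_norm (inv_mem sQ)]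
  exact g5

theorem S3.der_le_t (h : S3 A s t) (hAQ : A ≤ N_(Q)) (hc : (Nat.card A).Coprime (Nat.card Q)) (hs : Group.IsSolvable Q)
    (hfix : Q ⊓ C_(A) = ⊥) : ⁅Q, Q⁆ ≤ ⁅Q, Subgroup.zpowers t⁆ := by
  set N := ⁅Q, Subgroup.zpowers t⁆ with hN
  have sQ := hAQ h.s_mem
  have htN : t ∈ N_(N) := right_le_norm_comm _ _ (Subgroup.mem_zpowers t)
  have ss' : s⁻¹ * s⁻¹ = s := by rw [← mul_inv_rev, h.ss, inv_inv]
  have ts' : t * s⁻¹ * t⁻¹ = s := inv_injective ((by group : _ = t * s * t⁻¹).trans h.ts)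
  have n1 : ∀ x ∈ N_(Q), Q ≤ N_(cj x N) := fun x hx => by
    rw [← cj_norm, le_cj_iff, cj_of_mem_norm (inv_mem hx)]; exact left_le_norm_comm _ _
  set C := N ⊓ cj s N ⊓ cj s⁻¹ N with hC
  have hQC : Q ≤ N_(C) := norm_inf (norm_inf (left_le_norm_comm _ _) (n1 s sQ)) (n1 _ (inv_mem sQ))
  have hAC : A ≤ N_(C) := by
    refine h.le ?_ ?_ <;> rw [← cj_eq_self_iff, hC, cj_inf, cj_inf]
    · rw [cj_cj, h.ss, cj_cj_inv]; ac_rfl
    · rw [cj_cj, cj_cj, show t * s = s⁻¹ * t by rw [← h.ts]; group, show t * s⁻¹ = s * t from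
        mul_inv_eq_iff_eq_mul.1 ts', cj_mul_of_mem_norm htN, cj_mul_of_mem_norm htN, cj_of_mem_norm htN]
      ac_rfl
  refine ((abelian_quo_iff hQC).1 ((h.quo hAC).abelian (quo_le_norm C hAQ) (coprime_quo C hc) (sol_quo C hs)
    (quo_cent_bot hAC hQC hAQ hc hs (hfix.le.trans bot_le)) (N := BG.quo C N) ?_ ?_)).trans (inf_le_left.trans inf_le_left)
  · rw [hN, quo_comm hQC (Subgroup.zpowers_le.2 (hAC h.t_mem)), quo_zpowers]
  · rw [← map_inv, ← quo_cj, show (⟨s, hAC h.s_mem⟩ : N_(C))⁻¹ = ⟨s⁻¹, inv_mem (hAC h.s_mem)⟩ from rfl, ← quo_cj,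
      ← quo_inf (inf_le_left.trans inf_le_left), ← quo_inf inf_le_left, quo_self]

theorem S3.der_le_s (h : S3 A s t) (hAQ : A ≤ N_(Q)) (hc : (Nat.card A).Coprime (Nat.card Q)) (hs : Group.IsSolvable Q)
    (hfix : Q ⊓ C_(A) = ⊥) : ⁅Q, Q⁆ ≤ ⁅Q, Subgroup.zpowers s⁆ := by
  set N := ⁅Q, Subgroup.zpowers s⁆ with hN
  have hQN : Q ≤ N_(N) := left_le_norm_comm _ _
  have hAN : A ≤ N_(N) := by
    refine norm_comm hAQ (h.le (le_norm _ (Subgroup.mem_zpowers s)) ?_)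
    rw [← cj_eq_self_iff, cj_zpowers, h.ts, Subgroup.zpowers_inv]
  have h1 := h.quo hAN
  refine (abelian_quo_iff hQN).1 (abelian_of_fpf (quo_le_norm N hAQ h1.t_mem) (h1.tt ▸ one_mem _) ?_)
  refine eq_bot_mono (quo_cent_bot hAN hQN hAQ hc hs (hfix.le.trans bot_le)) (le_inf inf_le_left ?_)
  rw [← h1.gen]
  refine le_cent_sup (inf_le_left.trans ?_) (by rw [cent_zpowers]; exact inf_le_right)
  rw [← quo_zpowers]
  exact (quo_le_cent_iff hQN (Subgroup.zpowers_le.2 (hAN h.s_mem))).2 le_rfl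

theorem s3_core_f (hc : Nat.card A = 6) (hna : ¬ IsMulCommutative A) (hr : r.Prime) (hq : q.Prime) (hQ : IsPGroup q Q)
    (hAQ : A ≤ N_(Q)) (hV : IsElementaryAbelian r V) (hQV : Q ≤ N_(V)) (hAV : A ≤ N_(V))
    (cQV : (Nat.card Q).Coprime (Nat.card V)) (cAV : (Nat.card A).Coprime (Nat.card V))
    (cAQ : (Nat.card A).Coprime (Nat.card Q)) (fV : V ⊓ C_(A) = ⊥) (fQ : Q ⊓ C_(A) = ⊥) (hf : Q ⊓ C_(V) = ⊥) :
    ⁅Q, Q⁆ = ⊥ := by
  by_contra hne
  have hs := pg_sol hq hQ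
  have h1 : ⁅Q, Q⁆ ≤ Q := der_le Q
  set Z := ⁅Q, Q⁆ ⊓ C_(Q) with hZ
  have hZQ : Z ≤ Q := inf_le_left.trans h1
  have hZ0 : Z ≠ ⊥ := nil_meet_center (pg_nil hq hQ) h1 (left_le_norm_comm _ _) hne
  have hAZ : A ≤ N_(Z) := norm_inf (norm_comm hAQ hAQ) (norm_cent hAQ)
  have hZa : IsMulCommutative Z := abelian_iff.2 (inf_le_right.trans (cent_anti hZQ))
  obtain ⟨Z₀, V₀, a1, a2, a3, a4, a5, a6, a7, -⟩ := exists_comp hV.abelian hZa (hZQ.trans hQV) hAV hAZ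
    (coprime_mono cQV hZQ le_rfl) cAV fV fun e => hZ0 (eq_bot_mono hf (le_inf hZQ e))
  have hZ0' : Z ≤ N_(Z₀) := le_norm_of_abelian hZa a1.le
  have hQ0 : Q ≤ N_(V₀) := a7 Q hQV (le_norm_of_cent (cent_symm inf_le_right))
    (le_norm_of_cent (cent_symm (a1.le.trans inf_le_right)))
  set B := A ⊓ cm Z Z₀ with hB
  have hB0 : B ≤ N_(V₀) := a7 B (inf_le_left.trans hAV) (inf_le_left.trans hAZ) (inf_le_right.trans cm_le_norm)
  have hBp : (Nat.card B).Prime := by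
    refine (twoP_of_pq Nat.prime_two Nat.prime_three (by norm_num) hc).prime B inf_le_left (fun e => a3 (by simpa [e] using a6))
      fun e => a1.not_ge ?_
    rw [← coprime_comm_eq_of_cent_bot hAZ (coprime_mono cAQ le_rfl hZQ) (Or.inr (sol_of_le hs hZQ))
      (eq_bot_mono fQ (inf_le_inf_right _ hZQ))]
    exact comm_cm hZ0' (e.ge.trans inf_le_right)
  have key : ⁅Q, Q⁆ ≤ C_(V₀) := by
    rcases (Nat.Prime.dvd_mul hBp (m := 2) (n := 3)).1 ((card_dvd inf_le_left).trans hc.dvd) with e | e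
    · have e' := (Nat.prime_dvd_prime_iff_eq hBp Nat.prime_two).1 e
      obtain ⟨S, hS, cS⟩ := exists_card_eq_prime Nat.prime_three (H := A) (by norm_num [hc])
      obtain ⟨s, t, h, -, h3⟩ := exists_s3 hc hna hS cS inf_le_left e'
      exact (h.der_le_t hAQ cAQ hs fQ).trans (h3 ▸ comm_le_cent_of_inv e' hB0 a6 hQ0)
    · have e' := (Nat.prime_dvd_prime_iff_eq hBp Nat.prime_three).1 e
      obtain ⟨T, hT, cT⟩ := exists_card_eq_prime Nat.prime_two (H := A) (by norm_num [hc])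
      obtain ⟨s, t, h, h3, -⟩ := exists_s3 hc hna inf_le_left e' hT cT
      refine (h.der_le_s hAQ cAQ hs fQ).trans (h3 ▸ T3_4 hr ?_ (inf_le_left.trans hAQ) hBp (coprime_mono cAQ inf_le_left le_rfl)
        (hV.of_le a2) (fun hd => ?_) (sup_le hQ0 hB0) a6)
      · exact Nat.coprime_two_left.1 (Nat.Coprime.coprime_dvd_left (by norm_num [hc]) cAQ)
      · have hd' := pg_dvd hr (pg_le hV.pg a2) a3 |>.trans (card_dvd a2)
        rcases (Nat.Prime.dvd_mul hr).1 (hd.trans (card_sup_dvd (inf_le_left.trans hAQ))) with e1 | e1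
        · exact BG.not_dvd_of_coprime hr cQV e1 hd'
        · exact BG.not_dvd_of_coprime hr cAV (e1.trans (card_dvd inf_le_left)) hd'
  obtain ⟨z, hz, hz0⟩ := SetLike.not_le_iff_exists.1 a1.not_ge
  refine a3 (eq_bot_mono (a5 z hz hz0) (le_inf le_rfl ?_))
  rw [← cent_zpowers]
  exact cent_symm (Subgroup.zpowers_le.2 (key hz.1))

theorem s3_core (hc : Nat.card A = 6) (hna : ¬ IsMulCommutative A) (hr : r.Prime) (hq : q.Prime) (hQ : IsPGroup q Q)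
    (hAQ : A ≤ N_(Q)) (hV : IsPGroup r V) (hQV : Q ≤ N_(V)) (hAV : A ≤ N_(V))
    (cQV : (Nat.card Q).Coprime (Nat.card V)) (cAV : (Nat.card A).Coprime (Nat.card V))
    (cAQ : (Nat.card A).Coprime (Nat.card Q)) (fV : V ⊓ C_(A) = ⊥) (fQ : Q ⊓ C_(A) = ⊥) : ⁅Q, Q⁆ ≤ C_(V) := by
  set N := rN V Q with hN
  have nQ : Q ≤ N_(N) := rN_norm hQV (le_norm Q)
  have nA : A ≤ N_(N) := rN_norm hAV hAQ
  have hd : N ⊓ A = ⊥ := rN_disj cAV cAQ
  have h1 := s3_core_f ((card_quo_of_disj nA hd).trans hc) (fun e => hna (abelian_of_quo_disj nA hd e)) hr hq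
    (pgroup_quo N hQ) (quo_le_norm N hAQ) (rN_elem hr hV) (quo_le_norm N hQV) (quo_le_norm N hAV) (coprime_quo N cQV)
    (coprime_quo N cAV) (coprime_quo N cAQ) (quo_cent_bot nA rN_normV hAV cAV (pg_sol hr hV) (fV.le.trans bot_le))
    (quo_cent_bot nA nQ hAQ cAQ (pg_sol hq hQ) (fQ.le.trans bot_le)) (rN_faith hr hV hQV cQV)
  exact (le_inf (der_le Q) ((quo_comm_eq_bot_iff nQ nQ).1 h1)).trans (rN_inf cQV)

/-- Shult: `S₃` acting fixed point freely -/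
theorem s3_der (hc : Nat.card A = 6) (hna : ¬ IsMulCommutative A) (hs : Group.IsSolvable K) (hAK : A ≤ N_(K))
    (cAK : (Nat.card A).Coprime (Nat.card K)) (hfix : K ⊓ C_(A) = ⊥) : ⁅K, K⁆ ≤ fittingOf K := by
  have hn := height_two (twoP_of_pq Nat.prime_two Nat.prime_three (by norm_num) hc) hs hAK cAK hfix
  set F := fittingOf K with hF
  have hKF : K ≤ N_(F) := le_norm_fit K
  have hAF : A ≤ N_(F) := norm_fit hAK
  refine (abelian_quo_iff hKF).1 (abelian_iff.2 (nil_le_of_pcores hn fun q hq _ => cent_symm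
    (nil_le_of_pcores hn fun r hr _ => ?_)))
  by_cases e : r = q
  swap
  · exact pcore_cent (by simpa using e) _
  subst e
  obtain ⟨Q, hQ, hAQ, h1⟩ := exists_inv_lift hs cAK hr hAF le_rfl hAK (pcore_le {r} (quo F K)) (pcore_pg hr _)
    (norm_pcore _ (quo_le_norm F hAK))
  have hQK : Q ≤ K := hQ.le.trans inf_le_left
  rw [← h1]
  refine abelian_iff.1 ((abelian_quo_iff (hQK.trans hKF)).2 (le_fit_of_cent hr (pg_le (hQ.pg hr) (der_le Q))
    ((der_le Q).trans hQK) ((quo_mono F ((der_le Q).trans hQK)).trans (le_fit hn le_rfl (le_norm _))) fun t ht hne => ?_))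
  exact s3_core hc hna ht hr (hQ.pg hr) hAQ (pcore_pg ht K) (hQK.trans (le_norm_pcore _ K)) (norm_pcore _ hAK)
    (pg_coprime_ne hr ht (hQ.pg hr) (pcore_pg ht K) hne.symm) (coprime_mono cAK le_rfl (pcore_le _ K))
    (coprime_mono cAK le_rfl hQK) (eq_bot_mono hfix (inf_le_inf_right _ (pcore_le _ K)))
    (eq_bot_mono hfix (inf_le_inf_right _ hQK))

end H03
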