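import Cfsg.Agent.H01.XH0
import Cfsg.Agent.H18.Fa

/-!
# Groups of large Fischer type: fusion in `J(T)`, module part (namespace `H03.FT`)
-/

set_option autoImplicit false
set_option linter.unusedSectionVars false
open Cfsg BG Subgroup H01.XS H01.XF
open H01.XT hiding Hy QS

namespace H03.FT
universe u
variable {V : Type u} [AddCommGroup V] [Module (ZMod 2) V] [Finite V] {Γ : Type u} [Group Γ] [Finite Γ]
  {T : Γ → V →+ V} {d y : Γ} {M X : Subgroup Γ} {β : V →+ V →+ ZMod 2} {q : V → ZMod 2} {a : V} {R B L : AddSubgroup V}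

theorem exu (h : Hy T d M X β q a R) (i : y ∈ X) (n : y ≠ 1) : ∃ e, e + T y e ∉ R := by
  obtain ⟨e, k⟩ := not_forall.1 (mt (h.nd a) h.a0)
  exact ⟨e, fun m => n (h.Xe y i e (z2' _ k) m)⟩

theorem exr (h : Hy T d M X β q a R) (i : y ∈ X) (n : y ≠ 1) : ∃ r ∈ R, T y r = r + a := by
  obtain ⟨e, k⟩ := exu h i n
  by_contra! c
  refine k (h.perp h.iso (by rw [h.main.2.1]; omega) fun r j => ?_)
  rw [h.sym]
  exact h.fx ((h.XR y i r j).resolve_right (c r j)) e

theorem key (h : Hy T d M X β q a R) (i : y ∈ X) {r w : V} (j : r ∈ R) (e : T y r = r + a)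
    (k : ∀ r ∈ R, T y r = r → β w r = 0) (o : β w r = 0) : w ∈ R := by
  refine h.perp h.iso (by rw [h.main.2.1]; omega) fun x m => ?_
  rcases h.XR y i x m with f | f
  · exact k x m f
  · have := k (x + r) (R.add_mem m j) (by rw [map_add, e, f]; exact lc0)
    rwa [map_add, o, add_zero] at this

theorem one (h : Hy T d M X β q a R) (i : y ∈ X) (n : y ≠ 1) {w : V} (k : ∀ r ∈ R, T y r = r → β w r = 0) :
    w ∈ R ∨ ∃ e, w + (e + T y e) ∈ R := by
  obtain ⟨e, m⟩ := exu h i n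
  obtain ⟨r, j, f⟩ := exr h i n
  have ku : ∀ r ∈ R, T y r = r → β (e + T y e) r = 0 := fun r _ o => by rw [h.sym]; exact h.fx o e
  rcases z2 (β w r) with o | o
  · exact .inl (key h i j f k o)
  · refine .inr ⟨e, key h i j f (fun x a b => by rw [map_add, AddMonoidHom.add_apply, k x a b, ku x a b, add_zero]) ?_⟩
    rw [map_add, AddMonoidHom.add_apply, o, z2' _ (mt (key h i j f ku) m)]; decide

theorem aB (h : Hy T d M X β q a R) (i : y ∈ X) (n : y ≠ 1) (iso : ∀ u ∈ B, ∀ v ∈ B, β u v = 0) (c : Nat.card B = 64)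
    (fx : ∀ v ∈ B, T y v = v) : a ∈ B := by
  obtain ⟨r, -, f⟩ := exr h i n
  refine h.perp iso (by omega) fun x m => ?_
  rw [h.sym, show a = r + T y r from by rw [f]; exact lc0]
  exact h.fx (fx x m) r

theorem two (h : Hy T d M X β q a R) (i : y ∈ X) (n : y ≠ 1) (iso : ∀ u ∈ B, ∀ v ∈ B, β u v = 0) (ω : ∀ v ∈ B, T d v ∈ B)
    (fx : ∀ v ∈ B, T y v = v) (LB : L ≤ B) (LR : L ≤ R) (c : Nat.card L = 16) {v : V} (m : v ∈ B) :
    (∀ r ∈ R, T y r = r → β v r = 0) ∨ (∀ r ∈ R, T y r = r → β (T d v) r = 0) ∨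
      ∀ r ∈ R, T y r = r → β (T d (T d v)) r = 0 := by
  let P : AddSubgroup V := R ⊓ (T y).eqLocus (AddMonoidHom.id V)
  have mP : ∀ r, r ∈ P ↔ r ∈ R ∧ T y r = r := fun _ => Iff.rfl
  obtain ⟨r, j, f⟩ := exr h i n
  have cP : 2 * Nat.card P ≤ Nat.card R := grow inf_le_left j fun k => h.a0 (by
    have := ((mP r).1 k).2
    rw [f] at this; exact lc this)
  rw [h.main.2.1] at cP
  have LP : L ≤ P := fun x k => (mP x).2 ⟨LR k, fx x (LB k)⟩
  have ad : ∀ x ∈ P, ∀ w ∈ P, x ∉ L → w ∉ L → w + x ∈ L := fun x a w b a' b' => by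
    by_contra k
    have a1 := card_ex a'
    have a2 : 2 * Nat.card (ex L x) ≤ Nat.card P := grow (ex_le LP a) b fun o => o.elim b' k
    omega
  by_contra! k
  obtain ⟨⟨p, p1, p2, p3⟩, ⟨s, s1, s2, s3⟩, t, t1, t2, t3⟩ := k
  have m1 := ω v m
  have m2 := ω _ m1
  have n0 : p ∉ L := fun o => p3 (iso _ m _ (LB o))
  have b1 := iso _ m1 _ (LB (ad p ⟨p1, p2⟩ s ⟨s1, s2⟩ n0 fun o => s3 (iso _ m1 _ (LB o))))
  have b2 := iso _ m2 _ (LB (ad p ⟨p1, p2⟩ t ⟨t1, t2⟩ n0 fun o => t3 (iso _ m2 _ (LB o))))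
  have b3 := congrArg (β · p) (h.hf v)
  simp only [map_add, AddMonoidHom.add_apply, map_zero, AddMonoidHom.zero_apply] at b1 b2 b3
  rw [z2' _ s3] at b1
  rw [z2' _ t3] at b2
  rw [z2' _ p3] at b3
  revert b1 b2 b3
  generalize β (T d v) p = x, β (T d (T d v)) p = w
  revert x w; decide

theorem isoB {S Y : Subgroup Γ} (h : Hy T d M X β q a R) {a : V} {R : AddSubgroup V} (k : Pk T d M β q a R S L B Y) :
    ∀ u ∈ B, ∀ v ∈ B, β u v = 0 := fun u i v j => by
  have := h.pol u v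
  rwa [k.qB _ i, k.qB _ j, k.qB _ (B.add_mem i j), zero_add, zero_add, eq_comm] at this

theorem syl (h : Hy T d M X β q a R) {Y : Subgroup Γ} (l : Y ≤ h.S a) (c : Nat.card Y = 16) :
    ∃ S, Y ≤ S ∧ S ≤ h.S a ∧ Nat.card S = 256 := by
  have : Fact (Nat.Prime 2) := ⟨Nat.prime_two⟩
  have c1 := (h.S a).card_mul_index
  rw [h.orb.1, h.cΓ] at c1
  have c2 : Nat.card (h.S a) = 11520 := by omega
  have p : IsPGroup 2 (Y.subgroupOf (h.S a)) :=
    IsPGroup.of_card (n := 4) ((Nat.card_congr (subgroupOfEquivOfLe l).toEquiv).trans c)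
  obtain ⟨P, k⟩ := p.exists_le_sylow
  refine ⟨P.1.map (h.S a).subtype, fun y i => ⟨⟨y, l i⟩, k i, rfl⟩, map_subtype_le _, ?_⟩
  rw [card_map_of_injective (subtype_injective _), P.card_eq_multiplicity, c2]
  decide +kernel

theorem nn (h : Hy T d M X β q a R) {r : V} {X' : Subgroup Γ} {R' : AddSubgroup V} (h' : Hy T d M X' β q (T d (T d r)) R')
    (m : r + T d a ∈ R') (m' : T d (T d a) ∈ R') : r ∈ H01.XF.NN (T d) a := by
  have r1 : r ∈ R' := h.ω3 r ▸ h'.main.1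
  have a1 : T d a ∈ R' := by rw [show T d a = r + T d a + r from lc0]; exact R'.add_mem m r1
  rw [H01.XF.mem_NN]
  rcases H01.XF.mem_NN.1 (h'.main.2.2.2 _ a1 m') with e | e | e | e
  · exact absurd e (h.nz d h.a0)
  · have := congrArg (T d) e
    rw [h.ω3, h.ω2] at this
    exact .inr (.inr (.inr this.symm))
  · rw [h.ω3] at e
    exact .inr (.inr (.inl e.symm))
  · rw [h.ω3, h.ω2] at e
    exact .inr (.inl (h.inj d (lc e)))

end H03.FT
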