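import Cfsg.Agent.H03.FT1
import Cfsg.Agent.H20.XhE

/-!
# Groups of large Fischer type: fusion in `J(T)`, group part (namespace `H03.FT`): `cov`, `nz`, `oc`
-/

set_option autoImplicit false
set_option linter.unusedSectionVars false
open Cfsg BG Subgroup H01.XS H01.XF
open H01.XT hiding Hy QS

namespace H03.FT
universe u
variable {G : Type u} [Group G] [Finite G] {a z c δ w x b g g' : G} {Q Q' : Subgroup G}
  {V : Type u} [AddCommGroup V] [Module (ZMod 2) V] [Finite V] {Γ : Type u} [Group Γ] [Finite Γ]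
  {T : Γ → V →+ V} {d : Γ} {M X S Y : Subgroup Γ} {β : V →+ V →+ ZMod 2} {q : V → ZMod 2} {v : V} {R B L : AddSubgroup V}
  {ν : G → V} {f : C_[z] →* Γ} {π : G → Γ}

theorem cz (s : Br z Q f π ν T d M β q) (h : Hy T d M X β q v R) (i : δ ∈ C_[z]) (e : π δ = d) (j : c ∈ C_[z])
    (k : c ∈ C_[δ]) {r : G} (m : r ∈ Q) (fx : T (π c) (ν r) = ν r) : c * r * c⁻¹ = r := by
  have l := s.md.lx
  rw [s.act c j r m] at fx
  refine (s.md.eq (l.cE j m) m fx).resolve_right fun o => l.z1 ?_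
  have st : ∀ r, c * r * c⁻¹ = z * r → c * (δ * r * δ⁻¹) * c⁻¹ = z * (δ * r * δ⁻¹) := fun r o => by
    calc _ = (c * δ) * r * (c * δ)⁻¹ := by group
      _ = δ * (c * r * c⁻¹) * δ⁻¹ := by rw [mem_cent1.1 k]; group
      _ = _ := by rw [o, ← mul_assoc δ, mem_cent1.1 i]; group
  have o1 := st _ o
  have o2 := st _ o1
  have m1 := l.cE i m
  have m2 := l.cE i m1
  have n0 : ν (r * (δ * r * δ⁻¹) * (δ * (δ * r * δ⁻¹) * δ⁻¹)) = 0 := by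
    rw [s.md.mul _ (mul_mem m m1) _ m2, s.md.mul _ m _ m1, ← s.act δ i _ m1, ← s.act δ i _ m, e]; exact h.hf _
  have m3 := mul_mem (mul_mem m m1) m2
  generalize δ * (δ * r * δ⁻¹) * δ⁻¹ = r2 at *
  generalize δ * r * δ⁻¹ = r1 at *
  have : c * (r * r1 * r2) * c⁻¹ = z * (r * r1 * r2) := by
    rw [← conj_mul, ← conj_mul, o, o1, o2]
    calc _ = z * (r * z) * (r1 * z) * r2 := by group
      _ = z * (z * r) * (z * r1) * r2 := by rw [mem_cent1.1 (l.le m), mem_cent1.1 (l.le m1)]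
      _ = z * z * (r * z) * r1 * r2 := by group
      _ = _ := by rw [l.zz, mem_cent1.1 (l.le m)]; group
  rcases (s.md.ker _ m3).1 n0 with e | e <;> rw [e] at this
  · simpa using this.symm
  · rw [mem_cent1.1 j, mul_inv_cancel_right, l.zz] at this; exact this

theorem into (s : Br z Q f π ν T d M β q) (p : H03.PP Q z Q' a) (c' : Nat.card Q' = 8192) (i : w ∈ Q') (j : w ∈ C_[z])
    (n : π w ≠ 1) (m : x ∈ Q) (k : ∀ r ∈ s.md.push Q', T (π w) r = r → β (ν x) r = 0) : ∃ g, g * (w * x) * g⁻¹ ∈ Q' := by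
  have l := s.md.lx
  rcases one (s.hy p c') ⟨⟨w, j⟩, ⟨i, j⟩, s.pf _⟩ n k with o | ⟨e, o⟩
  · exact ⟨1, by simpa using mul_mem i ((s.md.mem_push p.hz m).1 o)⟩
  · obtain ⟨t, tQ, rfl⟩ := s.md.sur e
    refine ⟨w * t * w⁻¹, ?_⟩
    have m' := l.cE j tQ
    rw [show w * t * w⁻¹ * (w * x) * (w * t * w⁻¹)⁻¹ = w * (t * x * (w * t * w⁻¹)⁻¹) by group]
    refine mul_mem i ((s.md.mem_push p.hz (mul_mem (mul_mem tQ m) (inv_mem m'))).1 ?_)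
    rw [s.md.mul _ (mul_mem tQ m) _ (inv_mem m'), s.md.mul _ tQ _ m, s.md.inv m', ← s.act w j t tQ]
    convert o using 1; abel

theorem cov1 (s : Br z Q f π ν T d M β q) (p : H03.PP Q z Q' a) (c' : Nat.card Q' = 8192) (i : w ∈ Q') (j : w ∈ C_[z])
    (n : π w ≠ 1) (δi : δ ∈ C_[z]) (e : π δ = d) (ci : c ∈ C_[z]) (cδ : c ∈ C_[δ]) (ec : π c = π w)
    (iso : ∀ u ∈ B, ∀ v ∈ B, β u v = 0) (ω : ∀ v ∈ B, T d v ∈ B) (fx : ∀ v ∈ B, T (π w) v = v) (LB : L ≤ B)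
    (LR : L ≤ s.md.push Q') (cL : Nat.card L = 16) (m : b ∈ Q) (mB : ν b ∈ B) : ∃ g, g * (c * b) * g⁻¹ ∈ Q' := by
  have l := s.md.lx
  have l' := lx_of p.h'
  have h := s.hy p c'
  have q0 : w⁻¹ * c ∈ Q := (s.ker _ (mul_mem (inv_mem j) ci)).1 (by
    rw [s.mul _ (inv_mem j) _ ci, s.inv _ j, ec, inv_mul_cancel])
  have k0 : ∀ r ∈ s.md.push Q', T (π w) r = r → β (ν (w⁻¹ * c)) r = 0 := by
    rintro _ ⟨r, rQ, rQ', rfl⟩ o
    have a1 : Commute c r := mul_inv_eq_iff_eq_mul.1 (cz s h δi e ci cδ rQ (ec ▸ o))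
    have a2 : Commute w r := (l'.cm i rQ').elim id fun e' => by
      rw [s.act w j r rQ] at o
      rcases s.md.eq (l.cE j rQ) rQ o with o' | o'
      · exact mul_inv_eq_iff_eq_mul.1 o'
      · rw [e', mul_inv_cancel_right] at o'; exact absurd (mul_right_cancel o') p.ne
    exact (s.b _ q0 r rQ).2 (a2.inv_left.mul_left a1)
  have fin : ∀ b ∈ Q, (∀ r ∈ s.md.push Q', T (π w) r = r → β (ν b) r = 0) → ∃ g, g * (c * b) * g⁻¹ ∈ Q' := fun b m k => by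
    have := into s p c' i j n (mul_mem q0 m) fun r a1 a2 => by
      rw [s.md.mul _ q0 _ m, map_add, AddMonoidHom.add_apply, k0 r a1 a2, k r a1 a2, add_zero]
    rwa [show w * (w⁻¹ * c * b) = c * b by group] at this
  have st : ∀ b, (∃ g, g * (c * (δ * b * δ⁻¹)) * g⁻¹ ∈ Q') → ∃ g, g * (c * b) * g⁻¹ ∈ Q' := fun b ⟨g, o⟩ => ⟨g * δ, by
    rwa [show g * δ * (c * b) * (g * δ)⁻¹ = g * (δ * c * b * δ⁻¹) * g⁻¹ by group, ← mem_cent1.1 cδ,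
      show c * δ * b * δ⁻¹ = c * (δ * b * δ⁻¹) by group]⟩
  have m1 := l.cE δi m
  rcases two h ⟨⟨w, j⟩, ⟨i, j⟩, s.pf _⟩ n iso ω fx LB LR cL mB with k | k | k
  · exact fin b m k
  · exact st b (fin _ m1 (by rwa [← s.act δ δi b m, e]))
  · exact st b (st _ (fin _ (l.cE δi m1) (by rwa [← s.act δ δi _ m1, ← s.act δ δi b m, e])))

theorem exδ (s : Br z Q f π ν T d M β q) : ∃ δ ∈ C_[z], π δ = d ∧ δ ^ 3 = 1 := by
  obtain ⟨x, i, e⟩ := s.sur d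
  have e' : f ⟨x, i⟩ = d := (s.pf _).trans e
  have d3 : d ^ 3 = 1 := by rw [pow_three, s.gm.d3]
  have m : x ^ 3 ∈ Q := (s.ker _ (pow_mem i 3)).1 ((s.pf (⟨x, i⟩ ^ 3)).symm.trans (by rw [map_pow, e', d3]))
  refine ⟨x ^ 4, pow_mem i 4, (s.pf (⟨x, i⟩ ^ 4)).symm.trans (by rw [map_pow, e', pow_succ, d3, one_mul]), ?_⟩
  rw [← pow_mul, show 4 * 3 = 3 * 2 * 2 from rfl, pow_mul, pow_mul]
  rcases s.md.lx.sq m with o | o <;> rw [o]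
  · simp
  · rw [pow_two, s.md.lx.zz]

theorem pp (s : Br z Q f π ν T d M β q) (i : g * z * g⁻¹ ∈ Q) (n : g * z * g⁻¹ ≠ z) : H03.PP Q z (cj g Q) (g * z * g⁻¹) :=
  H03.ES.pp ⟨s.md.lx.aes, s.md.lx.cent, s.md.lx.norm⟩ i n (by rw [s.card]; omega)

theorem cov (pk : PkS.{u}) (s : Br z Q f π ν T d M β q) (i0 : g * z * g⁻¹ ∈ Q) (n0 : g * z * g⁻¹ ≠ z)
    (k : Pk T d M β q (ν (g * z * g⁻¹)) (s.md.push (cj g Q)) S L B Y)
    (oc : ∀ x ∈ M, ∀ y ∈ M, x * x = 1 → y * y = 1 → x ≠ 1 → y ≠ 1 → ∃ g, g * x * g⁻¹ = y)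
    (hx : x ∈ C_(s.md.pull B)) : ∃ g, g * x * g⁻¹ ∈ Q := by
  classical
  have l := s.md.lx
  have cc : ∀ g, Nat.card (cj g Q) = 8192 := fun g => (card_cj _ _).trans s.card
  have h := s.pt g i0 n0
  obtain ⟨-, -, e3, e4⟩ := H20.XhE.ea s (pp s i0 n0) (cc g) k
  have xz : x ∈ C_[z] := cent_le_cent1 (show z ∈ s.md.pull B from ⟨l.aes.mem, s.md.zz ▸ B.zero_mem⟩) hx
  have xY : π x ∈ Y := e4 ▸ ⟨⟨x, xz⟩, hx, s.pf _⟩
  by_cases n : π x = 1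
  · exact ⟨1, by simpa using (s.ker x xz).1 n⟩
  obtain ⟨x0, a1, a2, a3⟩ := h.ex2 {1} (by simp)
  obtain ⟨t, et⟩ := oc x0 a2 _ (k.YM xY) (h.X2 _ a1) (k.Y2 _ xY) (by simpa using a3) n
  obtain ⟨t, ti, rfl⟩ := s.sur t
  obtain ⟨⟨w, wz⟩, ⟨wQ, -⟩, rfl⟩ := a1
  rw [s.pf] at et
  have wz' := mul_mem (mul_mem ti wz) (inv_mem ti)
  have ew : π (t * w * t⁻¹) = π x := by rw [s.mul _ (mul_mem ti wz) _ (inv_mem ti), s.mul _ ti _ wz, s.inv _ ti, et]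
  have ez : t * g * z * (t * g)⁻¹ = t * (g * z * g⁻¹) * t⁻¹ := by group
  have i1 : t * g * z * (t * g)⁻¹ ∈ Q := ez ▸ l.cE ti i0
  have n1 : t * g * z * (t * g)⁻¹ ≠ z := fun o => n0 (by
    rw [ez, mul_inv_eq_iff_eq_mul, ← mem_cent1.1 ti] at o; exact mul_left_cancel o)
  have wQ' : t * w * t⁻¹ ∈ cj (t * g) Q := cj_cj t g Q ▸ conj_mem_cj t wQ
  have h1 := s.pt _ i1 n1
  have iso := isoB h k
  have aB := aB h1 ⟨⟨_, wz'⟩, ⟨wQ', wz'⟩, (s.pf _).trans ew⟩ n iso k.cB (k.YB _ xY)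
  obtain ⟨S', s1, s2, s3⟩ := syl h1 (fun y o => k.YB y o _ aB) k.cY
  obtain ⟨L', B', Y', k'⟩ := pk h1 S' s2 s3
  obtain rfl := k'.un Y s1 k.Y2 B iso k.YB (by rw [k.cY, k.cB])
  obtain ⟨δ, δi, e, δ3⟩ := exδ s
  obtain ⟨c, ci, ec⟩ := H18.Fa.su s h δi e δ3 _ (k.YM xY)
  obtain ⟨ci, cδ⟩ := mem_inf.1 ci
  have cA : c ∈ C_(s.md.pull B) := mem_cent.2 fun r o =>
    (mul_inv_eq_iff_eq_mul.1 (cz s h δi e ci cδ o.1 (ec ▸ k.YB _ xY _ o.2))).symm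
  have bQ : c⁻¹ * x ∈ s.md.pull B := e3.le (mem_inf.2 ⟨mul_mem (inv_mem cA) hx, (s.ker _ (mul_mem (inv_mem ci) xz)).1 (by
    rw [s.mul _ (inv_mem ci) _ xz, s.inv _ ci, ec, inv_mul_cancel])⟩)
  obtain ⟨r, o⟩ := cov1 s (pp s i1 n1) (cc _) wQ' wz' (ew ▸ n) δi e ci cδ (ec.trans ew.symm) iso k.Bω
    (ew ▸ k.YB _ xY) k'.LB k'.LR k'.cL bQ.1 bQ.2
  rw [mul_inv_cancel_left, mem_cj] at o
  exact ⟨(t * g)⁻¹ * r, by convert o using 1; group⟩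

theorem sy (s : Br z Q f π ν T d M β q) (i : g' * z * g'⁻¹ ∈ cj g Q) : g * z * g⁻¹ ∈ cj g' Q := by
  have := H03.LX.sym' (g := g⁻¹ * g') (H03.ES.lx ⟨s.md.lx.aes, s.md.lx.cent, s.md.lx.norm⟩)
    (by convert mem_cj.1 i using 1; group) (by rw [s.card]; omega)
  rw [mem_cj] at this ⊢
  convert this using 1; group

theorem nz (s : Br z Q f π ν T d M β q) (i0 : g * z * g⁻¹ ∈ Q) (n0 : g * z * g⁻¹ ≠ z)
    (k : Pk T d M β q (ν (g * z * g⁻¹)) (s.md.push (cj g Q)) S L B Y) : ∃ x ∈ s.md.pull B, x ≠ 1 ∧ ¬ IsConj z x := by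
  have l := s.md.lx
  have h := s.pt g i0 n0
  obtain ⟨δ, δi, e, -⟩ := exδ s
  obtain ⟨r, rL, rN⟩ : ∃ r ∈ L, r ∉ H01.XF.NN (T d) (ν (g * z * g⁻¹)) := by
    by_contra! o
    have a1 := AddSubgroup.card_le_of_le (show L ≤ _ from o)
    have a2 := card_ex_le (U := ex ⊥ (ν (g * z * g⁻¹))) (v := T d (ν (g * z * g⁻¹)))
    have a3 := card_ex_le (U := (⊥ : AddSubgroup V)) (v := ν (g * z * g⁻¹))
    rw [AddSubgroup.card_bot] at a3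
    rw [k.cL] at a1
    exact absurd (a1.trans (a2.trans (Nat.mul_le_mul_left 2 a3))) (by omega)
  obtain ⟨b, bQ, rfl⟩ := s.md.sur r
  have m1 := l.cE δi i0
  have v1 : ν (δ * (g * z * g⁻¹) * δ⁻¹) = T d (ν (g * z * g⁻¹)) := by rw [← s.act δ δi _ i0, e]
  have v2 := s.md.mul _ bQ _ m1
  rw [v1] at v2
  have bQ' := mul_mem bQ m1
  have b0 : ν b ≠ 0 := fun o => rN (o ▸ zero_mem _)
  have b1 : ν (b * (δ * (g * z * g⁻¹) * δ⁻¹)) ≠ 0 := fun o => rN (H01.XF.mem_NN.2 (.inr (.inr (.inl (lc (v2.symm.trans o))))))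
  have nn1 : ∀ x, ν x ≠ 0 → x ≠ 1 ∧ x ≠ z := fun x o =>
    ⟨fun e => o (e ▸ s.md.one), fun e => o (e ▸ s.md.zz)⟩
  by_contra! c
  obtain ⟨g1, e1⟩ := isConj_iff.1 (c b ⟨bQ, k.LB rL⟩ (nn1 _ b0).1)
  obtain ⟨g2, e2⟩ := isConj_iff.1 (c _ ⟨bQ', v2 ▸ B.add_mem (k.LB rL) (k.Bω _ (k.LB k.aL))⟩ (nn1 _ b1).1)
  have p := pp s i0 n0
  have j1 : b ∈ cj g Q := (s.md.mem_push p.hz bQ).1 (k.LR rL)
  have j2 : b * (δ * (g * z * g⁻¹) * δ⁻¹) ∈ cj g Q := mul_mem j1 ((s.md.mem_push p.hz m1).1 (v1 ▸ h.main.1))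
  have s1 := sy s (e1 ▸ j1)
  have s2 := sy s (e2 ▸ j2)
  have i2 : g2 * z * g2⁻¹ ∈ Q := e2 ▸ bQ'
  have n2 : g2 * z * g2⁻¹ ≠ z := e2 ▸ (nn1 _ b1).2
  have h2 := s.pt g2 i2 n2
  have p2 := pp s i2 n2
  have δδ := mul_mem δi δi
  have e4 : δ * δ * g1 * z * (δ * δ * g1)⁻¹ = δ * δ * b * (δ * δ)⁻¹ := by rw [← e1]; group
  have v4 : ∀ b ∈ Q, ν (δ * δ * b * (δ * δ)⁻¹) = T d (T d (ν b)) := fun b o => by
    rw [← s.act _ δδ _ o, s.mul _ δi _ δi, e, h.mul]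
  have i4 : δ * δ * g1 * z * (δ * δ * g1)⁻¹ ∈ Q := e4 ▸ l.cE δδ bQ
  have n4 : δ * δ * g1 * z * (δ * δ * g1)⁻¹ ≠ z := (nn1 _ (by rw [e4, v4 b bQ]; exact h.nz d (h.nz d b0))).2
  have h4 := s.pt _ i4 n4
  have p4 := pp s i4 n4
  have r2 : T d (T d (ν b)) ∈ s.md.push (cj g2 Q) := by
    have a1 := AddSubgroup.add_mem _ (AddSubgroup.add_mem _ h2.main.1 h2.aR) ((s.md.mem_push p2.hz i0).2 s2)
    rw [← h.ω2, e2, v2, map_add, map_add, h.ω3] at a1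
    convert a1 using 1; exact lc0
  have s4 := sy s (g := g2) (g' := δ * δ * g1) ((s.md.mem_push p2.hz i4).1 (by rwa [e4, v4 b bQ]))
  rw [e4, v4 b bQ] at h4
  refine rN (nn h h4 ?_ ?_)
  · rw [← v2, ← e2]; exact (s.md.mem_push p4.hz i2).2 s4
  · rw [← v4 _ i0]
    exact (s.md.mem_push p4.hz (l.cE δδ i0)).2 (cj_cj (δ * δ) g1 Q ▸ conj_mem_cj _ s1)

theorem oc (s : Br z Q f π ν T d M β q) (h : Hy T d M X β q v R) {P : Type*} [Group P]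
    (o : ∀ x y : P, x * x = 1 → y * y = 1 → x ≠ 1 → y ≠ 1 → IsConj x y) {N0 M0 : Subgroup C_[z]} (n : N0.Normal)
    (l1 : f.ker ≤ N0) (l2 : N0 ≤ M0) (c : Nat.card N0 = 3 * Nat.card f.ker) (ρ : M0 →* P) (ρs : Function.Surjective ρ)
    (ρk : ρ.ker = N0.subgroupOf M0) (i : M0.index = 2) :
    ∀ x ∈ M, ∀ y ∈ M, x * x = 1 → y * y = 1 → x ≠ 1 → y ≠ 1 → ∃ g, g * x * g⁻¹ = y := by
  have fs : Function.Surjective f := fun k => by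
    obtain ⟨x, j, e⟩ := s.sur k
    exact ⟨⟨x, j⟩, (s.pf _).trans e⟩
  have eN : N0.map f = zpowers d := H18.Fa.n3 h _ (n.map f fs) (by
    have := card_inf_mul_relIndex f.ker N0
    rw [relIndex_ker, inf_eq_left.2 l1, c, mul_comm 3] at this
    exact Nat.eq_of_mul_eq_mul_left Nat.card_pos this)
  have eM : M0.map f = M := H18.Fa.m2 h _ (by
    rw [index_map, MonoidHom.range_eq_top.2 fs, index_top, mul_one, sup_eq_left.2 (l1.trans l2), i])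
  have tr : ∀ x ∈ N0, f x * f x = 1 → f x = 1 := fun x j e => by
    obtain ⟨m, em⟩ := mem_zpowers_iff.1 (eN.le (mem_map_of_mem f j))
    have : f x ^ 3 = 1 := by rw [← em, ← zpow_natCast, ← zpow_mul, mul_comm, zpow_mul, zpow_natCast, pow_three, h.d3, one_zpow]
    rwa [pow_three, e, mul_one] at this
  have sq : ∀ x : M0, f x * f x = 1 → f x ≠ 1 → ρ x * ρ x = 1 ∧ ρ x ≠ 1 := fun x e k =>
    ⟨(map_mul ρ x x).symm.trans (ρk.ge (l1 ((map_mul f _ _).trans e))), fun m => k (tr _ (ρk.le m) e)⟩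
  subst eM
  rintro _ ⟨x, xi, rfl⟩ _ ⟨y, yi, rfl⟩ x2 y2 x1 y1
  obtain ⟨t, et⟩ := isConj_iff.1 (o _ _ (sq ⟨x, xi⟩ x2 x1).1 (sq ⟨y, yi⟩ y2 y1).1 (sq ⟨x, xi⟩ x2 x1).2 (sq ⟨y, yi⟩ y2 y1).2)
  obtain ⟨t, rfl⟩ := ρs t
  have m : t.1 * x * t.1⁻¹ * y⁻¹ ∈ N0 := ρk.le (show ρ (t * ⟨x, xi⟩ * t⁻¹ * ⟨y, yi⟩⁻¹) = 1 by
    simp only [map_mul, map_inv, et, mul_inv_cancel])
  refine ⟨f t, mul_inv_eq_one.1 ?_⟩
  have := tr _ m
  obtain ⟨k, ek⟩ := mem_zpowers_iff.1 (eN.le (mem_map_of_mem f m))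
  have cm : Commute (f y) (d ^ k) := (show Commute (f y) d from h.Md _ (mem_map_of_mem f yi)).zpow_right k
  simp only [map_mul, map_inv] at this ek
  refine this ?_
  have a1 : f t * f x * (f t)⁻¹ * (f t * f x * (f t)⁻¹) = 1 := by rw [conj_mul, x2]; group
  rw [eq_mul_inv_iff_mul_eq] at ek
  rw [← ek] at a1 ⊢
  rw [mul_inv_cancel_right]
  rwa [mul_assoc, ← mul_assoc (f y), cm.eq, mul_assoc, y2, mul_one] at a1

end H03.FT
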