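import Cfsg.Agent.H03.FT1

/-!
# Groups of large Fischer type: no transvections on `R/N` (namespace `H03.FT`): `nt`, `kx`
-/

set_option autoImplicit false
set_option linter.unusedSectionVars false
open Cfsg BG Subgroup H01.XS H01.XF Equiv
open H01.XT hiding Hy QS NN mem_NN

namespace H03.FT
universe u

theorem pf6 : ∀ t : Perm (Fin 6), t * t = 1 → t ≠ 1 → Perm.sign t = 1 → ∃ i j k : Fin 6, i ≠ j ∧ j ≠ k ∧
    (t * (swap i j * swap j k * t * (swap i j * swap j k)⁻¹)) ^ 5 = 1 ∧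
    (t * (swap i j * swap j k * t * (swap i j * swap j k)⁻¹)) ^ 2 ≠ 1 := by
  decide +kernel

theorem pf7 : ∀ t : Perm (Fin 6), Perm.sign t = 1 → t * t = 1 ∨ t * t * (t * t) = 1 ∨ t ^ 3 = 1 ∨ t ^ 5 = 1 := by
  decide +kernel

variable {V : Type u} [AddCommGroup V] [Module (ZMod 2) V] [Finite V] {Γ : Type u} [Group Γ] [Finite Γ]
  {T : Γ → V →+ V} {d g t x y : Γ} {M X : Subgroup Γ} {β : V →+ V →+ ZMod 2} {q : V → ZMod 2} {a r : V} {R C D : AddSubgroup V}

theorem nst (h : Hy T d M X β q a R) (e : T g a = a) (m : r ∈ NN (T d) a) : T g r ∈ NN (T d) a := by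
  have : T g (T d a) ∈ NN (T d) a := by
    rcases h.gd g a with k | k <;> rw [k, e]
    exacts [self_ex, add_mem self_ex (le_ex self_ex)]
  exact (ex_le (ex_le bot_le (show T g a ∈ NN (T d) a by rw [e]; exact le_ex self_ex)) this :
    NN (T d) a ≤ (NN (T d) a).comap (T g)) m

theorem nfx (h : Hy T d M X β q a R) (e : T g a = a) (i : g ∈ M) (m : r ∈ NN (T d) a) : T g r = r :=
  (ex_le (ex_le bot_le e) (show T g (T d a) = T d a by rw [h.cω i, e]) :
    NN (T d) a ≤ (T g).eqLocus (AddMonoidHom.id V)) m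

theorem tm (h : Hy T d M X β q a R) (e : T x a = a) (i : r + T x r ∈ NN (T d) a) (j : r + T y r ∈ NN (T d) a) :
    r + T (x * y) r ∈ NN (T d) a := by
  have := add_mem i (nst h e j)
  rw [h.mul]; rw [map_add] at this
  convert this using 1; exact lc0

theorem cN (a : V) : Nat.card (NN (T d) a) ≤ 4 := by
  have a2 := card_ex_le (U := ex ⊥ a) (v := T d a)
  have a3 := card_ex_le (U := (⊥ : AddSubgroup V)) (v := a)
  rw [AddSubgroup.card_bot] at a3
  exact a2.trans (by omega)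

theorem odd (h : Hy T d M X β q a R) {p : ℕ} (o : p = 3 ∨ p = 5) (e : T g a = a) (i : g ^ p ∈ X) (n : g * g ∉ X) (CR : C ≤ R)
    (k : ∀ r ∈ C, r + T g r ∈ NN (T d) a) (c : 4 < Nat.card C) : p = 3 ∧ Nat.card C ≤ 16 := by
  have : Fact p.Prime := ⟨by rcases o with rfl | rfl <;> norm_num⟩
  have gM := mul_self_mem_of_index_two h.Mi g
  have e2 : T (g * g) a = a := by rw [h.mul, e, e]
  have o1 : orderOf (g * g) = p := orderOf_eq_prime (by rw [Commute.mul_pow (Commute.refl g), h.X2 _ i])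
    fun o => n (o ▸ one_mem _)
  have cP : Nat.card (zpowers (g * g)) = p := by rw [Nat.card_zpowers, o1]
  have co : Nat.Coprime 2 (Nat.card (zpowers (g * g))) := by rw [cP]; rcases o with rfl | rfl <;> norm_num
  have l : C ≤ R ⊓ h.F (zpowers (g * g)) := fun r m => ⟨CR m, fun x j => (zpowers_le.2 (show g * g ∈ h.S r from
    h.od co (mem_zpowers _) (nfx h e2 gM (tm h e (k r m) (k r m)))) j : x ∈ h.S r)⟩
  have := h.c16 (zpowers_le.2 gM) (fun x j => (zpowers_le.2 (show g * g ∈ h.S a from e2) j : x ∈ h.S a))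
    (IsPGroup.of_card (cP.trans (pow_one p).symm)) co (fun o => n ((zpowers_eq_bot.1 o) ▸ one_mem _))
    (fun m => by have := (AddSubgroup.card_le_of_le (l.trans m)).trans (cN a); omega) o
  exact ⟨this.1, this.2 ▸ AddSubgroup.card_le_of_le l⟩

theorem half (c : Nat.card R ≤ 2 * Nat.card D + 31) (c' : 32 ≤ Nat.card D) (l : D ≤ R) (CR : C ≤ R) :
    Nat.card C ≤ 2 * Nat.card ↥(C ⊓ D) := by
  by_cases m : C ≤ D
  · rw [inf_eq_left.2 m]; omega
  obtain ⟨x, i, j⟩ := SetLike.not_le_iff_exists.1 m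
  refine (AddSubgroup.card_le_of_le fun y o => ?_).trans (card_ex_le (v := x))
  by_contra k
  have a1 := card_ex j
  have a2 : 2 * Nat.card (ex D x) ≤ Nat.card R := grow (ex_le l (CR i)) (CR o) fun e => k (e.imp (⟨o, ·⟩) (⟨add_mem o i, ·⟩))
  omega

theorem c32 (h : Hy T d M X β q a R) (CR : C ≤ R) (c : 16 < Nat.card C) : 32 ≤ Nat.card C := by
  obtain ⟨k, hk, e⟩ := (Nat.dvd_prime_pow Nat.prime_two).1
    (show Nat.card C ∣ 2 ^ 6 from (AddSubgroup.card_dvd_of_le CR).trans h.main.2.1.dvd)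
  interval_cases k <;> omega

theorem nt (h : Hy T d M X β q a R) (ta : T t a = a) (n : t ∉ X) (CR : C ≤ R) (k : ∀ r ∈ C, r + T t r ∈ NN (T d) a) :
    Nat.card C ≤ 16 := by
  obtain ⟨-, l, φ, e1, e2⟩ := h.orb
  have mX : ∀ g : h.S a, φ g = 1 ↔ g.1 ∈ X := fun g => by rw [← MonoidHom.mem_ker, e1, mem_subgroupOf]
  have sg : ∀ g, Perm.sign (φ g) = 1 := fun g => Perm.mem_alternatingGroup.1 (e2 ▸ ⟨g, rfl⟩)
  by_contra! c
  have c' := c32 h CR c
  have iv : ∀ t : h.S a, φ t * φ t = 1 → t.1 ∉ X → (∀ r ∈ C, r + T t r ∈ NN (T d) a) → False := fun t t2 n k => by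
    obtain ⟨i, j, o, ij, jo, p1, p2⟩ := pf6 _ t2 (mt (mX t).1 n) (sg t)
    obtain ⟨g, eg⟩ : swap i j * swap j o ∈ φ.range := e2 ▸ Perm.mem_alternatingGroup.2 (by simp [ij, jo])
    rw [← eg, ← map_inv, ← map_mul, ← map_mul, ← map_mul, ← map_pow, mX] at p1
    rw [← eg, ← map_inv, ← map_mul, ← map_mul, ← map_mul, ← map_pow, Ne, mX, pow_two] at p2
    have cD : Nat.card (C.map (T g)) = Nat.card C := AddSubgroup.card_map_of_injective fun _ _ => h.inj g
    have DR : C.map (T g) ≤ R := by rintro _ ⟨r, m, rfl⟩; exact (h.st g g.2).2 r (CR m)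
    have a1 := half (by rw [h.main.2.1]; omega) (by omega) DR CR
    have := (odd h (.inr rfl) (t * (g * t * g⁻¹)).2 p1 p2 (inf_le_left.trans CR) (C := C ⊓ C.map (T g)) (by
      rintro _ ⟨m, r, m', rfl⟩
      refine tm h t.2 (k _ m) ?_
      have := nst h g.2 (k _ m')
      rw [map_add] at this
      simpa only [coe_mul, coe_inv, h.mul, h.li] using this) (by omega)).1
    omega
  have n2 : t * t ∉ X := fun o => iv ⟨t, ta⟩ ((map_mul φ _ _).symm.trans ((mX _).2 o)) n k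
  rcases pf7 _ (sg ⟨t, ta⟩) with o | o | o | o
  · exact iv ⟨t, ta⟩ o n k
  · exact iv (⟨t, ta⟩ * ⟨t, ta⟩) (by rwa [map_mul]) n2 fun r m => tm h ta (k r m) (k r m)
  · rw [← map_pow, mX] at o
    exact absurd (odd h (.inl rfl) ta o n2 CR k (by omega)).2 (by omega)
  · rw [← map_pow, mX] at o
    exact absurd (odd h (.inr rfl) ta o n2 CR k (by omega)).1 (by omega)

theorem kx (h : Hy T d M X β q a R) (ta : T t a = a) (k : ∀ r ∈ R, r + T t r ∈ NN (T d) a) : t ∈ X := by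
  by_contra n
  have := nt h ta n le_rfl k
  rw [h.main.2.1] at this; omega

end H03.FT
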