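import Cfsg.Agent.H03.FT2
import Cfsg.Agent.H20.FtW

/-!
# Groups of large Fischer type: transitivity of `N(J(T)) ∩ C(z)` (namespace `H03.FT`): `fc`, `sy2`, `trDB`, `trZB`, `cos`, `c21`
-/

set_option autoImplicit false
set_option linter.unusedSectionVars false
open Cfsg BG Subgroup H01.XS H01.XF H20.FtW
open H01.XT hiding Hy QS

namespace H03.FT
universe u
variable {G : Type u} [Group G] [Finite G] {z x y g : G} {A Q X : Subgroup G}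

theorem fc (u : ∀ P : Subgroup G, IsPGroup 2 P → Un P) (h : EA A) (c : Nat.card A = 2048) (l : A ≤ X) (l' : cj g A ≤ X) :
    ∃ k ∈ X, k * g ∈ N_(A) := by
  obtain ⟨S, s, l⟩ := sylow_superset Nat.prime_two h.pg l
  have h' := h.cj g
  obtain ⟨k, kc, l'⟩ := sylow_Jsub Nat.prime_two s h'.pg l'
  have e := (u S (s.pg Nat.prime_two)).2 _ l' _ l (h'.cj k) h (by rw [card_cj, card_cj, c]) c
  rw [cj_cj] at e
  exact ⟨k, kc, cj_eq_self_iff.1 e⟩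

theorem sy2 (u : ∀ P : Subgroup G, IsPGroup 2 P → Un P) (h : EA A) (c : Nat.card A = 2048) (X : Subgroup G) (l : A ≤ X) (n : ℕ)
    (m : 2 ^ n ∣ Nat.card X) : 2 ^ n ∣ Nat.card ↥(N_(A) ⊓ X) := by
  obtain ⟨S, s, l⟩ := sylow_superset Nat.prime_two h.pg l
  refine (s.pow_dvd Nat.prime_two m).trans (card_dvd_of_le (le_inf (fun g i => cj_eq_self_iff.1 ?_)
    ((isSylowIn_iff Nat.prime_two).1 s).1))
  exact (u S (s.pg Nat.prime_two)).2 _ (cj_le_of_mem l i) _ l (h.cj g) h (by rw [card_cj, c]) c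

theorem tr (u : ∀ P : Subgroup G, IsPGroup 2 P → Un P) (h : EA A) (c : Nat.card A = 2048) (zA : z ∈ A) (i : x ∈ A) (j : y ∈ A)
    {k : G} (m : k ∈ C_[z]) (e : k * x * k⁻¹ = y) : ∃ m ∈ N_(A), m * z * m⁻¹ = z ∧ m * x * m⁻¹ = y := by
  have ez : k * z * k⁻¹ = z := mul_inv_eq_iff_eq_mul.2 (mem_cent1.1 m)
  obtain ⟨r, ⟨a, b⟩, o⟩ := fc u h c (le_inf (h.cent zA) (h.cent j))
    (le_inf ((h.cj k).cent (ez ▸ conj_mem_cj k zA)) ((h.cj k).cent (e ▸ conj_mem_cj k i)))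
  refine ⟨_, o, ?_, ?_⟩
  · rw [show r * k * z * (r * k)⁻¹ = r * (k * z * k⁻¹) * r⁻¹ by group, ez]; exact mul_inv_eq_iff_eq_mul.2 (mem_cent1.1 a)
  · rw [show r * k * x * (r * k)⁻¹ = r * (k * x * k⁻¹) * r⁻¹ by group, e]; exact mul_inv_eq_iff_eq_mul.2 (mem_cent1.1 b)

variable {V : Type u} [AddCommGroup V] [Module (ZMod 2) V] [Finite V] {Γ : Type u} [Group Γ] [Finite Γ]
  {T : Γ → V →+ V} {d : Γ} {M S Y : Subgroup Γ} {β : V →+ V →+ ZMod 2} {q : V → ZMod 2} {v : V} {B L : AddSubgroup V}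
  {ν : G → V} {f : C_[z] →* Γ} {π : G → Γ}

theorem hc (s : Br z Q f π ν T d M β q) (i : x ∈ Q) (j : y ∈ Q) (y2 : y * y = 1) (y1 : y ≠ 1) (yz : y ≠ z)
    (a : ∃ g, T g v = ν x) (b : ∃ g, T g v = ν y) : ∃ k ∈ C_[z], k * x * k⁻¹ = y := by
  obtain ⟨a, ea⟩ := a
  obtain ⟨b, eb⟩ := b
  obtain ⟨k, m, e⟩ := s.sur (b * a⁻¹)
  obtain ⟨k, m, e, -⟩ := s.adj m i j y2 (fun o => ((s.md.ker y j).1 o).elim y1 yz) (by rw [e, s.gm.mul, ← ea, s.gm.li, eb])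
  exact ⟨k, m, e⟩

theorem cC (s : Br z Q f π ν T d M β q) : Nat.card C_[z] = 8192 * 19595520 := by
  have fs : Function.Surjective f := fun k => by
    obtain ⟨x, j, e⟩ := s.sur k
    exact ⟨⟨x, j⟩, (s.pf _).trans e⟩
  have mk : ∀ x : C_[z], f x = 1 ↔ x.1 ∈ Q := fun x => by rw [s.pf, s.ker _ x.2]
  have ck : Nat.card f.ker = 8192 := by
    rw [show f.ker = Q.subgroupOf C_[z] from Subgroup.ext mk, Nat.card_congr (subgroupOfEquivOfLe s.md.lx.le).toEquiv, s.card]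
  rw [← f.ker.card_mul_index, ck, index_ker, MonoidHom.range_eq_top.2 fs, card_top, s.gm.cΓ]

variable (s : Br z Q f π ν T d M β q) (i0 : g * z * g⁻¹ ∈ Q) (n0 : g * z * g⁻¹ ≠ z)
  (k : Pk T d M β q (ν (g * z * g⁻¹)) (s.md.push (cj g Q)) S L B Y) (u : ∀ P : Subgroup G, IsPGroup 2 P → Un P)
include s i0 n0 k u

theorem c21 : 2 ^ 21 ∣ Nat.card (N_(C_(s.md.pull B)) ⊓ centralizer {z} : Subgroup G) := by
  obtain ⟨e1, e2, -, -⟩ := H20.XhE.ea s (pp s i0 n0) ((card_cj _ _).trans s.card) k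
  have zB : z ∈ s.md.pull B := ⟨s.md.lx.aes.mem, s.md.zz ▸ B.zero_mem⟩
  exact sy2 u e1 e2 C_[z] (fun x o => cent_le_cent1 zB o) 21 (by rw [cC s]; norm_num)

theorem trDB : ∀ x ∈ {t | t ∈ C_(s.md.pull B) ∧ t ≠ 1 ∧ ¬ IsConj z t}, x ∈ s.md.pull B →
    ∀ y ∈ {t | t ∈ C_(s.md.pull B) ∧ t ≠ 1 ∧ ¬ IsConj z t}, y ∈ s.md.pull B →
    ∃ m ∈ N_(C_(s.md.pull B)), m * z * m⁻¹ = z ∧ m * x * m⁻¹ = y := by
  obtain ⟨e1, e2, e3, -⟩ := H20.XhE.ea s (pp s i0 n0) ((card_cj _ _).trans s.card) k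
  have zB : z ∈ s.md.pull B := ⟨s.md.lx.aes.mem, s.md.zz ▸ B.zero_mem⟩
  obtain ⟨t, -, -, -, ht⟩ := (s.pt g i0 n0).tr2
  have key : ∀ x ∈ {t | t ∈ C_(s.md.pull B) ∧ t ≠ 1 ∧ ¬ IsConj z t}, x ∈ s.md.pull B → x ≠ z ∧ ∃ g, T g t = ν x :=
    fun x ⟨a, b, c⟩ o => by
      have xz : x ≠ z := fun e => c (e ▸ IsConj.refl _)
      refine ⟨xz, (ht _ (fun e => ((s.md.ker x o.1).1 e).elim b xz) (k.qB _ o.2)).resolve_left fun e => c ?_⟩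
      obtain ⟨r, -, er⟩ := hc s i0 o.1 (e1 x a) b xz ⟨1, s.gm.one _⟩ e
      exact (isConj_iff.2 ⟨g, rfl⟩).trans (isConj_iff.2 ⟨r, er⟩)
  intro x a b y a' b'
  obtain ⟨r, m, er⟩ := hc s b.1 b'.1 (e1 y a'.1) a'.2.1 (key y a' b').1 (key x a b).2 (key y a' b').2
  exact tr u e1 e2 (e3.ge zB).1 a.1 a'.1 m er

theorem trZB : ∀ x ∈ s.md.pull B, x ∉ {t | t ∈ C_(s.md.pull B) ∧ t ≠ 1 ∧ ¬ IsConj z t} → x ≠ 1 → x ≠ z →
    ∀ y ∈ s.md.pull B, y ∉ {t | t ∈ C_(s.md.pull B) ∧ t ≠ 1 ∧ ¬ IsConj z t} → y ≠ 1 → y ≠ z →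
    ∃ m ∈ N_(C_(s.md.pull B)), m * z * m⁻¹ = z ∧ m * x * m⁻¹ = y := by
  obtain ⟨e1, e2, e3, -⟩ := H20.XhE.ea s (pp s i0 n0) ((card_cj _ _).trans s.card) k
  have zB : z ∈ s.md.pull B := ⟨s.md.lx.aes.mem, s.md.zz ▸ B.zero_mem⟩
  have key : ∀ x ∈ s.md.pull B, x ∉ {t | t ∈ C_(s.md.pull B) ∧ t ≠ 1 ∧ ¬ IsConj z t} → x ≠ 1 → x ≠ z →
      ∃ r, T r (ν (g * z * g⁻¹)) = ν x := fun x a b c n => by
    obtain ⟨r, rfl⟩ := isConj_iff.1 (by_contra fun o => b ⟨(e3.ge a).1, c, o⟩ : IsConj z x)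
    exact (s.pt g i0 n0).tr1 (s.pt r a.1 n)
  intro x a b c n y a' b' c' n'
  obtain ⟨r, m, er⟩ := hc s a.1 a'.1 (e1 y (e3.ge a').1) c' n' (key x a b c n) (key y a' b' c' n')
  exact tr u e1 e2 (e3.ge zB).1 (e3.ge a).1 (e3.ge a').1 m er

theorem cos (oc : ∀ x ∈ M, ∀ y ∈ M, x * x = 1 → y * y = 1 → x ≠ 1 → y ≠ 1 → ∃ g, g * x * g⁻¹ = y) :
    ∀ x ∈ C_(s.md.pull B), x ∉ s.md.pull B → ∀ y ∈ C_(s.md.pull B), y ∉ s.md.pull B →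
    ∃ m ∈ N_(C_(s.md.pull B)), m * z * m⁻¹ = z ∧ m * x * m⁻¹ * y ∈ s.md.pull B := by
  obtain ⟨e1, e2, e3, e4⟩ := H20.XhE.ea s (pp s i0 n0) ((card_cj _ _).trans s.card) k
  have zB : z ∈ s.md.pull B := ⟨s.md.lx.aes.mem, s.md.zz ▸ B.zero_mem⟩
  have lz : C_(s.md.pull B) ≤ C_[z] := fun x o => cent_le_cent1 zB o
  have mY : ∀ x ∈ C_(s.md.pull B), π x ∈ Y := fun x o => e4 ▸ ⟨⟨x, lz o⟩, o, s.pf _⟩
  have n1 : ∀ x ∈ C_(s.md.pull B), x ∉ s.md.pull B → π x ≠ 1 := fun x o n e =>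
    n (e3.le (mem_inf.2 ⟨o, (s.ker x (lz o)).1 e⟩))
  intro x a b y a' b'
  obtain ⟨r, er⟩ := oc _ (k.YM (mY x a)) _ (k.YM (mY y a')) (k.Y2 _ (mY x a)) (k.Y2 _ (mY y a')) (n1 x a b) (n1 y a' b')
  obtain ⟨r, ri, rfl⟩ := s.sur r
  have pc : ∀ r ∈ C_[z], ∀ x ∈ C_[z], π (r * x * r⁻¹) = π r * π x * (π r)⁻¹ := fun r i x j => by
    rw [s.mul _ (mul_mem i j) _ (inv_mem i), s.mul _ i _ j, s.inv _ i]
  have mX : ∀ w ∈ C_[z], π w * π y = π y * π w → w ∈ (C_[π y].comap f).map C_[z].subtype := fun w i e =>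
    ⟨⟨w, i⟩, mem_cent1.2 (by rwa [s.pf]), rfl⟩
  have ab : ∀ w ∈ C_(s.md.pull B), ∀ w' ∈ C_(s.md.pull B), π w * π w' = π w' * π w := fun w i w' j => by
    rw [← s.mul _ (lz i) _ (lz j), EA.comm e1 i j, s.mul _ (lz j) _ (lz i)]
  obtain ⟨_, ⟨c, ci, rfl⟩, o⟩ := fc (g := r) u e1 e2 (fun w i => mX w (lz i) (ab w i y a')) fun w i => by
    obtain ⟨w, j, rfl⟩ := mem_cj'.1 i
    refine mX _ (mul_mem (mul_mem ri (lz j)) (inv_mem ri)) ?_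
    rw [pc r ri w (lz j), ← er, conj_mul, conj_mul, ab w j x a]
  have ci : π c * π y = π y * π c := by have := mem_cent1.1 ci; rwa [s.pf] at this
  have mz := mul_mem c.2 ri
  have mz' := mul_mem (mul_mem mz (lz a)) (inv_mem mz)
  refine ⟨_, o, mul_inv_eq_iff_eq_mul.2 (mem_cent1.1 mz), e3.le (mem_inf.2 ⟨mul_mem (conj_mem_of_norm o a) a',
    (s.ker _ (mul_mem mz' (lz a'))).1 ?_⟩)⟩
  rw [s.mul _ mz' _ (lz a'), pc _ mz x (lz a), s.mul _ c.2 _ ri, ← k.Y2 _ (mY y a'),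
    show π c * π r * π x * (π c * π r)⁻¹ = π c * (π r * π x * (π r)⁻¹) * (π c)⁻¹ by group, er, ci, mul_inv_cancel_right]

end H03.FT
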