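import Mathlib
import Cfsg.Agent.H09.FieldSU
import Cfsg.Agent.H09.FieldPSL2
import Cfsg.Agent.H09.FieldOm4
import Cfsg.Agent.H10.Omega
import Cfsg.Agent.S0304

/-! Symmetric and skew bilinear forms over finite fields up to similarity; their projective
similarity groups. -/

namespace H03.GA

open Module Matrix H10 H10.Form H09 Subgroup Cfsg

section basic
variable {F V V' V'' : Type*} [Field F] [AddCommGroup V] [Module F V] [AddCommGroup V']
  [Module F V'] [AddCommGroup V''] [Module F V'']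

/-- nondegenerate -/
def Nd (B : LinearMap.BilinForm F V) : Prop := ∀ x, (∀ y, B x y = 0) → x = 0

/-- symmetric -/
def Sy (B : LinearMap.BilinForm F V) : Prop := ∀ x y, B y x = B x y

/-- nondegenerate, symmetric or skew -/
structure RB (B : LinearMap.BilinForm F V) : Prop where
  nd : Nd B
  sym : Sy B ∨ ∀ x y, B y x = -B x y

/-- similar forms -/
def Sim (B : LinearMap.BilinForm F V) (B' : LinearMap.BilinForm F V') : Prop :=
  ∃ (e : V' ≃ₗ[F] V) (c : Fˣ), ∀ u v, B (e u) (e v) = c * B' u v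

variable {B : LinearMap.BilinForm F V} {B' : LinearMap.BilinForm F V'}
  {B'' : LinearMap.BilinForm F V''}

theorem Sim.refl (B : LinearMap.BilinForm F V) : Sim B B := ⟨LinearEquiv.refl F V, 1, by simp⟩

theorem Sim.symm (h : Sim B B') : Sim B' B := by
  obtain ⟨e, c, h⟩ := h
  refine ⟨e.symm, c⁻¹, fun u v => ?_⟩
  have := h (e.symm u) (e.symm v)
  rw [e.apply_symm_apply, e.apply_symm_apply] at this
  rw [this, Units.inv_mul_cancel_left]

theorem Sim.trans (h : Sim B B') (h' : Sim B' B'') : Sim B B'' := by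
  obtain ⟨e, c, h⟩ := h
  obtain ⟨e', c', h'⟩ := h'
  exact ⟨e'.trans e, c * c', fun u v => by simp [h, h', mul_assoc]⟩

theorem Sim.isAlt (h : Sim B B') (hB : B.IsAlt) : B'.IsAlt := fun x => by
  obtain ⟨e, c, h⟩ := h
  have := h x x
  rw [hB.self_eq_zero] at this
  exact (mul_eq_zero.1 this.symm).resolve_left c.ne_zero

theorem RB.comp (h : RB B') (e : V ≃ₗ[F] V') :
    RB (B'.compl₁₂ (e : V →ₗ[F] V') (e : V →ₗ[F] V')) ∧
      Sim B' (B'.compl₁₂ (e : V →ₗ[F] V') (e : V →ₗ[F] V')) := by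
  refine ⟨⟨fun x hx => e.map_eq_zero_iff.1 (h.nd _ fun y => ?_), ?_⟩, e, 1, by simp⟩
  · simpa using hx (e.symm y)
  · exact h.sym.imp (fun h x y => h _ _) fun h x y => h _ _

theorem RB.refl (h : RB B) {x y : V} (e : B x y = 0) : B y x = 0 := by
  rcases h.sym with h | h <;> rw [h, e]
  simp

theorem RB.nondeg (h : RB B) : B.Nondegenerate :=
  ⟨h.nd, fun x hx => h.nd x fun y => h.refl (hx y)⟩

theorem RB.of_alt (h : B.Nondegenerate) (hA : B.IsAlt) : RB B :=
  ⟨h.1, Or.inr fun x y => (hA.neg_eq x y).symm⟩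

theorem RB.sy_or_alt (h : RB B) (h2 : (2 : F) ≠ 0) : Sy B ∨ B.IsAlt :=
  h.sym.imp id fun h x => by
    have := h x x
    exact (mul_eq_zero.1 (show 2 * B x x = 0 by linear_combination this)).resolve_left h2

theorem RB.sy (h : RB B) (h2 : (2 : F) = 0) : Sy B :=
  h.sym.elim id fun h x y => by rw [h]; linear_combination (-B x y) * h2

theorem Nd.exists_ne' [Nontrivial V] (h : Nd B) : ∃ u v, B u v ≠ 0 := by
  obtain ⟨x, hx⟩ := exists_ne (0 : V)
  by_contra! H
  exact hx (h x (H x))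

theorem Nd.not_alt [Nontrivial V] (h : Nd B) (hs : Sy B) (h2 : (2 : F) ≠ 0) : ¬ B.IsAlt := fun hA => by
  obtain ⟨u, v, e⟩ := h.exists_ne'
  have := hA.neg_eq u v
  rw [hs u v] at this
  exact e ((mul_eq_zero.1 (show 2 * B u v = 0 by linear_combination -this)).resolve_left h2)

theorem RB.even [FiniteDimensional F V] (h : RB B) (hA : B.IsAlt) : Even (finrank F V) :=
  let ⟨m, hm⟩ := even_finrank_of_alt h.nondeg hA; ⟨m, by omega⟩

theorem RB.sim_sp [FiniteDimensional F V] (h : RB B) (hA : B.IsAlt) {m : ℕ}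
    (hm : finrank F V = 2 * m) : Sim B (spB (Fin m) F) :=
  let ⟨e, he⟩ := exists_equiv_spB h.nondeg hA hm
  Sim.symm ⟨e, 1, by simp [he]⟩

theorem rb_sp (m : ℕ) : RB (spB (Fin m) F) := RB.of_alt spB_nondeg spB_alt

/-- the polar form -/
abbrev PB (Q : QuadraticForm F V) : LinearMap.BilinForm F V := QuadraticMap.polarBilin Q

theorem rb_PB (Q : QuadraticForm F V) [h : (ofQuad Q).Nondeg] : RB (PB Q) ∧ Sy (PB Q) :=
  have : Sy (PB Q) := fun _ _ => QuadraticMap.polar_comm _ _ _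
  ⟨⟨h.eq_zero, Or.inl this⟩, this⟩

theorem PB_self (Q : QuadraticForm F V) (x : V) : PB Q x x = 2 * Q x := by
  simp [QuadraticMap.polar_self]

theorem PB_of_quad {Q : QuadraticForm F V} {Q' : QuadraticForm F V'} {e : V' → V}
    (he : ∀ x y, e (x + y) = e x + e y) {c : F}
    (h : ∀ v, Q (e v) = c * Q' v) (u v : V') : PB Q (e u) (e v) = c * PB Q' u v := by
  simp only [QuadraticMap.polarBilin_apply_apply, QuadraticMap.polar, ← he, h]; ring

theorem quad_of_PB (h2 : (2 : F) ≠ 0) {Q : QuadraticForm F V} {Q' : QuadraticForm F V'} {e : V' → V}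
    {c : F} (h : ∀ u v, PB Q (e u) (e v) = c * PB Q' u v) (v : V') : Q (e v) = c * Q' v := by
  have := h v v
  rw [PB_self, PB_self] at this
  exact mul_left_cancel₀ h2 (by linear_combination this)

theorem sim_of_quad {Q : QuadraticForm F V} {Q' : QuadraticForm F V'} (e : V' ≃ₗ[F] V) {c : F}
    (hc : c ≠ 0) (h : ∀ v, Q (e v) = c * Q' v) : Sim (PB Q) (PB Q') :=
  ⟨e, Units.mk0 c hc, PB_of_quad e.map_add h⟩

/-- the quadratic form of a bilinear form -/
abbrev TQ (B : LinearMap.BilinForm F V) : QuadraticForm F V := LinearMap.BilinMap.toQuadraticMap B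

theorem PB_TQ (hs : Sy B) (x y : V) : PB (TQ B) x y = 2 * B x y := by
  rw [QuadraticMap.polarBilin_apply_apply, LinearMap.BilinMap.polar_toQuadraticMap, hs x y]; ring

theorem nondeg_TQ (h : Nd B) (hs : Sy B) (h2 : (2 : F) ≠ 0) : (ofQuad (TQ B)).Nondeg :=
  ⟨fun x hx => h x fun y => by
    have := (PB_TQ hs x y).symm.trans (hx y)
    exact (mul_eq_zero.1 this).resolve_left h2⟩

theorem sim_TQ (hs : Sy B) (h2 : (2 : F) ≠ 0) : Sim (PB (TQ B)) B :=
  ⟨LinearEquiv.refl F V, Units.mk0 2 h2, PB_TQ hs⟩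

variable [Finite F] [FiniteDimensional F V]

theorem sim_odd (h : RB B) (h2 : (2 : F) ≠ 0) {m : ℕ} (hm : finrank F V = 2 * m + 1) :
    Sim B (PB (qOdd m F)) := by
  have hs : Sy B := (h.sy_or_alt h2).resolve_right fun hA => by
    have := h.even hA
    rw [hm] at this; simp at this
  have := nondeg_TQ h.nd hs h2
  have := qOdd_nondeg (m := m) h2
  obtain ⟨g, c, hc, hg⟩ := (isQuad_ofQuad (qOdd m F)).exists_similar_odd (isQuad_ofQuad (TQ B))
    (by simp; ring) hm
  exact (sim_TQ hs h2).symm.trans (sim_of_quad g hc hg)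

theorem sim_plus (h : Nd B) (hs : Sy B) (h2 : (2 : F) ≠ 0) {m : ℕ} (hm : finrank F V = 2 * m)
    (ht : (ofQuad (TQ B)).HasTS m) : Sim B (PB (qPlus m F)) := by
  have := nondeg_TQ h hs h2
  obtain ⟨g, hg⟩ := (isQuad_ofQuad (qPlus m F)).exists_isEquiv_even (isQuad_ofQuad (TQ B))
    (by simp; ring) hm (iff_of_true qPlus_hasTS ht)
  exact (sim_TQ hs h2).symm.trans (sim_of_quad g one_ne_zero fun v => (hg.Q v).trans (one_mul _).symm)

theorem sim_minus (h : Nd B) (hs : Sy B) (h2 : (2 : F) ≠ 0) {m : ℕ} (hm : finrank F V = 2 * (m + 1))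
    (ht : ¬ (ofQuad (TQ B)).HasTS (m + 1)) {a b : F}
    (hab : ∀ z₁ z₂ : F, z₁ ^ 2 + a * z₁ * z₂ + b * z₂ ^ 2 = 0 → z₁ = 0 ∧ z₂ = 0) :
    Sim B (PB (qMinus m F a b)) := by
  have := nondeg_TQ h hs h2
  have := qMinus_nondeg (m := m) (disc_ne_zero_of_aniso hab)
  obtain ⟨g, hg⟩ := (isQuad_ofQuad (qMinus m F a b)).exists_isEquiv_even (isQuad_ofQuad (TQ B))
    (by simp; ring) hm (iff_of_false (qMinus_not_hasTS (disc_ne_zero_of_aniso hab) hab) ht)
  exact (sim_TQ hs h2).symm.trans (sim_of_quad g one_ne_zero fun v => (hg.Q v).trans (one_mul _).symm)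

omit [Finite F] [FiniteDimensional F V] in
theorem hasTS_of_quad {Q : QuadraticForm F V} {Q' : QuadraticForm F V'} (e : V ≃ₗ[F] V') {c : F}
    (h : ∀ v, Q' (e v) = c * Q v) {k : ℕ} (hk : (ofQuad Q).HasTS k) : (ofQuad Q').HasTS k := by
  obtain ⟨W, hW, rfl⟩ := hk
  refine ⟨W.map (e : V →ₗ[F] V'), (isQuad_ofQuad Q').ts ?_, LinearEquiv.finrank_map_eq e W⟩
  rintro _ ⟨x, hx, rfl⟩
  exact (h x).trans (by rw [show Q x = 0 from hW.Q x hx, mul_zero])

theorem not_sim_pm (h2 : (2 : F) ≠ 0) (m : ℕ) {a b : F}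
    (hab : ∀ z₁ z₂ : F, z₁ ^ 2 + a * z₁ * z₂ + b * z₂ ^ 2 = 0 → z₁ = 0 ∧ z₂ = 0) :
    ¬ Sim (PB (qMinus m F a b)) (PB (qPlus (m + 1) F)) := fun ⟨e, _, h⟩ =>
  qMinus_not_hasTS (disc_ne_zero_of_aniso hab) hab (hasTS_of_quad e (quad_of_PB h2 h) qPlus_hasTS)

theorem exists_sim_sy (h : Nd B) (hs : Sy B) (h2 : (2 : F) ≠ 0) {m : ℕ} (hm : finrank F V = 2 * m)
    {c : F} (hc : c ≠ 0) : ∃ e : V ≃ₗ[F] V, ∀ u v, B (e u) (e v) = c * B u v := by
  have := nondeg_TQ h hs h2
  have h' : Nd (c • B) := fun x hx => h x fun y => by simpa [hc] using hx y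
  have hs' : Sy (c • B) := fun x y => by simp [hs x y]
  have := nondeg_TQ h' hs' h2
  obtain ⟨g, hg⟩ := (isQuad_ofQuad (TQ (c • B))).exists_isEquiv_even (isQuad_ofQuad (TQ B)) hm hm
    ⟨hasTS_of_quad (LinearEquiv.refl F V) (c := c⁻¹) fun v => by simp [hc],
      hasTS_of_quad (LinearEquiv.refl F V) (c := c) fun v => by simp⟩
  refine ⟨g, fun u v => mul_left_cancel₀ h2 ?_⟩
  have := hg.B u v
  rw [ofQuad_B, ofQuad_B] at this
  rw [← PB_TQ hs]
  exact this.trans ((PB_TQ hs' u v).trans (by simp))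

omit [Finite F] in
theorem exists_refl (h : Nd B) (hs : Sy B) (h2 : (2 : F) ≠ 0) [Nontrivial V] :
    ∃ e : V ≃ₗ[F] V, (∀ u v, B (e u) (e v) = B u v) ∧ LinearMap.det (e : V →ₗ[F] V) = -1 := by
  have := nondeg_TQ h hs h2
  obtain ⟨x, hx⟩ : ∃ x, B x x ≠ 0 := by
    by_contra! H
    exact h.not_alt hs h2 H
  refine ⟨((ofQuad (TQ B)).refl x).1, fun u v => mul_left_cancel₀ h2 ?_,
    (isQuad_ofQuad _).det_refl hx⟩
  rw [← PB_TQ hs, ← PB_TQ hs]
  exact Isom.B_map ((ofQuad (TQ B)).refl x) u v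

omit [Finite F] in
theorem exists_sim_alt (h : RB B) (hA : B.IsAlt) {m : ℕ} (hm : finrank F V = 2 * m)
    {c : F} (hc : c ≠ 0) : ∃ e : V ≃ₗ[F] V, (∀ u v, B (e u) (e v) = c * B u v) ∧
      LinearMap.det (e : V →ₗ[F] V) = c ^ m := by
  obtain ⟨e, k, he⟩ := h.sim_sp hA hm
  let D : Matrix (Fin m ⊕ Fin m) (Fin m ⊕ Fin m) F := diagonal (Sum.elim (fun _ => c) fun _ => 1)
  have hD : D.det = c ^ m := by simp [D, det_diagonal]
  let d : GL (Fin m ⊕ Fin m) F := GeneralLinearGroup.mkOfDetNeZero D (by rw [hD]; exact pow_ne_zero _ hc)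
  refine ⟨e.symm ≪≫ₗ glEquiv d ≪≫ₗ e, fun u v => ?_, ?_⟩
  · obtain ⟨u, rfl⟩ := e.surjective u
    obtain ⟨v, rfl⟩ := e.surjective v
    simp only [LinearEquiv.trans_apply, LinearEquiv.symm_apply_apply, he, glEquiv_apply, spB_apply']
    rw [mul_left_comm, Finset.mul_sum _ _ c]
    congr 1
    refine Finset.sum_congr rfl fun i _ => ?_
    simp [d, D, mulVec_diagonal]; ring
  · rw [← hD]
    refine Eq.trans ?_ ((LinearMap.det_conj _ e).trans (det_glEquiv d))
    rfl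

omit [Finite F] in
theorem det_sim_alt (h : RB B) (hA : B.IsAlt) {m : ℕ} (hm : finrank F V = 2 * m)
    {c : F} (hc : c ≠ 0) {g : V ≃ₗ[F] V} (hg : ∀ u v, B (g u) (g v) = c * B u v) :
    LinearMap.det (g : V →ₗ[F] V) = c ^ m := by
  obtain ⟨d, hd, hd'⟩ := exists_sim_alt h hA hm hc
  obtain ⟨e, k, he⟩ := h.sim_sp hA hm
  let s := spOfLinear (l := Fin m) (F := F) (e ≪≫ₗ g ≪≫ₗ d.symm ≪≫ₗ e.symm).toLinearMap fun u v => by
    refine mul_left_cancel₀ k.ne_zero (mul_left_cancel₀ hc ?_)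
    rw [← he, ← he, ← hd, ← hg]; simp
  have h1 : s.1.det = 1 := SymplecticGroup.det_eq_one s.2
  have h2 : s.1.det = LinearMap.det ((d.symm : V →ₗ[F] V) ∘ₗ (g : V →ₗ[F] V)) := by
    rw [← LinearMap.det_conj _ e.symm]
    exact LinearMap.det_toMatrix' _
  rw [← hd', ← mul_one (LinearMap.det (d : V →ₗ[F] V)), ← h1, h2, ← LinearMap.det_comp]
  congr 1
  ext x; simp

omit [Finite F] in
theorem det_sim_sq (h' : B.Nondegenerate) {c : F} {g : V →ₗ[F] V}
    (hg : ∀ u v, B (g u) (g v) = c * B u v) : LinearMap.det g ^ 2 = c ^ finrank F V := by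
  classical
  let b := Module.finBasis F V
  have e : B.comp g g = c • B := by ext u v; simp [hg]
  have e1 := congrArg (fun X => (LinearMap.BilinForm.toMatrix b X).det) e
  simp only [LinearMap.BilinForm.toMatrix_comp b b, det_mul, det_transpose, LinearMap.det_toMatrix,
    map_smul, det_smul, Fintype.card_fin] at e1
  have h0 : (LinearMap.BilinForm.toMatrix b B).det ≠ 0 :=
    (LinearMap.BilinForm.nondegenerate_iff_det_ne_zero b).1 h'
  exact mul_right_cancel₀ h0 (by linear_combination e1)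

omit [Finite F] in
theorem exists_root_odd (h : B.Nondegenerate) (hn : Odd (finrank F V)) {c : F} (hc : c ≠ 0)
    {g : V →ₗ[F] V} (hg : ∀ u v, B (g u) (g v) = c * B u v) :
    ∃ t, t ^ 2 = c ∧ t ^ finrank F V = LinearMap.det g := by
  have := det_sim_sq h hg
  obtain ⟨m, hm⟩ := hn
  rw [hm] at this ⊢
  have h1 : (LinearMap.det g / c ^ m) ^ 2 = c := by
    rw [div_pow, this]; field_simp; ring
  refine ⟨_, h1, ?_⟩
  rw [pow_succ, pow_mul, h1]; field_simp

theorem exists_sq_char2 (h2 : (2 : F) = 0) (c : F) : ∃ t, t ^ 2 = c := by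
  obtain ⟨t, ht⟩ := chi_eq_one_iff.1 (chi_eq_one_of_two_eq_zero h2 c)
  exact ⟨t, by rw [ht, sq]⟩

omit [Finite F] in
theorem sq_inj_char2 (h2 : (2 : F) = 0) {a b : F} (h : a ^ 2 = b ^ 2) : a = b := by
  have : (a - b) ^ 2 = 0 := by linear_combination h + (b ^ 2 - a * b) * h2
  exact sub_eq_zero.1 (pow_eq_zero_iff two_ne_zero |>.1 this)

theorem exists_root_even (h : B.Nondegenerate) (h2 : (2 : F) = 0) {c : F}
    {g : V →ₗ[F] V} (hg : ∀ u v, B (g u) (g v) = c * B u v) :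
    ∃ t, t ^ 2 = c ∧ t ^ finrank F V = LinearMap.det g := by
  obtain ⟨t, ht⟩ := exists_sq_char2 h2 c
  exact ⟨t, ht, sq_inj_char2 h2 (by rw [det_sim_sq h hg, ← ht]; ring)⟩

theorem exists_w (h : RB B) (h2 : (2 : F) = 0) : ∃ w, ∀ v, B w v ^ 2 = B v v := by
  choose r hr using exists_sq_char2 h2
  have hs := h.sy h2
  let l : V →ₗ[F] F :=
    { toFun := fun v => r (B v v)
      map_add' := fun x y => sq_inj_char2 h2 (by
        simp only [hr, add_sq, map_add, LinearMap.add_apply, hs x y]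
        linear_combination (B x y - r (B x x) * r (B y y)) * h2)
      map_smul' := fun a x => sq_inj_char2 h2 (by simp [hr, mul_pow]; ring) }
  exact ⟨(B.toDual h.nondeg).symm l, fun v => by
    rw [LinearMap.BilinForm.apply_toDual_symm_apply]; exact hr _⟩

/-- the form `B + l ⊗ l` -/
def addSq (B : LinearMap.BilinForm F V) (l : V →ₗ[F] F) : LinearMap.BilinForm F V :=
  B + (LinearMap.mul F F).compl₁₂ l l

omit [Finite F] [FiniteDimensional F V] in
@[simp] theorem addSq_apply (l : V →ₗ[F] F) (x y : V) : addSq B l x y = B x y + l x * l y := rfl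

omit [Finite F] [FiniteDimensional F V] in
theorem rb_addSq (h : RB B) (h2 : (2 : F) = 0) {w : V} (hw : B w w = 0) : RB (addSq B (B w)) := by
  have hs := h.sy h2
  refine ⟨fun x hx => ?_, Or.inl fun x y => by simp [hs x y, mul_comm]⟩
  have h1 : x + B w x • w = 0 := h.nd _ fun y => by simpa using hx y
  have h3 := congrArg (B w) h1
  simp only [map_add, map_smul, hw, smul_zero, add_zero, map_zero] at h3
  simpa [h3] using h1

/-- the standard non-alternating symmetric form in even dimension, characteristic two -/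
noncomputable abbrev stdE (m : ℕ) (w : Fin m ⊕ Fin m → F) :
    LinearMap.BilinForm F (Fin m ⊕ Fin m → F) := addSq (spB (Fin m) F) (spB (Fin m) F w)

/-- the standard symmetric form in odd dimension, characteristic two -/
noncomputable def stdO (m : ℕ) (F : Type*) [Field F] :
    LinearMap.BilinForm F (F × (Fin m ⊕ Fin m → F)) :=
  addSq ((spB (Fin m) F).compl₁₂ (LinearMap.snd F _ _) (LinearMap.snd F _ _)) (LinearMap.fst F _ _)

omit [Finite F] in
theorem stdO_apply {m : ℕ} (x y : F × (Fin m ⊕ Fin m → F)) :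
    stdO m F x y = spB (Fin m) F x.2 y.2 + x.1 * y.1 := rfl

omit [Finite F] in
theorem char2_of_ne (h : RB B) (h2 : (2 : F) = 0) {w : V} (hw : ∀ v, B w v ^ 2 = B v v)
    (h0 : B w w ≠ 0) : ∃ m, finrank F V = 2 * m + 1 ∧ Sim B (stdO m F) := by
  have hs := h.sy h2
  have h1 : B w w = 1 := mul_left_cancel₀ h0 (by rw [← sq, hw, mul_one])
  let W := LinearMap.ker (B w)
  have hp : ∀ y, y - B w y • w ∈ W := fun y => by simp [W, h1]
  have hA : (B.restrict W).IsAlt := fun x => by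
    have : B w x = 0 := x.2
    change B x x = 0
    rw [← hw]; simp [this]
  have hR : RB (B.restrict W) := ⟨fun x hx => Subtype.ext (h.nd _ fun y => by
    have e1 : B x (y - B w y • w) = 0 := hx ⟨_, hp y⟩
    have e2 : B w x = 0 := x.2
    simpa [hs w x, e2] using e1), Or.inl fun x y => hs _ _⟩
  obtain ⟨m, hm⟩ := even_finrank_of_alt hR.nondeg hA
  obtain ⟨e, he⟩ := exists_equiv_spB hR.nondeg hA hm
  let f : V →ₗ[F] F × (Fin m ⊕ Fin m → F) :=
    (B w).prod (e.toLinearMap ∘ₗ (LinearMap.id - (B w).smulRight w).codRestrict W hp)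
  have hf : Function.Bijective f := by
    refine ⟨(injective_iff_map_eq_zero f).2 fun x hx => ?_, fun y => ⟨y.1 • w + e.symm y.2, ?_⟩⟩
    · have e1 : B w x = 0 := congrArg Prod.fst hx
      have e2 : e ⟨_, hp x⟩ = 0 := congrArg Prod.snd hx
      simpa [e1] using e2
    · have e2 : B w (e.symm y.2) = 0 := (e.symm y.2).2
      refine Prod.ext (by simp [f, h1, e2]) ?_
      change e ⟨_, hp _⟩ = _
      rw [← e.eq_symm_apply]
      exact Subtype.ext (by simp [h1, e2])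
  refine ⟨m, ?_, Sim.symm ⟨LinearEquiv.ofBijective f hf, 1, fun u v => ?_⟩⟩
  · rw [(LinearEquiv.ofBijective f hf).finrank_eq]; simp; ring
  · change spB (Fin m) F (e ⟨_, hp u⟩) (e ⟨_, hp v⟩) + B w u * B w v = _
    rw [he]; simp [h1, hs w u, mul_comm]

omit [Finite F] in
theorem char2_of_eq (h : RB B) (h2 : (2 : F) = 0) {w : V} (hw : ∀ v, B w v ^ 2 = B v v)
    (h0 : B w w = 0) : Even (finrank F V) ∧ ∀ m, finrank F V = 2 * m → ¬ B.IsAlt →
      ∀ w₀ : Fin m ⊕ Fin m → F, w₀ ≠ 0 → Sim B (stdE m w₀) := by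
  have hR := rb_addSq h h2 h0
  have hA : (addSq B (B w)).IsAlt := fun x => by
    rw [addSq_apply, ← hw]; linear_combination (B w x ^ 2) * h2
  refine ⟨hR.even hA, fun m hm hB w₀ hw₀ => ?_⟩
  obtain ⟨e, he⟩ := exists_equiv_spB hR.nondeg hA hm
  have hw0 : e w ≠ 0 := fun h => hB fun x => by
    rw [← hw, e.map_eq_zero_iff.1 h]; simp
  obtain ⟨g, hg⟩ := (spAct_sp (l := Fin m) (F := F)).exists_smul_eq hw0 hw₀
  refine Sim.symm ⟨e ≪≫ₗ DistribMulAction.toLinearEquiv F _ g, 1, fun u v => ?_⟩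
  change spB _ F (g • e u) (g • e v) + spB _ F w₀ (g • e u) * spB _ F w₀ (g • e v) = _
  rw [← hg, sp_pres, sp_pres, sp_pres, he, he, he]
  simp only [addSq_apply, h0, Units.val_one]
  linear_combination (B w u * B w v) * h2

theorem sim_stdO (h : RB B) (h2 : (2 : F) = 0) {m : ℕ} (hm : finrank F V = 2 * m + 1) :
    Sim B (stdO m F) := by
  obtain ⟨w, hw⟩ := exists_w h h2
  by_cases h0 : B w w = 0
  · have := (char2_of_eq h h2 hw h0).1
    rw [hm] at this; simp at this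
  · obtain ⟨k, hk, e⟩ := char2_of_ne h h2 hw h0
    obtain rfl : k = m := by omega
    exact e

theorem sim_stdE (h : RB B) (h2 : (2 : F) = 0) {m : ℕ} (hm : finrank F V = 2 * m) (hB : ¬ B.IsAlt)
    {w₀ : Fin m ⊕ Fin m → F} (hw₀ : w₀ ≠ 0) : Sim B (stdE m w₀) := by
  obtain ⟨w, hw⟩ := exists_w h h2
  by_cases h0 : B w w = 0
  · exact (char2_of_eq h h2 hw h0).2 m hm hB w₀ hw₀
  · obtain ⟨k, hk, -⟩ := char2_of_ne h h2 hw h0
    omega

omit [Finite F] in
theorem rb_stdE (h2 : (2 : F) = 0) {m : ℕ} {w₀ : Fin m ⊕ Fin m → F} (hw₀ : w₀ ≠ 0) :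
    RB (stdE m w₀) ∧ ¬ (stdE m w₀).IsAlt :=
  ⟨rb_addSq (rb_sp m) h2 (spB_alt.self_eq_zero _), fun h => hw₀ ((rb_sp m).nd _ fun y => by
    simpa [spB_alt.self_eq_zero] using h.self_eq_zero y)⟩

end basic

section grp
variable {ι κ : Type} [Fintype ι] [DecidableEq ι] [Fintype κ] [DecidableEq κ] {F V : Type*} [Field F]
  [AddCommGroup V] [Module F V]

/-- the similarity group -/
abbrev SG (B : LinearMap.BilinForm F (ι → F)) : Subgroup (GL ι F) :=
  Geo.similarityGroup fun u v => B u v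

theorem pq_congr {S T : Subgroup (GL ι F)} (h : S = T) : Nonempty (projQuot S ≃* projQuot T) :=
  h ▸ ⟨MulEquiv.refl _⟩

theorem glScal_mulVec (c : Fˣ) (g : GL ι F) (v : ι → F) :
    (glScal c * g).1 *ᵥ v = (c : F) • (g.1 *ᵥ v) := by simp [glScal_val, smul_mulVec]

theorem pq_mk_eq {S : Subgroup (GL ι F)} {g k : S} :
    (QuotientGroup.mk g : projQuot S) = QuotientGroup.mk k ↔ ∃ c, k.1 = glScal c * g.1 := by
  rw [QuotientGroup.eq, mem_subgroupOf]
  refine exists_congr fun c => ?_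
  change glScal c = g.1⁻¹ * k.1 ↔ _
  rw [eq_inv_mul_iff_mul_eq, glScal_comm, eq_comm]

theorem pq_of_hom {H : Type*} [Group H] (S : Subgroup (GL ι F)) (f : H →* GL ι F) (hf : ∀ h, f h ∈ S)
    (h1 : ∀ g ∈ S, ∃ c h, g = glScal c * f h) (h2 : ∀ h c, f h = glScal c → h = 1) :
    Nonempty (projQuot S ≃* H) := by
  refine ⟨(MulEquiv.ofBijective ((QuotientGroup.mk' _).comp (f.codRestrict S hf)) ⟨?_, ?_⟩).symm⟩
  · refine (injective_iff_map_eq_one _).2 fun h e => ?_
    obtain ⟨c, hc⟩ := pq_mk_eq.1 (e.symm : (QuotientGroup.mk 1 : projQuot S) = QuotientGroup.mk _)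
    exact h2 h c (by simpa using hc)
  · intro x
    obtain ⟨g, rfl⟩ := QuotientGroup.mk_surjective x
    obtain ⟨c, h, e⟩ := h1 g g.2
    exact ⟨h, pq_mk_eq.2 ⟨c, e⟩⟩

theorem glConj_mem_SG {B : LinearMap.BilinForm F (ι → F)} {B' : LinearMap.BilinForm F (κ → F)}
    {e : (κ → F) ≃ₗ[F] (ι → F)} {k : Fˣ} (he : ∀ u v, B (e u) (e v) = k * B' u v) {g : GL κ F} {c : F} :
    (∀ u v, B ((glConj e g).1 *ᵥ u) ((glConj e g).1 *ᵥ v) = c * B u v) ↔
      ∀ u v, B' (g.1 *ᵥ u) (g.1 *ᵥ v) = c * B' u v := by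
  rw [e.surjective.forall₂]
  simp only [glConj_apply, he, mul_left_comm c, Units.mul_right_inj]

theorem pq_sim {B : LinearMap.BilinForm F (ι → F)} {B' : LinearMap.BilinForm F (κ → F)}
    (h : Sim B B') : Nonempty (projQuot (SG B) ≃* projQuot (SG B')) := by
  obtain ⟨e, k, he⟩ := h
  let f : SG B' →* SG B := ((glConj e).comp (SG B').subtype).codRestrict _ fun g =>
    let ⟨c, hc⟩ := g.2; ⟨c, (glConj_mem_SG he).2 hc⟩
  refine (nonempty_projQuot (SG B') ((QuotientGroup.mk' ((Geo.scalars ι F).subgroupOf _)).comp f)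
    (X := ⊤) (fun g => ?_) ?_).map topEquiv.symm.trans
  · refine eq_comm.trans ((pq_mk_eq (g := 1) (k := f g)).trans (exists_congr fun c => ?_))
    have := glConj_eq_iff e (h := g) (k := 1) (c := c)
    rw [map_one, mul_one, mul_one] at this
    rw [OneMemClass.coe_one, mul_one]
    exact this.trans eq_comm
  · refine MonoidHom.range_eq_top.2 fun x => ?_
    obtain ⟨⟨g, c, hc⟩, rfl⟩ := QuotientGroup.mk_surjective x
    refine ⟨⟨glConj e.symm g, c, (glConj_mem_SG he).1 (by rwa [glConj_symm])⟩, ?_⟩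
    exact congrArg QuotientGroup.mk (Subtype.ext (glConj_symm e g))

theorem quadSim_eq (h2 : (2 : F) ≠ 0) (Q : QuadraticForm F (ι → F)) :
    Geo.quadSimilarityGroup (F := F) Q = SG (PB Q) := by
  ext g
  exact exists_congr fun c => ⟨fun h => PB_of_quad (mulVec_add g.1) h, fun h => quad_of_PB h2 h⟩

theorem pq_PGO (h2 : (2 : F) ≠ 0) {B : LinearMap.BilinForm F (ι → F)} {Q : QuadraticForm F (κ → F)}
    (h : Sim B (PB Q)) : Nonempty (projQuot (SG B) ≃* PGO F Q) :=
  let ⟨a⟩ := pq_sim h; let ⟨b⟩ := pq_congr (quadSim_eq h2 Q); ⟨a.trans b.symm⟩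

theorem GSp_eq (m : ℕ) : GSp m F = SG (spB (Fin m) F) := by
  ext g
  exact exists_congr fun c => by simp only [sympForm_eq]

theorem pq_PGSp {B : LinearMap.BilinForm F (ι → F)} {m : ℕ} (h : Sim B (spB (Fin m) F)) :
    Nonempty (projQuot (SG B) ≃* PGSp m F) :=
  let ⟨a⟩ := pq_sim h; let ⟨b⟩ := pq_congr (GSp_eq (F := F) m); ⟨a.trans b.symm⟩

theorem pq_char2 [Finite F] (h2 : (2 : F) = 0) {B : LinearMap.BilinForm F (ι → F)}
    {B' : LinearMap.BilinForm F V} (h : Sim B B') (h0 : ∃ u v, B' u v ≠ 0) {H : Type*} [Group H]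
    (ρ : H →* (V ≃ₗ[F] V)) (hi : Function.Injective ρ)
    (hr : ∀ g : V ≃ₗ[F] V, (∀ u v, B' (g u) (g v) = B' u v) ↔ ∃ h, ρ h = g) :
    Nonempty (projQuot (SG B) ≃* H) := by
  obtain ⟨e, k, he⟩ := h
  let f : H →* GL ι F := MonoidHom.mk' (fun h => glEquiv.symm (e.symm ≪≫ₗ ρ h ≪≫ₗ e)) fun a b =>
    glEquiv.injective (by rw [map_mul glEquiv]; ext v; simp)
  have hf : ∀ h u, (f h).1 *ᵥ e u = e (ρ h u) := fun h u => by
    rw [← glEquiv_apply]; simp [f]
  refine pq_of_hom _ f (fun h => ⟨1, e.surjective.forall₂.2 fun u v => ?_⟩) ?_ fun h c hc => ?_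
  · simp only [hf, he, (hr _).2 ⟨h, rfl⟩, Units.val_one, one_mul]
  · rintro g ⟨c, hc⟩
    obtain ⟨t, ht⟩ := exists_sq_char2 h2 (c : F)
    have ht0 : t ≠ 0 := fun h => c.ne_zero (by rw [← ht, h]; simp)
    obtain ⟨h, hh⟩ := (hr (e ≪≫ₗ glEquiv (glScal (Units.mk0 t ht0)⁻¹ * g) ≪≫ₗ e.symm)).1 fun u v => by
      refine mul_left_cancel₀ k.ne_zero ?_
      rw [← he, ← he]
      simp only [LinearEquiv.trans_apply, LinearEquiv.apply_symm_apply, glEquiv_apply,
        glScal_mulVec, map_smul, LinearMap.smul_apply]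
      rw [show B (g.1 *ᵥ e u) (g.1 *ᵥ e v) = _ from hc _ _, ← ht]
      simp only [Units.val_inv_eq_inv_val, Units.val_mk0, smul_eq_mul]; field_simp
    refine ⟨Units.mk0 t ht0, h, gl_ext (e.surjective.forall.2 fun u => ?_)⟩
    rw [glScal_mulVec, hf, hh]
    simp only [LinearEquiv.trans_apply, LinearEquiv.apply_symm_apply, glEquiv_apply, glScal_mulVec,
      smul_smul]
    simp [ht0]
  · have h1 : ∀ u, ρ h u = (c : F) • u := fun u => e.injective (by
      rw [← hf, hc]; simp [glScal_val, smul_mulVec])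
    obtain ⟨u, v, huv⟩ := h0
    have h3 := (hr _).2 ⟨h, rfl⟩ u v
    simp only [h1, map_smul, LinearMap.smul_apply, smul_eq_mul] at h3
    have h4 : (c : F) = 1 := sq_inj_char2 h2 (mul_right_cancel₀ huv (by linear_combination h3))
    exact hi (LinearEquiv.ext fun u => by rw [h1, h4, map_one]; simp)

/-- the symplectic group acting linearly -/
noncomputable def spLin (m : ℕ) (F : Type*) [Field F] : symplecticGroup (Fin m) F →*
    ((Fin m ⊕ Fin m → F) ≃ₗ[F] (Fin m ⊕ Fin m → F)) :=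
  (spForm (Fin m) F).Isom.subtype.comp (spIsomEquiv (Fin m) F).toMonoidHom

theorem spLin_apply {m : ℕ} (g : symplecticGroup (Fin m) F) (v) : spLin m F g v = g • v := rfl

theorem spLin_injective {m : ℕ} : Function.Injective (spLin m F) :=
  Subtype.val_injective.comp (spIsomEquiv (Fin m) F).injective

theorem exists_spLin {m : ℕ} {g : (Fin m ⊕ Fin m → F) ≃ₗ[F] (Fin m ⊕ Fin m → F)}
    (h : ∀ u v, spB (Fin m) F (g u) (g v) = spB (Fin m) F u v) : ∃ k, spLin m F k = g :=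
  ⟨(spIsomEquiv (Fin m) F).symm ⟨g, h, fun _ => rfl⟩,
    congrArg Subtype.val ((spIsomEquiv (Fin m) F).apply_symm_apply _)⟩

theorem pq_sp2 [Finite F] (h2 : (2 : F) = 0) {B : LinearMap.BilinForm F (ι → F)} {m : ℕ} [NeZero m]
    (h : Sim B (spB (Fin m) F)) : Nonempty (projQuot (SG B) ≃* symplecticGroup (Fin m) F) :=
  pq_char2 h2 h (rb_sp m).nd.exists_ne' (spLin m F) spLin_injective fun _ =>
    ⟨exists_spLin, by rintro ⟨k, rfl⟩; exact sp_pres k⟩

theorem commute_spTv_iff (h2 : (2 : F) = 0) {m : ℕ} {w : Fin m ⊕ Fin m → F}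
    {g : symplecticGroup (Fin m) F} : g ∈ centralizer {spTv w (1 : F)} ↔ g • w = w := by
  rw [mem_centralizer_singleton_iff, ← mul_inv_eq_iff_eq_mul, spTv_conj]
  refine ⟨fun h => ?_, fun h => by rw [h]⟩
  refine sub_eq_zero.1 ((rb_sp m).nondeg.2 _ fun x => ?_)
  have h1 := congrArg (fun k : symplecticGroup (Fin m) F => spB (Fin m) F x (k • x)) h
  simp only [spTv_smul, map_add, map_smul, smul_eq_mul, one_mul, add_right_inj] at h1
  rw [map_sub, sq_inj_char2 h2 (a := spB (Fin m) F x (g • w)) (b := spB (Fin m) F x w)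
    (by rw [sq, sq, h1]), sub_self]

theorem pq_stdE [Finite F] (h2 : (2 : F) = 0) {B : LinearMap.BilinForm F (ι → F)} {m : ℕ} [NeZero m]
    {w : Fin m ⊕ Fin m → F} (hw : w ≠ 0) (h : Sim B (stdE m w)) :
    Nonempty (projQuot (SG B) ≃* centralizer ({spTv w 1} : Set (symplecticGroup (Fin m) F))) := by
  refine pq_char2 h2 h (rb_stdE h2 hw).1.nd.exists_ne' ((spLin m F).comp (Subgroup.subtype _))
    (spLin_injective.comp Subtype.val_injective) fun g => ⟨fun hg => ?_, ?_⟩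
  · have h1 : ∀ u, spB (Fin m) F w (g u) = spB (Fin m) F w u := fun u => sq_inj_char2 h2 (by
      simpa [spB_alt.self_eq_zero, sq] using hg u u)
    obtain ⟨k, rfl⟩ := exists_spLin (g := g) fun u v => by simpa [h1] using hg u v
    refine ⟨⟨k, (commute_spTv_iff h2).2 (sub_eq_zero.1 ((rb_sp m).nd _ fun y => ?_))⟩, rfl⟩
    obtain ⟨y, rfl⟩ := (spLin m F k).surjective y
    rw [map_sub, LinearMap.sub_apply, h1, spLin_apply, sp_pres, sub_self]
  · rintro ⟨⟨k, hk⟩, rfl⟩ u v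
    change spB _ F (k • u) (k • v) + spB _ F w (k • u) * spB _ F w (k • v) = _
    conv_lhs => rw [← (commute_spTv_iff h2).1 hk]
    simp [sp_pres]

theorem pq_stdO [Finite F] (h2 : (2 : F) = 0) {B : LinearMap.BilinForm F (ι → F)} {m : ℕ}
    (h : Sim B (stdO m F)) : Nonempty (projQuot (SG B) ≃* symplecticGroup (Fin m) F) := by
  let ρ : symplecticGroup (Fin m) F →* (F × (Fin m ⊕ Fin m → F)) ≃ₗ[F] (F × (Fin m ⊕ Fin m → F)) :=
    MonoidHom.mk' (fun g => (LinearEquiv.refl F F).prodCongr (spLin m F g)) fun a b => by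
      ext x <;> simp
  refine pq_char2 h2 h ⟨(1, 0), (1, 0), by simp [stdO_apply]⟩ ρ (fun a b e => sp_ext fun v =>
    congrArg (fun k : _ ≃ₗ[F] _ => (k (0, v)).2) e) fun g => ⟨fun hg => ?_, ?_⟩
  · have h1 : ∀ u, (g u).1 = u.1 := fun u => sq_inj_char2 h2 (by
      simpa [spB_alt.self_eq_zero, sq, stdO_apply] using hg u u)
    have h3 : ∀ u v, spB (Fin m) F (g u).2 (g v).2 = spB (Fin m) F u.2 v.2 := fun u v => by
      simpa [h1, stdO_apply] using hg u v
    have h4 : (g (1, 0)).2 = 0 := (rb_sp m).nd _ fun y => by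
      obtain ⟨z, hz⟩ := g.surjective (0, y)
      have := h3 (1, 0) z
      rwa [hz, map_zero, LinearMap.zero_apply] at this
    let k := spOfLinear (LinearMap.snd F _ _ ∘ₗ g.toLinearMap ∘ₗ LinearMap.inr F F _) fun u v => h3 _ _
    refine ⟨k, LinearEquiv.ext fun x => Prod.ext (h1 x).symm ?_⟩
    refine (spOfLinear_smul _ _ x.2).trans ?_
    have : x = x.1 • (1, 0) + (0, x.2) := by simp
    conv_rhs => rw [this, map_add, map_smul, Prod.snd_add, Prod.smul_snd, h4]
    simp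
  · rintro ⟨k, rfl⟩ u v
    change spB _ F (k • u.2) (k • v.2) + u.1 * v.1 = _
    rw [sp_pres, stdO_apply]

theorem pgo_odd2 [Fintype F] (h2 : (2 : F) = 0) (m : ℕ) :
    Nonempty (PGO F (quadFormOdd m F) ≃* symplecticGroup (Fin m) F) := by
  have : CharP F 2 := (CharP.charP_iff_prime_eq_zero Nat.prime_two).2 (by simpa using h2)
  obtain ⟨a⟩ := Cfsg.Agent.S0304.result (F := F) m
  have hQ : ∀ (c : F) v, quadFormOdd m F (c • v) = c ^ 2 * quadFormOdd m F v := fun c v => by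
    rw [← coe_qOdd, QuadraticMap.map_smul, sq, smul_eq_mul]
  obtain ⟨b⟩ := pq_of_hom (Geo.quadSimilarityGroup (F := F) (quadFormOdd m F))
    (isometryGroup F (quadFormOdd m F)).subtype (fun g => ⟨1, fun v => by simpa using g.2 v v⟩)
    (by
      rintro g ⟨c, hc⟩
      obtain ⟨t, ht⟩ := exists_sq_char2 h2 (c : F)
      have ht0 : t ≠ 0 := fun h => c.ne_zero (by rw [← ht, h]; simp)
      refine ⟨Units.mk0 t ht0, ⟨glScal (Units.mk0 t ht0)⁻¹ * g, fun u _ => ?_⟩, by simp⟩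
      change quadFormOdd m F ((glScal _ * g).1 *ᵥ u) = quadFormOdd m F u
      rw [glScal_mulVec, hQ, hc, ← ht]
      simp only [Units.val_inv_eq_inv_val, Units.val_mk0]; field_simp)
    (fun h c hc => by
      have h1 : quadFormOdd m F (h.1.1 *ᵥ Pi.single (.inl ()) 1) =
        quadFormOdd m F (Pi.single (.inl ()) 1) := h.2 _ (Pi.single (.inl ()) 1)
      rw [show h.1 = glScal c from hc, ← mul_one (glScal c), glScal_mulVec, hQ] at h1
      have h4 : (c : F) = 1 := sq_inj_char2 h2 (by simpa [quadFormOdd] using h1)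
      exact Subtype.ext (hc.trans (Units.ext (by simp [glScal_val, h4]))))
  exact ⟨b.trans a⟩

theorem card_pq [Finite F] [Nonempty ι] {B : LinearMap.BilinForm F (ι → F)} (h : Nd B)
    (hs : ∀ c : F, c ≠ 0 → ∃ e : (ι → F) ≃ₗ[F] (ι → F), ∀ u v, B (e u) (e v) = c * B u v) :
    Nat.card (projQuot (SG B)) = Nat.card (isometryAlt B) := by
  obtain ⟨x, y, hxy⟩ := h.exists_ne'
  have uniq : ∀ (g : SG B) (c : Fˣ), (∀ u v, B (g.1.1 *ᵥ u) (g.1.1 *ᵥ v) = c * B u v) →
      g.2.choose = c := fun g c hc =>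
    Units.ext (mul_right_cancel₀ hxy ((g.2.choose_spec x y).symm.trans (hc x y)))
  let μ : SG B →* Fˣ := MonoidHom.mk' (fun g => g.2.choose) fun a b => uniq _ _ fun u v => by
    have h1 := a.2.choose_spec (b.1.1 *ᵥ u) (b.1.1 *ᵥ v)
    have h3 := b.2.choose_spec u v
    simp only [mulVec_mulVec] at h1 h3
    rw [Units.val_mul, mul_assoc, ← h3, ← h1]; rfl
  have hμ : μ.range = ⊤ := MonoidHom.range_eq_top.2 fun c => by
    obtain ⟨e, he⟩ := hs c c.ne_zero
    have : ∀ u v, B ((glEquiv.symm e).1 *ᵥ u) ((glEquiv.symm e).1 *ᵥ v) = c * B u v := fun u v => by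
      rw [← glEquiv_apply, ← glEquiv_apply, MulEquiv.apply_symm_apply, he]
    exact ⟨⟨_, c, this⟩, uniq _ _ this⟩
  have h1 : Nat.card μ.ker = Nat.card (isometryAlt B) := by
    refine Nat.card_congr (Equiv.ofBijective (fun g => ⟨glEquiv g.1.1, fun u v => ?_⟩) ⟨?_, ?_⟩)
    · have h3 := g.1.2.choose_spec u v
      rw [show g.1.2.choose = 1 from g.2] at h3
      simpa [glEquiv_apply] using h3
    · exact fun a b e => Subtype.ext (Subtype.ext (glEquiv.injective (congrArg Subtype.val e)))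
    · rintro ⟨e, he⟩
      have : ∀ u v, B ((glEquiv.symm e).1 *ᵥ u) ((glEquiv.symm e).1 *ᵥ v) = (1 : Fˣ) * B u v :=
        fun u v => by
          rw [← glEquiv_apply, ← glEquiv_apply, MulEquiv.apply_symm_apply, he]; simp
      exact ⟨⟨⟨_, 1, this⟩, uniq _ _ this⟩, Subtype.ext (glEquiv.apply_symm_apply e)⟩
  have h3 : Nat.card ((Geo.scalars ι F).subgroupOf (SG B)) = Nat.card Fˣ := by
    rw [Nat.card_congr (subgroupOfEquivOfLe ?_).toEquiv]
    · exact (Nat.card_congr (MonoidHom.ofInjective (glScal_injective (ι := ι) (F := F))).toEquiv).symm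
    · rintro _ ⟨c, rfl⟩
      refine ⟨c * c, fun u v => ?_⟩
      change B ((glScal c).1 *ᵥ u) ((glScal c).1 *ᵥ v) = _
      simp [glScal_val, smul_mulVec, mul_assoc]
  have h4 := card_eq_card_quotient_mul_card_subgroup ((Geo.scalars ι F).subgroupOf (SG B))
  have h5 := μ.ker.index_mul_card
  rw [index_ker, hμ, card_top, h1, h4, h3, mul_comm] at h5
  exact (Nat.eq_of_mul_eq_mul_right Nat.card_pos h5).symm

theorem isometryAlt_sy {B : LinearMap.BilinForm F V} (hs : Sy B) (h2 : (2 : F) ≠ 0) :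
    isometryAlt B = (ofQuad (TQ B)).Isom := by
  ext g
  refine ⟨fun h => ofQuad_isIsom (g := g.toLinearMap) fun x => h x x, fun h u v => ?_⟩
  refine mul_left_cancel₀ h2 ?_
  rw [← PB_TQ hs, ← PB_TQ hs]
  exact h.B u v

theorem not_pq_PGSp [Finite F] {B : LinearMap.BilinForm F (ι → F)} (h : Nd B) (hs : Sy B)
    (h2 : (2 : F) ≠ 0) {m : ℕ} (hm : Fintype.card ι = 2 * (m + 1)) :
    ¬ Nonempty (projQuot (SG B) ≃* PGSp (m + 1) F) := by
  rintro ⟨a⟩
  have : Nonempty ι := Fintype.card_pos_iff.1 (by omega)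
  have hn : finrank F (ι → F) = 2 * (m + 1) := by simpa using hm
  have h1 := card_pq h fun c hc => exists_sim_sy h hs h2 hn hc
  have h3 := card_pq (rb_sp (F := F) (m + 1)).nd fun c hc =>
    (exists_sim_alt (rb_sp _) spB_alt (m := m + 1) (by simp; ring) hc).imp fun _ h => h.1
  obtain ⟨b⟩ := pq_congr (GSp_eq (F := F) (m + 1))
  have h4 := h1.symm.trans ((Nat.card_congr (a.trans b).toEquiv).trans h3)
  have := nondeg_TQ h hs h2
  rw [isometryAlt_sy hs h2, isometryAlt_eq_Isom _ spB_alt] at h4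
  have h5 := (isAltF_spForm (l := Fin (m + 1)) (F := F)).card_Isom (m := m + 1) (by simp; ring)
  have h6 : Nat.card (ofQuad (TQ B)).Isom = _ := h4.trans h5
  have hq : 3 ≤ Nat.card F := by
    have := Finite.one_lt_card (α := F)
    have := odd_card_iff.2 h2
    obtain ⟨k, hk⟩ := this
    omega
  have hP : 0 < ∏ i ∈ Finset.range m, (Nat.card F ^ (2 * (i + 1)) - 1) :=
    Finset.prod_pos fun i _ => Nat.sub_pos_of_lt (Nat.one_lt_pow (by omega) (by omega))
  have key : ∀ x, x ≤ Nat.card F ^ (m + 1) + 1 → 2 * Nat.card F ^ ((m + 1) * m) * x *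
      ∏ i ∈ Finset.range m, (Nat.card F ^ (2 * (i + 1)) - 1) ≠ Nat.card F ^ ((m + 1) ^ 2) *
      ∏ i ∈ Finset.range (m + 1), (Nat.card F ^ (2 * (i + 1)) - 1) := fun x hx e => by
    rw [Finset.prod_range_succ, mul_comm (Finset.prod _ _), ← mul_assoc, Nat.mul_left_inj hP.ne',
      show (m + 1) ^ 2 = (m + 1) * m + (m + 1) by ring, pow_add, mul_comm 2, mul_assoc, mul_assoc,
      Nat.mul_right_inj (by positivity), mul_comm 2 (m + 1), pow_mul] at e
    have h7 : 3 ≤ Nat.card F ^ (m + 1) := hq.trans (Nat.le_self_pow (by omega) _)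
    generalize Nat.card F ^ (m + 1) = y at hx e h7
    obtain ⟨z, rfl⟩ := Nat.exists_eq_add_of_le' h7
    rw [show (z + 3) ^ 2 - 1 = z ^ 2 + 6 * z + 8 from Nat.sub_eq_of_eq_add (by ring)] at e
    nlinarith
  by_cases ht : (ofQuad (TQ B)).HasTS (m + 1)
  · exact key _ (by omega) (((isQuad_ofQuad _).card_Isom_plus hn ht).symm.trans h6)
  · exact key _ le_rfl (((isQuad_ofQuad _).card_Isom_minus hn ht).symm.trans h6)

end grp

end H03.GA
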