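import Mathlib
import Cfsg.Agent.H03.GA1

/-! Abstract setting for involutory graph automorphisms: classes correspond to symmetric or skew
forms up to similarity. -/

namespace H03.GA

open Module Matrix H10 H10.Form H09 Subgroup Cfsg

/-- `g` is a similarity with multiplier `c` -/
def IsS {F V : Type*} [Field F] [AddCommGroup V] [Module F V] (B : LinearMap.BilinForm F V)
    (g : V ≃ₗ[F] V) (c : F) : Prop := c ≠ 0 ∧ ∀ u v, B (g u) (g v) = c * B u v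

/-- the abstract setting -/
structure GS (F : Type*) [Field F] (n : ℕ) {A : Type*} [Group A] (G I : Subgroup A) (P : A → Prop)
    (R : A → LinearMap.BilinForm F (Fin n → F) → Prop) (C : Type*) [CommGroup C]
    (D : F → F → C → Prop) : Prop where
  ex : ∀ γ, P γ → ∃ B, RB B ∧ R γ B
  ex' : ∀ B, RB B → ∃ γ, P γ ∧ R γ B
  conj : ∀ {γ γ' B B'}, RB B → RB B' → R γ B → R γ' B' → (IsConjUnder G γ γ' ↔ Sim B B')
  cent : ∀ {γ B}, RB B → R γ B → Nonempty (↥(G ⊓ centralizer {γ}) ≃* projQuot (SG B))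
  split : ∀ {γ B}, RB B → R γ B → ∀ K : Subgroup C,
    (∀ g c x, IsS B g c → D c (LinearMap.det g.toLinearMap) x →
      x ∈ (powMonoidHom n : C →* C).range ⊔ K) →
    (∀ s ∈ K, ∃ g c, IsS B g c ∧ D c (LinearMap.det g.toLinearMap) s) →
    splitClassCount G I γ = Nat.gcd n K.index
  d1 : ∀ t c d x, t ^ 2 = c → t ^ n = d → D c d x → ∃ y, y ^ n = x
  d1' : D 1 1 1
  d2 : ∀ m c x, n = 2 * m → D c (c ^ m) x → ∃ y, y ^ m = x
  d2' : ∀ m y, n = 2 * m → ∃ c, c ≠ 0 ∧ D c (c ^ m) (y ^ m)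
  d3 : (2 : F) ≠ 0 → ∃ z : C, z ≠ 1 ∧ (∀ x, x ^ 2 = 1 ↔ x = 1 ∨ x = z) ∧
    ∀ c d x, D c d x → D c (-d) (z * x)

namespace GS

variable {F : Type*} [Field F] [Fintype F] {n : ℕ} {A : Type*} [Group A] {G I : Subgroup A}
  {P : A → Prop} {R : A → LinearMap.BilinForm F (Fin n → F) → Prop} {C : Type*} [CommGroup C]
  {D : F → F → C → Prop} (h : GS F n G I P R C D)
include h

omit [Fintype F] in
theorem ex_sim {V : Type*} [AddCommGroup V] [Module F V] [FiniteDimensional F V]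
    {B₀ : LinearMap.BilinForm F V} (hB : RB B₀) (hn : finrank F V = n) :
    ∃ γ B, P γ ∧ RB B ∧ R γ B ∧ Sim B B₀ := by
  obtain ⟨h1, h2⟩ := hB.comp (LinearEquiv.ofFinrankEq (Fin n → F) V (by simp [hn]))
  obtain ⟨γ, h3, h4⟩ := h.ex' _ h1
  exact ⟨γ, _, h3, h1, h4, h2.symm⟩

omit [Fintype F] in
theorem cent_trans {γ B} (hB : RB B) (hR : R γ B) {X : Type*} [Group X]
    (e : Nonempty (projQuot (SG B) ≃* X)) : Nonempty (↥(G ⊓ centralizer {γ}) ≃* X) :=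
  let ⟨a⟩ := h.cent hB hR; let ⟨b⟩ := e; ⟨a.trans b⟩

theorem odd {m : ℕ} (hn : n = 2 * m + 1) {γ γ' : A} (h1 : P γ) (h1' : P γ') :
    Nonempty (↥(G ⊓ centralizer {γ}) ≃* PGO F (quadFormOdd m F)) ∧ IsConjUnder G γ γ' := by
  obtain ⟨B, hB, hR⟩ := h.ex γ h1
  obtain ⟨B', hB', hR'⟩ := h.ex γ' h1'
  have hm : finrank F (Fin n → F) = 2 * m + 1 := by simpa using hn
  rw [h.conj hB hB' hR hR']
  by_cases h2 : (2 : F) = 0
  · obtain ⟨a⟩ := pq_stdO h2 (sim_stdO hB h2 hm)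
    obtain ⟨b⟩ := pgo_odd2 h2 m
    exact ⟨h.cent_trans hB hR ⟨a.trans b.symm⟩, (sim_stdO hB h2 hm).trans (sim_stdO hB' h2 hm).symm⟩
  · exact ⟨h.cent_trans hB hR (pq_PGO h2 (sim_odd hB h2 hm)),
      (sim_odd hB h2 hm).trans (sim_odd hB' h2 hm).symm⟩

theorem even_odd (h2 : (2 : F) ≠ 0) {m : ℕ} (hm : 2 ≤ m) (hn : n = 2 * m) :
    ∃ (γ₁ γ₂ γ₃ : A) (a b : F), (∀ z₁ z₂ : F, z₁ ^ 2 + a * z₁ * z₂ + b * z₂ ^ 2 = 0 → z₁ = 0 ∧ z₂ = 0) ∧
      P γ₁ ∧ P γ₂ ∧ P γ₃ ∧ ¬ IsConjUnder G γ₁ γ₂ ∧ ¬ IsConjUnder G γ₁ γ₃ ∧ ¬ IsConjUnder G γ₂ γ₃ ∧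
      (∀ γ, P γ → IsConjUnder G γ₁ γ ∨ IsConjUnder G γ₂ γ ∨ IsConjUnder G γ₃ γ) ∧
      Nonempty (↥(G ⊓ centralizer {γ₁}) ≃* PGSp m F) ∧
      Nonempty (↥(G ⊓ centralizer {γ₂}) ≃* PGO F (quadFormPlus m F)) ∧
      Nonempty (↥(G ⊓ centralizer {γ₃}) ≃* PGO F (quadFormMinus (m - 1) F a b)) := by
  obtain ⟨k, rfl⟩ : ∃ k, m = k + 1 := ⟨m - 1, by omega⟩
  obtain ⟨a, b, hab⟩ := exists_aniso F
  have := qMinus_nondeg (m := k) (disc_ne_zero_of_aniso hab)
  obtain ⟨p1, p2⟩ := rb_PB (qPlus (k + 1) F)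
  obtain ⟨m1, m2⟩ := rb_PB (qMinus k F a b)
  obtain ⟨γ₁, B₁, a1, b1, c1, d1⟩ := h.ex_sim (rb_sp (k + 1)) (by simp; omega)
  obtain ⟨γ₂, B₂, a2, b2, c2, d2⟩ := h.ex_sim p1 (by simp; omega)
  obtain ⟨γ₃, B₃, a3, b3, c3, d3⟩ := h.ex_sim m1 (by simp; omega)
  have hf : finrank F (Fin n → F) = 2 * (k + 1) := by simpa using hn
  refine ⟨γ₁, γ₂, γ₃, a, b, hab, a1, a2, a3, ?_, ?_, ?_, fun γ hγ => ?_,
    h.cent_trans b1 c1 (pq_PGSp d1), h.cent_trans b2 c2 (pq_PGO h2 d2),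
    h.cent_trans b3 c3 (pq_PGO h2 d3)⟩
  · rw [h.conj b1 b2 c1 c2]
    exact fun e => p1.nd.not_alt p2 h2 ((d1.symm.trans (e.trans d2)).isAlt spB_alt)
  · rw [h.conj b1 b3 c1 c3]
    exact fun e => m1.nd.not_alt m2 h2 ((d1.symm.trans (e.trans d3)).isAlt spB_alt)
  · rw [h.conj b2 b3 c2 c3]
    exact fun e => not_sim_pm h2 k hab (d3.symm.trans (e.symm.trans d2))
  · obtain ⟨B, hB, hR⟩ := h.ex γ hγ
    rw [h.conj b1 hB c1 hR, h.conj b2 hB c2 hR, h.conj b3 hB c3 hR]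
    rcases hB.sy_or_alt h2 with hs | hA
    · by_cases ht : (ofQuad (TQ B)).HasTS (k + 1)
      · exact Or.inr (Or.inl (d2.trans (sim_plus hB.nd hs h2 hf ht).symm))
      · exact Or.inr (Or.inr (d3.trans (sim_minus hB.nd hs h2 hf ht hab).symm))
    · exact Or.inl (d1.trans (hB.sim_sp hA hf).symm)

theorem even_even (h2 : (2 : F) = 0) {m : ℕ} (hm : 2 ≤ m) (hn : n = 2 * m) :
    ∃ (γ₁ γ₃ : A) (t : symplecticGroup (Fin m) F),
      IsTransvection (t : Matrix (Fin m ⊕ Fin m) (Fin m ⊕ Fin m) F) ∧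
      P γ₁ ∧ P γ₃ ∧ ¬ IsConjUnder G γ₁ γ₃ ∧ (∀ γ, P γ → IsConjUnder G γ₁ γ ∨ IsConjUnder G γ₃ γ) ∧
      Nonempty (↥(G ⊓ centralizer {γ₁}) ≃* symplecticGroup (Fin m) F) ∧
      Nonempty (↥(G ⊓ centralizer {γ₃}) ≃*
        centralizer ({t} : Set (symplecticGroup (Fin m) F))) := by
  have : NeZero m := ⟨by omega⟩
  obtain ⟨w, hw⟩ := exists_ne (0 : Fin m ⊕ Fin m → F)
  obtain ⟨p1, p2⟩ := rb_stdE h2 hw
  obtain ⟨γ₁, B₁, a1, b1, c1, d1⟩ := h.ex_sim (rb_sp m) (by simp; omega)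
  obtain ⟨γ₃, B₃, a3, b3, c3, d3⟩ := h.ex_sim p1 (by simp; omega)
  have hf : finrank F (Fin n → F) = 2 * m := by simpa using hn
  refine ⟨γ₁, γ₃, spTv w 1, ?_, a1, a3, ?_, fun γ hγ => ?_, h.cent_trans b1 c1 (pq_sp2 h2 d1),
    h.cent_trans b3 c3 (pq_stdE h2 hw d3)⟩
  · have e : ((spTv w (1 : F) : symplecticGroup (Fin m) F) : Matrix _ _ F) - 1 =
        vecMulVec w (J (Fin m) F *ᵥ w) := by simp [spTv]
    have h0 : w ⬝ᵥ J (Fin m) F *ᵥ w = 0 := (spB_apply w w).symm.trans (spB_alt.self_eq_zero w)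
    rw [IsTransvection, e, vecMulVec_mul_vecMulVec, dotProduct_comm, h0]
    refine ⟨le_antisymm (rank_vecMulVec_le _ _) (Nat.one_le_iff_ne_zero.2 fun hr => ?_), by simp⟩
    have h3 : J (Fin m) F *ᵥ w ≠ 0 := fun h => hw ((rb_sp m).nondeg.2 _ fun x => by
      rw [spB_apply, h, dotProduct_zero])
    rw [Matrix.rank, Submodule.finrank_eq_zero, LinearMap.range_eq_bot] at hr
    obtain ⟨i, hi⟩ := Function.ne_iff.1 h3
    have := LinearMap.congr_fun hr (Pi.single i 1)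
    simp only [mulVecLin_apply, vecMulVec_mulVec, dotProduct_single, mul_one, LinearMap.zero_apply] at this
    exact hw (by simpa [show (J (Fin m) F *ᵥ w) i ≠ 0 from hi] using this)
  · rw [h.conj b1 b3 c1 c3]
    exact fun e => p2 ((d1.symm.trans (e.trans d3)).isAlt spB_alt)
  · obtain ⟨B, hB, hR⟩ := h.ex γ hγ
    rw [h.conj b1 hB c1 hR, h.conj b3 hB c3 hR]
    by_cases hA : B.IsAlt
    · exact Or.inl (d1.trans (hB.sim_sp hA hf).symm)
    · exact Or.inr (d3.trans (sim_stdE hB h2 hf hA hw).symm)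

variable [IsCyclic C] [Finite C]

theorem split_main (hn : 3 ≤ n) {γ : A} (hγ : P γ) :
    ((Even n ∧ (2 : F) ≠ 0 ∧ Nonempty (↥(G ⊓ centralizer {γ}) ≃* PGSp (n / 2) F)) →
      splitClassCount G I γ = Nat.gcd (n / 2) (Nat.card C)) ∧
    ((Even n ∧ (2 : F) ≠ 0 ∧ ¬ Nonempty (↥(G ⊓ centralizer {γ}) ≃* PGSp (n / 2) F)) →
      splitClassCount G I γ = Nat.gcd n (Nat.card C) / 2) ∧
    (¬ (Even n ∧ (2 : F) ≠ 0) → splitClassCount G I γ = Nat.gcd n (Nat.card C)) := by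
  obtain ⟨B, hB, hR⟩ := h.ex γ hγ
  have : NeZero n := ⟨by omega⟩
  refine ⟨?_, ?_, fun H => ?_⟩
  · rintro ⟨⟨m, hm⟩, h2, ⟨a⟩⟩
    obtain ⟨k, rfl⟩ : ∃ k, m = k + 1 := ⟨m - 1, by omega⟩
    have hm' : n = 2 * (k + 1) := by omega
    have e : n / 2 = k + 1 := by omega
    rw [e] at a ⊢
    have hf : finrank F (Fin n → F) = 2 * (k + 1) := by simpa using hm'
    have hA : B.IsAlt := (hB.sy_or_alt h2).resolve_left fun hs => by
      obtain ⟨b⟩ := h.cent hB hR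
      exact not_pq_PGSp hB.nd hs h2 (by simpa using hm') ⟨b.symm.trans a⟩
    rw [h.split hB hR (powMonoidHom (k + 1) : C →* C).range ?_ ?_, IsCyclic.index_powMonoidHom_range,
      Nat.gcd_comm (Nat.card C), ← Nat.gcd_assoc, hm', Nat.gcd_mul_left_left]
    · rintro g c x ⟨hc, hg⟩ hx
      rw [det_sim_alt hB hA hf hc hg] at hx
      exact mem_sup_right (h.d2 _ _ _ hm' hx)
    · rintro _ ⟨y, rfl⟩
      obtain ⟨c, hc, hy⟩ := h.d2' _ y hm'
      obtain ⟨g, h1, h3⟩ := exists_sim_alt hB hA hf hc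
      exact ⟨g, c, ⟨hc, h1⟩, h3 ▸ hy⟩
  · rintro ⟨⟨m, hm⟩, h2, a⟩
    have hm' : n = 2 * m := by omega
    have e : n / 2 = m := by omega
    have hf : finrank F (Fin n → F) = 2 * m := by simpa using hm'
    have hs : Sy B := (hB.sy_or_alt h2).resolve_right fun hA =>
      a (e ▸ h.cent_trans hB hR (pq_PGSp (hB.sim_sp hA hf)))
    obtain ⟨z, hz1, hz, hD⟩ := h.d3 h2
    have hzz : z ^ 2 = 1 := (hz z).2 (Or.inr rfl)
    have key : ∀ (g : (Fin n → F) ≃ₗ[F] (Fin n → F)) c, IsS B g c →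
        LinearMap.det g.toLinearMap = c ^ m ∨ LinearMap.det g.toLinearMap = -c ^ m := fun g c hg =>
      sq_eq_sq_iff_eq_or_eq_neg.1 (by rw [det_sim_sq hB.nondeg hg.2, hf]; ring)
    have hi : (((powMonoidHom n : C →* C).range).comap (powMonoidHom 2)).index =
        Nat.gcd n (Nat.card C) / 2 := by
      have h1 : (powMonoidHom n : C →* C).range ≤ (powMonoidHom 2 : C →* C).range := by
        rintro _ ⟨y, rfl⟩; exact ⟨y ^ m, by simp [hm', ← pow_mul, mul_comm]⟩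
      have h3 := relIndex_mul_index h1
      have h4 : 2 ∣ Nat.card C := (orderOf_eq_prime hzz hz1) ▸ orderOf_dvd_natCard z
      rw [IsCyclic.index_powMonoidHom_range, IsCyclic.index_powMonoidHom_range,
        Nat.gcd_eq_right h4] at h3
      rw [index_comap, Nat.gcd_comm, ← h3, Nat.mul_div_cancel _ two_pos]
    rw [h.split hB hR (((powMonoidHom n : C →* C).range).comap (powMonoidHom 2)) ?_ ?_, hi]
    · exact Nat.gcd_eq_right ((Nat.div_dvd_of_dvd (by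
        rw [hm']
        exact Nat.dvd_gcd (by simp) ((orderOf_eq_prime hzz hz1) ▸ orderOf_dvd_natCard z))).trans
        (Nat.gcd_dvd_left _ _))
    · rintro g c x hg hx
      refine mem_sup_right ?_
      rcases key g c hg with e | e <;> rw [e] at hx
      · obtain ⟨y, rfl⟩ := h.d2 _ _ _ hm' hx
        exact ⟨y, by simp [hm', ← pow_mul, mul_comm]⟩
      · have := hD _ _ _ hx
        rw [neg_neg] at this
        obtain ⟨y, hy⟩ := h.d2 _ _ _ hm' this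
        refine ⟨y, ?_⟩
        rw [powMonoidHom_apply, powMonoidHom_apply, hm', mul_comm, pow_mul, hy, mul_pow, hzz, one_mul]
    · rintro s ⟨y, hy⟩
      obtain ⟨c, hc, hy'⟩ := h.d2' _ y hm'
      obtain ⟨g, hg⟩ := exists_sim_sy hB.nd hs h2 hf hc
      obtain ⟨r, hr, hr'⟩ := exists_refl hB.nd hs h2
      have both : ∀ d, d = c ^ m ∨ d = -c ^ m → ∃ g, IsS B g c ∧ LinearMap.det g.toLinearMap = d := by
        intro d hd
        by_cases e : LinearMap.det g.toLinearMap = d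
        · exact ⟨g, ⟨hc, hg⟩, e⟩
        · refine ⟨r ≪≫ₗ g, ⟨hc, fun u v => by simp [hg, hr]⟩, ?_⟩
          rw [LinearEquiv.coe_trans, LinearMap.det_comp, hr']
          rcases key g c ⟨hc, hg⟩ with e1 | e1 <;> rcases hd with e2 | e2 <;> simp_all
      have h3 : (s * (y ^ m)⁻¹) ^ 2 = 1 := by
        rw [mul_pow, inv_pow, ← pow_mul, mul_comm m, ← hm']
        exact mul_inv_eq_one.2 hy.symm
      rcases (hz _).1 h3 with e | e
      · obtain ⟨g, h1, h4⟩ := both _ (Or.inl rfl)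
        exact ⟨g, c, h1, by rw [h4, mul_inv_eq_one.1 e]; exact hy'⟩
      · obtain ⟨g, h1, h4⟩ := both _ (Or.inr rfl)
        exact ⟨g, c, h1, by rw [h4, mul_inv_eq_iff_eq_mul.1 e]; exact hD _ _ _ hy'⟩
  · rw [h.split hB hR ⊥ ?_ ?_, index_bot]
    · rintro g c x ⟨hc, hg⟩ hx
      obtain ⟨t, h1, h3⟩ : ∃ t, t ^ 2 = c ∧ t ^ finrank F (Fin n → F) = LinearMap.det g.toLinearMap := by
        by_cases h2 : (2 : F) = 0
        · exact exists_root_even hB.nondeg h2 hg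
        · exact exists_root_odd hB.nondeg (by simpa [h2] using H) hc hg
      exact mem_sup_left (h.d1 t c _ x h1 (by simpa using h3) hx)
    · rintro _ rfl
      exact ⟨LinearEquiv.refl _ _, 1, ⟨one_ne_zero, by simp⟩, by simpa using h.d1'⟩

omit [IsCyclic C] [Finite C] in
theorem dot (h2 : (2 : F) ≠ 0) {m : ℕ} (hm : 2 ≤ m) (hn : n = 2 * m) {γ : A}
    (hR : R γ (dotProductBilin F F)) :
    (Fintype.card F ^ m % 4 = 1 → Nonempty (↥(G ⊓ centralizer {γ}) ≃* PGO F (quadFormPlus m F))) ∧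
    (Fintype.card F ^ m % 4 ≠ 1 → ∃ a b : F,
      (∀ z₁ z₂ : F, z₁ ^ 2 + a * z₁ * z₂ + b * z₂ ^ 2 = 0 → z₁ = 0 ∧ z₂ = 0) ∧
      Nonempty (↥(G ⊓ centralizer {γ}) ≃* PGO F (quadFormMinus (m - 1) F a b))) := by
  obtain ⟨k, rfl⟩ : ∃ k, m = k + 1 := ⟨m - 1, by omega⟩
  have hs : Sy (dotProductBilin F F : LinearMap.BilinForm F (Fin n → F)) := fun x y =>
    dotProduct_comm y x
  have hB : RB (dotProductBilin F F : LinearMap.BilinForm F (Fin n → F)) :=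
    ⟨fun x hx => dotProduct_eq_zero _ hx, Or.inl hs⟩
  have hf : finrank F (Fin n → F) = 2 * (k + 1) := by simpa using hn
  have := nondeg_TQ hB.nd hs h2
  have ht := (isQuad_ofQuad (TQ (dotProductBilin F F : LinearMap.BilinForm F (Fin n → F)))).hasTS_iff_of_basis
    h2 hf (Pi.basisFun F (Fin n)) (fun i j hij => by
      refine (PB_TQ hs _ _).trans ?_
      simp [hij.symm]) (fun i => by simp)
  simp only [ofQuad_Q, LinearMap.BilinMap.toQuadraticMap_apply, Pi.basisFun_apply, dotProductBilin_apply_apply,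
    dotProduct_single, Pi.single_eq_same, mul_one, Finset.prod_const_one, chi_one] at ht
  have hc := chi_neg_one_pow h2 (k + 1)
  rw [Nat.card_eq_fintype_card] at hc
  refine ⟨fun e => h.cent_trans hB hR (pq_PGO h2 (sim_plus hB.nd hs h2 hf (ht.2 ?_))), fun e => ?_⟩
  · rcases hc with hc | hc
    · exact hc.1.symm
    · omega
  · obtain ⟨a, b, hab⟩ := exists_aniso F
    refine ⟨a, b, hab, h.cent_trans hB hR (pq_PGO h2 (sim_minus hB.nd hs h2 hf (fun e' => ?_) hab))⟩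
    rcases hc with hc | hc
    · exact e hc.2
    · exact absurd ((ht.1 e').trans hc.1) (by decide)

end GS

section PSL
variable {F : Type*} [Field F] [Finite F] {n : ℕ}

omit [Finite F] in
theorem sform_one' (M : Matrix (Fin n) (Fin n) F) (u v : Fin n → F) :
    sform 1 M u v = Matrix.toBilin' M u v := by rw [toBilin'_apply']; rfl

omit [Finite F] in
theorem exists_neg {C : Type*} [CommGroup C] (f : C →* Fˣ) (hf : Function.Injective f) {z : C}
    (hz : f z = -1) (h2 : (2 : F) ≠ 0) : z ≠ 1 ∧ ∀ x, x ^ 2 = 1 ↔ x = 1 ∨ x = z := by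
  refine ⟨fun h => h2 ?_, fun x => ?_⟩
  · rw [h, map_one, Units.ext_iff] at hz
    simp only [Units.val_one, Units.val_neg] at hz
    linear_combination hz
  · rw [← hf.eq_iff, ← hf.eq_iff, ← hf.eq_iff, hz, map_pow, map_one]
    simp only [Units.ext_iff, Units.val_pow_eq_pow_val, Units.val_one, Units.val_neg]
    rw [sq, mul_self_eq_one_iff]

theorem gs_PSL (hn : 3 ≤ n) : GS F n (inndiagPSL n F) (Inn _)
    (fun γ => IsGraphAutClassPSL γ ∧ orderOf γ = 2)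
    (fun γ B => ∃ M : GL (Fin n) F, γ = corr 1 M ∧ B = Matrix.toBilin' M.1) Fˣ
    (fun c d x => c ≠ 0 ∧ (x : F) = d) := by
  have h3 : 3 ≤ Fintype.card (Fin n) := by simpa using hn
  have : NeZero n := ⟨by omega⟩
  have star : ∀ M : GL (Fin n) F, (glStar 1 M).1 = M.1ᵀ := fun M => rfl
  rw [inndiagPSL_eq]
  refine ⟨?_, fun B hB => ?_, ?_, ?_, ?_, ?_, ⟨one_ne_zero, rfl⟩, ?_, ?_, fun h2 => ?_⟩
  · rintro γ ⟨h1, h2⟩
    obtain ⟨-, M, rfl⟩ := graphClass_PSL_iff.1 h1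
    obtain ⟨-, c, hc⟩ := (orderOf_corr h3).1 h2
    have hc' : M.1ᵀ = (c : F) • M.1 := by
      rw [← star, hc, Units.val_mul, glScal_val, smul_mul_assoc, one_mul]
    have key : ∀ x y, Matrix.toBilin' M.1 y x = c * Matrix.toBilin' M.1 x y := fun x y => by
      rw [toBilin'_apply', toBilin'_apply', dotProduct_mulVec, dotProduct_comm, ← mulVec_transpose,
        hc', smul_mulVec, dotProduct_smul, smul_eq_mul]
    have nd : Nd (Matrix.toBilin' M.1) :=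
      (Matrix.nondegenerate_toBilin'_iff.2 (Matrix.nondegenerate_of_det_ne_zero M.det_ne_zero)).1
    refine ⟨_, ⟨nd, ?_⟩, M, rfl, rfl⟩
    obtain ⟨u, v, huv⟩ := nd.exists_ne'
    have h4 : (c : F) * c = 1 := mul_right_cancel₀ huv (by rw [mul_assoc, ← key, ← key, one_mul])
    exact (mul_self_eq_one_iff.1 h4).imp (fun e x y => by rw [key, e, one_mul])
      fun e x y => by rw [key, e, neg_one_mul]
  · have h0 : (LinearMap.BilinForm.toMatrix' B).det ≠ 0 :=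
      (Matrix.nondegenerate_iff_det_ne_zero).1 (Matrix.nondegenerate_toBilin'_iff.1 (by
        simpa using hB.nondeg))
    refine ⟨corr 1 (GeneralLinearGroup.mkOfDetNeZero _ h0),
      ⟨graphClass_PSL_iff.2 ⟨hn, _, rfl⟩, (orderOf_corr h3).2 ⟨mul_one _, ?_⟩⟩, _, rfl, by simp⟩
    rcases hB.sym with h | h
    · exact ⟨1, Units.ext (by rw [star]; ext i k; simp [h (Pi.single i 1)])⟩
    · exact ⟨-1, Units.ext (by rw [star]; ext i k; simp [h (Pi.single i 1), glScal_val])⟩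
  · rintro γ γ' B B' - - ⟨M, rfl, rfl⟩ ⟨N, rfl, rfl⟩
    rw [isConjUnder_corr_iff]
    simp only [sform_one']
    exact ⟨fun ⟨a, c, h⟩ => ⟨glEquiv a, c, h⟩, fun ⟨e, c, h⟩ => ⟨glEquiv.symm e, c, by
      simpa only [← glEquiv_apply, MulEquiv.apply_symm_apply] using h⟩⟩
  · rintro γ B - ⟨M, rfl, rfl⟩
    exact corr_cent (LinearEquiv.refl F _) _ (fun h hh => by simp only [sform_one']; exact hh)
      fun h c hc => ⟨h, ⟨c, by simp only [sform_one'] at hc; exact hc⟩, 1, by simp⟩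
  · rintro γ B - ⟨M, rfl, rfl⟩ K h1 h2
    have := split_pslD (ι := Fin n) (corr 1 M) K (fun g hg => ?_) fun s hs => ?_
    · rwa [Fintype.card_fin] at this
    · obtain ⟨c, hc⟩ := commute_corr_iff'.1 hg
      simp only [sform_one'] at hc
      obtain ⟨_, ⟨t, rfl⟩, s, hs, e⟩ := mem_sup.1 (h1 (glEquiv g) c (GeneralLinearGroup.det g)
        ⟨c.ne_zero, hc⟩ ⟨c.ne_zero, (det_glEquiv g).symm⟩)
      exact ⟨t, s, hs, by rw [← e, Fintype.card_fin]; rfl⟩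
    · obtain ⟨g, c, ⟨hc, hg⟩, -, e⟩ := h2 s hs
      refine ⟨glEquiv.symm g, commute_corr_iff'.2 ⟨Units.mk0 c hc, ?_⟩, Units.ext ?_⟩
      · simpa only [sform_one', ← glEquiv_apply, MulEquiv.apply_symm_apply, Units.val_mk0] using hg
      · rw [e, GeneralLinearGroup.val_det_apply, ← det_glEquiv, MulEquiv.apply_symm_apply]
  · rintro t _ _ x rfl rfl ⟨h1, h2⟩
    exact ⟨Units.mk0 t fun h => h1 (by simp [h]), Units.ext (by simp [h2])⟩
  · rintro m c x - ⟨h1, h2⟩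
    exact ⟨Units.mk0 c h1, Units.ext (by simp [h2])⟩
  · exact fun m y _ => ⟨y, y.ne_zero, y.ne_zero, by simp⟩
  · obtain ⟨h1, h4⟩ := exists_neg (MonoidHom.id Fˣ) Function.injective_id (z := -1) rfl h2
    exact ⟨-1, h1, h4, fun c d x ⟨e1, e2⟩ => ⟨e1, by simp [e2]⟩⟩

end PSL

end H03.GA
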