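import Mathlib
import Cfsg.Agent.H03.GA2

/-! Involutory graph automorphisms of `PSU`. -/

namespace H03.GA

open Module Matrix H10 H10.Form H09 Subgroup Cfsg H09.Gam

section gen
variable {F₀ F V₀ V V' : Type*} [Field F₀] [Field F] [AddCommGroup V₀] [Module F₀ V₀]
  [AddCommGroup V] [Module F V] [AddCommGroup V'] [Module F V'] {φ : Form F V} {j : F₀ →+* F}
  {e e' : V₀ →ₛₗ[j] V}

theorem desc_const {α : Type*} {X Y : α → α → F₀} {l : F} (h : ∀ u v, j (X u v) = l * j (Y u v))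
    (h0 : ∃ u v, Y u v ≠ 0) : ∃ c, j c = l ∧ ∀ u v, X u v = c * Y u v := by
  obtain ⟨u, v, h0⟩ := h0
  have h1 : j (X u v / Y u v) = l := by
    rw [map_div₀, h, mul_div_cancel_right₀ _ (by simpa using h0)]
  exact ⟨_, h1, fun u v => j.injective (by rw [h, map_mul, h1])⟩

theorem frame_eq_zero [φ.Nondeg] (h : Frame j e) {x : V} (hx : ∀ u, φ.B x (e u) = 0) : x = 0 :=
  φ.eq_zero_of_B_left (h.induction hx (fun u v h1 h2 => by simp [h1, h2]) fun a v h1 => by simp [h1])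

theorem frame_exists_ne [φ.Nondeg] [Nontrivial V₀] (h : Frame j e) : ∃ u v, φ.B (e u) (e v) ≠ 0 := by
  obtain ⟨x, hx⟩ := exists_ne (0 : V₀)
  by_contra! H
  exact hx (h.eq_zero (frame_eq_zero h (H x)))

theorem frame_map (h : Frame j e) (g : V ≃ₗ[F] V') : Frame j ((g : V →ₗ[F] V').comp e) := by
  refine ⟨eq_top_iff.2 fun v _ => ?_, h.rank.trans g.finrank_eq, h.fin⟩
  obtain ⟨v, rfl⟩ := g.surjective v
  exact h.induction (P := fun v => g v ∈ Submodule.span F (Set.range ((g : V →ₗ[F] V').comp e)))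
    (fun u => Submodule.subset_span ⟨u, rfl⟩) (fun _ _ h1 h2 => by rw [map_add]; exact add_mem h1 h2)
    (fun a _ h1 => by rw [map_smul]; exact Submodule.smul_mem _ a h1) v

theorem exists_gam' [Finite F] [φ.Nondeg] [Nontrivial V₀] (hH : φ.IsHerm) (h : Frame j e)
    (h' : Frame j e') {c : F} (hc : c ≠ 0) (hB : ∀ u v, φ.B (e' u) (e' v) = c * φ.B (e u) (e v)) :
    ∃ g : Gam φ, fld g = 1 ∧ mult g = c ∧ ∀ u, perm g (e u) = e' u := by
  obtain ⟨u, v, huv⟩ := frame_exists_ne (φ := φ) h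
  have h1 : φ.σ c = c := mul_right_cancel₀ huv (by
    rw [← hB, ← hH.σ_B (e' v), hB, map_mul, hH.σ_B])
  obtain ⟨g, h2, h3⟩ := h.exists_gam h' (hermT hH) hc h1 hB fun u => by rw [hH.Q_eq, hH.Q_eq, hB]
  refine ⟨g, h2, mul_right_cancel₀ huv ?_, h3⟩
  rw [← hB, ← h3, ← h3, B_perm, h2]; rfl

theorem frame_restrict (h : Frame j e) (h' : Frame j e') {k : Gam φ} (hk : fld k = 1)
    (H : ∀ u, ∃ w, e' w = perm k (e u)) : ∃ a : V₀ ≃ₗ[F₀] V₀, ∀ u, perm k (e u) = e' (a u) := by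
  obtain ⟨g, hg⟩ := h.exists_equiv h'
  obtain ⟨a, ha⟩ := h.exists_restrict (g := fun v => g.symm (perm k v))
    (fun u v => by rw [perm_add, map_add]) (fun a v => by rw [perm_smul, hk, map_smul]; rfl)
    (g.symm.injective.comp (perm k).injective) fun u => by
      obtain ⟨w, hw⟩ := H u
      exact ⟨w, by rw [← hw, ← hg, g.symm_apply_apply]⟩
  exact ⟨a, fun u => by rw [← hg, ← ha, g.apply_symm_apply]⟩

end gen

section PSU
variable {F F₀ : Type*} [Field F] [Finite F] [Field F₀] {q n : ℕ} (hF : Nat.card F = q ^ 2)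
  (hn : 3 ≤ n) {σ : RingAut F} (hσ : ∀ a, σ a = a ^ q) {j : F₀ →+* F} (hj : FixEmb σ j)

variable (σ j) in
/-- the form `B` over the fixed field describes the automorphism `γ` -/
def RU (γ : MulAut (PSU n F q)) (B : LinearMap.BilinForm F₀ (Fin n → F₀)) : Prop :=
  ∃ (g : Gam (stdU hF n)) (μ : F) (e : (Fin n → F₀) →ₛₗ[j] (Fin n → F)), γ = suAut hF hn g ∧
    fld g = σ ∧ g ^ 2 = 1 ∧ Frame j e ∧ (∀ v, perm g v = v ↔ ∃ u, e u = v) ∧ μ ≠ 0 ∧
    ∀ u v, (stdU hF n).B (e u) (e v) = μ * j (B u v)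

include hF hσ in
theorem orderOf_σ : orderOf σ = 2 :=
  orderOf_eq_prime (by rw [sq, (mul_self_of_pow hF hσ).2]) (mul_self_of_pow hF hσ).1

include hσ in
theorem stdU_σ (a : F) : (stdU hF n).σ a = σ a := ((stdU_isUnitary hF n).σ_eq a).trans (hσ a).symm

include hσ hj

theorem RU_of_frame {B : LinearMap.BilinForm F₀ (Fin n → F₀)} {μ c : F}
    {e : (Fin n → F₀) →ₛₗ[j] (Fin n → F)} (he : Frame j e) (hμ : μ ≠ 0) (hc : μ = c * σ μ)
    (hB : ∀ u v, (stdU hF n).B (e u) (e v) = μ * j (B u v)) :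
    ∃ γ, (IsGraphAutClassPSU γ ∧ orderOf γ = 2) ∧ RU hF hn σ j γ B := by
  have : NeZero n := ⟨by omega⟩
  have ho := orderOf_σ hF hσ
  let γ₀ := fieldHom (suStd hF n) σ
  let e' : (Fin n → F₀) →ₛₗ[j] (Fin n → F) :=
    { toFun := fun u => perm γ₀ (e u)
      map_add' := fun u v => by rw [map_add, perm_add]
      map_smul' := fun a u => by rw [LinearMap.map_smulₛₗ, perm_smul, fld_fieldHom, hj.map] }
  have he' : Frame j e' := by
    refine ⟨eq_top_iff.2 fun v _ => ?_, he.rank, he.fin⟩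
    obtain ⟨v, rfl⟩ := (perm γ₀).surjective v
    exact he.induction (P := fun v => perm γ₀ v ∈ Submodule.span F (Set.range e'))
      (fun u => Submodule.subset_span ⟨u, rfl⟩) (fun _ _ h1 h2 => by rw [perm_add]; exact add_mem h1 h2)
      (fun a _ h1 => by rw [perm_smul]; exact Submodule.smul_mem _ _ h1) v
  obtain ⟨k, h1, -, h2⟩ := exists_gam' (stdU_isUnitary hF n).herm he' he (c := c)
    (fun h => hμ (by rw [hc, h, zero_mul])) fun u v => by
      change _ = c * (stdU hF n).B (perm γ₀ _) (perm γ₀ _)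
      rw [B_perm, mult_fieldHom, fld_fieldHom, hB, map_mul, hj.map, one_mul, ← mul_assoc, ← hc]
  have h3 : fld (k * γ₀) = σ := by rw [map_mul, h1, one_mul]; rfl
  have h4 : ∀ u, perm (k * γ₀) (e u) = e u := fun u => h2 u
  have h5 : (k * γ₀) ^ 2 = 1 := eq_of_frame he (by rw [map_pow, h3, ← ho, pow_orderOf_eq_one]; rfl)
    fun u => by rw [sq, perm_mul, h4, h4]; rfl
  obtain ⟨e₁, he₁, f₁⟩ := Gam.exists_frame' h3 ho two_ne_zero hj h5 (Fin n) (by simp)
  obtain ⟨a, ha⟩ := frame_restrict (φ := stdU hF n) he he₁ (k := 1) rfl fun u => (f₁ _).1 (h4 u)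
  refine ⟨suAut hF hn (k * γ₀), ⟨⟨hn, suAut hF hn k, _, σ, by rw [ho]; exact even_two,
    (isInnerDiagonalAutPSU_iff hF hn).2 ⟨k, h1, rfl⟩, isFieldAutPSUOf_suAut hF hn σ, map_mul _ _ _⟩,
    orderOf_eq_prime (by rw [← map_pow, h5, map_one]) fun h => ?_⟩,
    _, μ, e, rfl, h3, h5, he, fun v => ⟨fun h => ?_, ?_⟩, hμ, hB⟩
  · obtain ⟨s, hs⟩ := (ker_suAut hF hn).le h
    exact (mul_self_of_pow hF hσ).1 (by rw [← h3, ← hs]; rfl)
  · obtain ⟨u, rfl⟩ := (f₁ v).1 h
    exact ⟨a.symm u, (ha _).trans (by rw [a.apply_symm_apply])⟩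
  · rintro ⟨u, rfl⟩; exact h4 u

theorem gs_PSU : GS F₀ n (inndiagPSU n F q) (Inn _)
    (fun γ => IsGraphAutClassPSU γ ∧ orderOf γ = 2) (RU hF hn σ j) (normOne F q)
    (fun c d x => ∃ τ : F, σ τ * τ * j c = 1 ∧ ((x : Fˣ) : F) = τ ^ n * j d) := by
  have : NeZero n := ⟨by omega⟩
  have ho := orderOf_σ hF hσ
  have hs := stdU_σ (n := n) hF hσ
  have hH := (stdU_isUnitary hF n).herm
  have hσσ : ∀ a, σ (σ a) = a := DFunLike.congr_fun (mul_self_of_pow hF hσ).2
  have mem : ∀ {a : F} (h : σ a * a = 1), ∃ y : normOne F q, ((y : Fˣ) : F) = a := fun {a} h =>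
    ⟨⟨Units.mk0 a (right_ne_zero_of_mul_eq_one h), (norm_eq_one_iff (n := n) hF).1 (by
      rw [hs]; exact h)⟩, rfl⟩
  have det : ∀ (k : Gam (stdU hF n)) {e : (Fin n → F₀) →ₛₗ[j] (Fin n → F)}, Frame j e → fld k = 1 →
      ∀ g₀ : (Fin n → F₀) →ₗ[F₀] (Fin n → F₀), (∀ u, perm k (e u) = e (g₀ u)) →
      (mat k).1.det = j (LinearMap.det g₀) := fun k e he h1 g₀ h2 => by
    rw [← LinearMap.det_toLin']
    exact he.det_eq fun u => by rw [toLin'_apply, ← perm_eq' h1, h2]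
  have res : ∀ {B B' : LinearMap.BilinForm F₀ (Fin n → F₀)} {μ μ' : F}
      {e e' : (Fin n → F₀) →ₛₗ[j] (Fin n → F)}, RB B → μ ≠ 0 → μ' ≠ 0 →
      (∀ u v, (stdU hF n).B (e u) (e v) = μ * j (B u v)) →
      (∀ u v, (stdU hF n).B (e' u) (e' v) = μ' * j (B' u v)) → ∀ {k : Gam (stdU hF n)}, fld k = 1 →
      ∀ {a : (Fin n → F₀) → (Fin n → F₀)}, (∀ u, perm k (e u) = e' (a u)) →
      ∃ c, c ≠ 0 ∧ j c = mult k * μ / μ' ∧ ∀ u v, B' (a u) (a v) = c * B u v := by
    intro B B' μ μ' e e' hB h0 h0' h1 h1' k hk a ha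
    obtain ⟨c, h2, h3⟩ := desc_const (j := j) (X := fun u v => B' (a u) (a v)) (Y := fun u v => B u v)
      (l := mult k * μ / μ') (fun u v => by
        have := B_perm k (e u) (e v)
        rw [ha, ha, h1, h1', hk] at this
        field_simp
        exact (mul_comm _ _).trans (this.trans (by simp; ring))) hB.nd.exists_ne'
    refine ⟨c, fun h => ?_, h2, h3⟩
    rw [h, map_zero] at h2
    exact div_ne_zero (mul_ne_zero (mult_ne_zero k) h0) h0' h2.symm
  refine ⟨?_, fun B hB => ?_, ?_, ?_, ?_, ?_, ⟨1, by simp, by simp⟩, ?_, ?_, fun h2 => ?_⟩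
  · rintro γ ⟨⟨-, δ, ψ, τ, h1, h2, h3, rfl⟩, h4⟩
    obtain ⟨k, hk, rfl⟩ := (isInnerDiagonalAutPSU_iff hF hn).1 h2
    obtain rfl := eq_suAut_fieldHom hF hn h3
    rw [← map_mul] at h4 ⊢
    have h5 : fld (k * fieldHom (suStd hF n) τ) = τ := by rw [map_mul, show fld k = 1 from hk, one_mul]; rfl
    have h6 : τ ≠ 1 := by rintro rfl; simp at h1
    obtain ⟨h7, b, hb, eb⟩ := exists_norm _ (ker_suAut hF hn) (h5.symm ▸ h6) Nat.prime_two
      (h4 ▸ pow_orderOf_eq_one _)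
    rw [h5] at h7
    obtain ⟨q', hq', hτ⟩ := exists_q_of_mul_self h6 (by rw [← sq, ← h7, pow_orderOf_eq_one])
    obtain rfl : q' = q := Nat.pow_left_injective two_ne_zero (hq'.symm.trans hF)
    obtain rfl : τ = σ := RingEquiv.ext fun a => (hτ a).trans (hσ a).symm
    have h8 := (fld_scal_mul b _).trans h5
    generalize scal b * (k * fieldHom (suStd hF n) τ) = g at hb eb h8
    subst h8
    obtain ⟨e, he, fe⟩ := Gam.exists_frame ho two_ne_zero hj hb (Fin n) (by simp)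
    obtain ⟨μ, h0, hμ⟩ := exists_mu ho two_ne_zero hb
    obtain ⟨B, hB⟩ := exists_desc_sesq j (RingHom.id F₀) (fun u v => μ⁻¹ * (stdU hF n).B (e u) (e v))
      (fun u v => exists_B_eq hj h0 hμ ((fe _).2 ⟨u, rfl⟩) ((fe _).2 ⟨v, rfl⟩))
      (by simp [mul_add]) (by simp [LinearMap.map_smulₛₗ, hs, hj.map, mul_left_comm])
      (by simp [mul_add]) (by simp [LinearMap.map_smulₛₗ, mul_left_comm])
    have hB' : ∀ u v, (stdU hF n).B (e u) (e v) = μ * j (B u v) := fun u v => by rw [hB]; field_simp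
    have nd : Nd B := fun x hx => he.eq_zero (frame_eq_zero (φ := stdU hF n) he fun u => by
      rw [hB', hx]; simp)
    obtain ⟨c, -, hc⟩ := desc_const (j := j) (X := fun u v => B v u) (Y := fun u v => B u v)
      (l := fld g μ / μ) (fun u v => by
        have := hH.σ_B (e u) (e v)
        rw [hB', hB', hs, map_mul, hj.map] at this
        field_simp
        linear_combination -this) nd.exists_ne'
    refine ⟨B, ⟨nd, ?_⟩, g, μ, e, eb.symm, rfl, hb, he, fe, h0, hB'⟩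
    obtain ⟨u, v, huv⟩ := nd.exists_ne'
    have h4 : c * c = 1 := mul_right_cancel₀ huv (by rw [mul_assoc, ← hc, ← hc, one_mul])
    exact (mul_self_eq_one_iff.1 h4).imp (fun e x y => by rw [hc, e, one_mul])
      fun e x y => by rw [hc, e, neg_one_mul]
  · obtain ⟨μ, c, h0, hc, h1⟩ : ∃ μ c : F, μ ≠ 0 ∧ μ = c * σ μ ∧ ∀ x y, σ μ * j (B y x) = μ * j (B x y) := by
      rcases hB.sym with h | h
      · exact ⟨1, 1, one_ne_zero, by simp, fun x y => by simp [h x y]⟩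
      · obtain ⟨θ, hθ⟩ : ∃ θ, σ θ ≠ θ := by
          by_contra! H
          exact (mul_self_of_pow hF hσ).1 (RingEquiv.ext H)
        exact ⟨σ θ - θ, -1, sub_ne_zero.2 hθ, by simp [hσσ], fun x y => by
          rw [h x y, map_sub, hσσ, map_neg]; ring⟩
    have h2 : (μ • (LinearMap.BilinForm.toMatrix' B).map j).det ≠ 0 := by
      rw [det_smul, ← RingHom.mapMatrix_apply, ← RingHom.map_det]
      exact mul_ne_zero (pow_ne_zero _ h0) ((map_ne_zero j).2
        ((Matrix.nondegenerate_iff_det_ne_zero).1 (Matrix.nondegenerate_toBilin'_iff.1 (by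
        simpa using hB.nondeg))))
    obtain ⟨a, ha⟩ := herm_decomp hF hσ (M := GeneralLinearGroup.mkOfDetNeZero _ h2) (Units.ext (by
      rw [glStar_val]; ext i k; simp [hj.map, h1]))
    refine RU_of_frame hF hn hσ hj (frame_map (frame_entry (Fin n) j) (glEquiv a)) h0 hc fun u v => ?_
    change (stdU hF n).B (a.1 *ᵥ entry _ j u) (a.1 *ᵥ entry _ j v) = _
    rw [stdU_B, ← sform_one hσ, sform_mulVec, mul_one, ← glStar_val, ← Units.val_mul, ← ha]
    change sform σ (μ • _) _ _ = _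
    rw [sform_smul, sform, ← entry_mulVec, ← Matrix.toBilin'_toMatrix' B, toBilin'_apply']
    simp [entry_apply, hj.map, dotProduct]
  · rintro γ γ' B B' hB hB' ⟨g, μ, e, rfl, h1, h2, he, fe, h0, h3⟩
      ⟨g', μ', e', rfl, h1', h2', he', fe', h0', h3'⟩
    rw [inndiagPSU_eq hF hn]
    constructor
    · rintro ⟨_, ⟨k, hk, rfl⟩, h⟩
      obtain ⟨s, hs⟩ := (ker_suAut hF hn).le (show suAut hF hn (k * g * k⁻¹ * g'⁻¹) = 1 by
        simp only [map_mul, map_inv, h]; group)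
      have h4 : k * g * k⁻¹ = scal s * g' := by rw [hs]; group
      have h5 : (scal s * g') ^ 2 = 1 := by rw [← h4, conj_pow, h2]; group
      rw [scal_mul_pow, h2', mul_one, ← map_one scal, h1'] at h5
      obtain ⟨b, hb, h6⟩ := exists_h90 ho two_ne_zero (c := s) (congrArg Units.val (scal_injective h5))
      have h7 : g' * (scal (Units.mk0 b hb)⁻¹ * k) = scal (Units.mk0 b hb)⁻¹ * k * g := by
        rw [mul_assoc, mul_inv_eq_iff_eq_mul.1 h4, ← mul_assoc g', mul_scal, ← mul_assoc, ← mul_assoc,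
          ← map_mul, h1']
        congr 3
        refine Units.ext ?_
        have : σ b ≠ 0 := by simpa using hb
        simp only [Units.val_mul, Units.val_inv_eq_inv_val, Units.val_mk0, map_inv, Units.coe_map,
          MonoidHom.coe_coe]
        field_simp
        exact h6.symm.trans (mul_comm _ _)
      have h8 : fld (scal (Units.mk0 b hb)⁻¹ * k) = 1 := hk
      obtain ⟨a, ha⟩ := frame_restrict he he' h8 fun u => (fe' _).1 (by
        rw [← perm_mul, h7, perm_mul, (fe _).2 ⟨u, rfl⟩])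
      obtain ⟨c, hc, -, h9⟩ := res hB h0 h0' h3 h3' h8 ha
      exact Sim.symm ⟨a, Units.mk0 c hc, h9⟩
    · rintro ⟨a, c, h⟩
      obtain ⟨k, h4, -, h5⟩ := exists_gam' hH (he.comp a) he' (c := μ' / (μ * j c))
        (by simp [h0, h0']) fun u v => by
          have : j c ≠ 0 := by simp
          change _ = _ * (stdU hF n).B (e (a u)) (e (a v))
          rw [h3, h3', h, map_mul]; field_simp
      refine ⟨_, ⟨k, h4, rfl⟩, ?_⟩
      rw [← conj_eq_of_frame he' (e := e.comp (a : _ →ₗ[F₀] _)) (h1.trans h1'.symm)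
        (fun u => (fe _).2 ⟨_, rfl⟩) (fun u => (fe' _).2 ⟨_, rfl⟩) h5, map_mul, map_mul, map_inv]
  · rintro γ B hB ⟨g, μ, e, rfl, rfl, h2, he, fe, h0, h3⟩
    rw [inndiagPSU_eq hF hn]
    refine he.cent _ (ker_suAut hF hn) ho h2 fe _ (fun _ h => h) (fun _ => rfl) _ ?_ fun k hk g₀ h => ?_
    · rintro g₀ ⟨c, hc⟩
      obtain ⟨k, h4, -, h5⟩ := exists_gam' hH he (he.comp (glEquiv g₀)) (c := j c) (by simp)
        fun u v => by
          change (stdU hF n).B (e (g₀.1 *ᵥ u)) (e (g₀.1 *ᵥ v)) = _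
          rw [h3, h3, show B (g₀.1 *ᵥ u) (g₀.1 *ᵥ v) = _ from hc u v, map_mul]; ring
      exact ⟨k, h4, h5⟩
    · obtain ⟨c, hc, -, h9⟩ := res hB h0 h0 h3 h3 hk h
      exact ⟨g₀, ⟨Units.mk0 c hc, h9⟩, 1, by simp⟩
  · rintro γ B hB ⟨g, μ, e, rfl, rfl, h2, he, fe, h0, h3⟩ K h4 h5
    refine split_suAut hF hn _ K (fun k hk => ?_) fun s hs' => ?_
    · obtain ⟨b, g₀, h⟩ := he.exists_of_commute _ (ker_suAut hF hn) ho h2 fe (fld_ofIsom k) hk
      obtain ⟨c, hc, h6, h9⟩ := res hB h0 h0 h3 h3 (k := scal b * ofIsom k) rfl h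
      have h7 := det (scal b * ofIsom k) he rfl (glEquiv g₀) h
      rw [mult_mul, mult_ofIsom, mult_scal, map_one, mul_one, mul_div_cancel_right₀ _ h0, hs] at h6
      rw [det_mat_mul, det_mat_scal, ← coe_uDet] at h7
      refine h4 (glEquiv g₀) c _ ⟨hc, h9⟩ ⟨(b : F)⁻¹, ?_, ?_⟩
      · have : fld g b ≠ 0 := by simp
        rw [h6, map_inv₀]; field_simp
      · rw [← h7]; simp [fld_scal]
    · obtain ⟨g₀, c, ⟨hc, h6⟩, τ, h7, h8⟩ := h5 s hs'
      obtain ⟨k, h9, h10, h11⟩ := exists_gam' hH he (he.comp g₀) (c := j c) (by simpa using hc)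
        fun u v => by
          change (stdU hF n).B (e (g₀ u)) (e (g₀ v)) = _
          rw [h3, h3, h6, map_mul]; ring
      have hτ : τ ≠ 0 := fun h => by simp [h] at h7
      obtain ⟨k', hk'⟩ := exists_ofIsom (γ := scal (Units.mk0 τ hτ) * k) h9 (by
        rw [mult_mul, mult_scal, h10, hs]; exact h7)
      refine ⟨k', ?_, Subtype.ext (Units.ext ?_)⟩
      · rw [hk', map_mul, suAut_scal, one_mul]
        exact (commute_of_frame he (fun u => (fe _).2 ⟨u, rfl⟩) fun u => ⟨_, h11 u⟩).map _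
      · rw [coe_uDet, hk', det_mat_mul, det_mat_scal, det k he h9 g₀ h11, h8]; simp [fld_scal]
  · rintro t _ _ x rfl rfl ⟨τ, h1, h2⟩
    obtain ⟨y, hy⟩ := mem (a := τ * j t) (by rw [map_mul, hj.map, ← h1, map_pow]; ring)
    exact ⟨y, Subtype.ext (Units.ext (by simp [hy, h2, mul_pow]))⟩
  · rintro m c x hm ⟨τ, h1, h2⟩
    obtain ⟨y, hy⟩ := mem (a := τ ^ 2 * j c) (by
      rw [map_mul, hj.map, map_pow]; linear_combination (σ τ * τ * j c + 1) * h1)
    exact ⟨y, Subtype.ext (Units.ext (by simp [hy, h2, mul_pow, hm, pow_mul]))⟩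
  · intro m y hm
    have h1 : σ y.1.1 * y.1.1 = 1 := by rw [← hs]; exact (norm_eq_one_iff (n := n) hF).2 y.2
    obtain ⟨b, hb, h2⟩ := exists_h90 ho two_ne_zero (c := y.1.1) (by rw [nrm_two, mul_comm, h1])
    have hb' : σ b ≠ 0 := by simpa using hb
    obtain ⟨c, hc⟩ := (hj (σ b * b)⁻¹).1 (by rw [map_inv₀, map_mul, hσσ, mul_comm])
    refine ⟨c, fun h => ?_, b, by rw [hc]; field_simp, ?_⟩
    · rw [h, map_zero] at hc
      exact inv_ne_zero (mul_ne_zero hb' hb) hc.symm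
    · have : y.1.1 = b ^ 2 * j c := by rw [hc]; field_simp; exact h2
      simp [this, hm, pow_mul, mul_pow]
  · obtain ⟨z, hz⟩ := mem (a := -1) (by simp)
    obtain ⟨h1, h4⟩ := exists_neg (normOne F q).subtype Subtype.val_injective (z := z)
      (Units.ext hz) fun h => h2 (j.injective (by rw [map_ofNat, map_zero, h]))
    exact ⟨z, h1, h4, fun c d x ⟨τ, e1, e2⟩ => ⟨τ, e1, by simp [e2, hz]⟩⟩

theorem RU_field {φ : MulAut (PSU n F q)} (h : IsFieldAutPSUOf σ φ) :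
    RU hF hn σ j φ (dotProductBilin F₀ F₀) := by
  refine ⟨_, 1, entry _ j, eq_suAut_fieldHom hF hn h, rfl, ?_, frame_entry _ j, fun v => ?_,
    one_ne_zero, fun u v => ?_⟩
  · rw [← map_pow, ← orderOf_σ hF hσ, pow_orderOf_eq_one, map_one]
  · rw [perm_fieldHom]
    refine ⟨fun h => ?_, ?_⟩
    · choose u hu using fun i => (hj _).1 (congrFun h i)
      exact ⟨u, funext hu⟩
    · rintro ⟨u, rfl⟩
      exact funext fun i => hj.map _
  · rw [stdU_B, ← sform_one hσ]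
    simp [sform, entry_apply, hj.map, dotProduct]

omit hσ hj in
include hF in
theorem exists_σ_j [Finite F₀] (h₀ : Nat.card F₀ = q) :
    ∃ (σ : RingAut F) (j : F₀ →+* F), (∀ a, σ a = a ^ q) ∧ FixEmb σ j := by
  let σ : RingAut F := RingEquiv.ofBijective (H10.conj hF) (stdU hF 0).σ_bijective
  obtain ⟨j, hj⟩ := exists_fixEmb σ F₀ (by rw [orderOf_σ hF (σ := σ) fun _ => rfl, h₀, hF])
  exact ⟨σ, j, fun _ => rfl, hj⟩

end PSU

end H03.GA
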