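import Mathlib
import Cfsg.Agent.H03.GA1
import Cfsg.Agent.H09.FieldOm5

/-! Involutory graph automorphisms of even-dimensional orthogonal groups in odd characteristic. -/

namespace H03.GA

open Module Matrix H10 H10.Form H09 Subgroup Cfsg H09.Gam Polynomial

theorem det_of_sq {F ι : Type*} [Field F] [Fintype ι] [DecidableEq ι] {A : Matrix ι ι F} {l : F}
    (hA : A * A = l • 1) {m : ℕ} (hm : Fintype.card ι = 2 * m)
    (h : ¬ IsSquare l ∨ (-A).charpoly = A.charpoly) : A.det = (-l) ^ m := by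
  have h1 : A.charpoly * (-A).charpoly = ((X ^ 2 - C l) ^ m) ^ 2 := by
    rw [Matrix.charpoly, Matrix.charpoly, ← det_mul, ← pow_mul, mul_comm m, ← hm, ← mul_one (_ ^ _),
      ← det_one (n := ι), ← det_smul]
    congr 1
    have e : (C : F →+* F[X]).mapMatrix A * (C : F →+* F[X]).mapMatrix A = C l • 1 := by
      rw [← map_mul, hA]; ext i k; by_cases h : i = k <;> simp [h]
    simp only [charmatrix, map_neg, sub_neg_eq_add, Matrix.scalar_apply, ← smul_one_eq_diagonal, sub_mul,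
      mul_add, smul_mul_assoc, mul_smul_comm, one_mul, mul_one, e]
    module
  have hM : (X ^ 2 - C l : F[X]).Monic := monic_X_pow_sub_C l two_ne_zero
  have h2 : A.charpoly = (X ^ 2 - C l) ^ m := by
    rcases h with h | h
    · have hi : Irreducible (X ^ 2 - C l : F[X]) :=
        (X_pow_sub_C_irreducible_iff_of_prime Nat.prime_two).2 fun b hb => h ⟨b, by rw [← hb, sq]⟩
      obtain ⟨k, -, hk⟩ := (dvd_prime_pow hi.prime (m * 2)).1 ⟨_, by rw [pow_mul, ← h1]⟩
      have e := eq_of_monic_of_associated A.charpoly_monic (hM.pow k) hk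
      have e' := congrArg natDegree e
      rw [charpoly_natDegree_eq_dim, hM.natDegree_pow, natDegree_X_pow_sub_C] at e'
      rw [e, show k = m by omega]
    · rw [h, ← sq] at h1
      refine eq_of_monic_of_associated A.charpoly_monic (hM.pow m) ?_
      rcases sq_eq_sq_iff_eq_or_eq_neg.1 h1 with e | e <;> rw [e]
      exact (Associated.refl _).neg_left
  rw [det_eq_sign_charpoly_coeff, h2, hm, coeff_zero_eq_eval_zero]
  simp

variable {F : Type*} [Field F] [Finite F] {ι : Type} [Fintype ι] [DecidableEq ι] [Nonempty ι]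
  {φ : Form F (ι → F)} [φ.Nondeg] (hQ : φ.IsQuad) (h2 : (2 : F) ≠ 0)
include hQ h2

omit [DecidableEq ι] in
theorem spinor_conj_neg (γ : Gam φ) {k : φ.Isom} (h : φ.dickson k = -1) :
    φ.spinor (conj γ k) = chm γ * φ.spinor k := by
  have hg := hQ.good_of_two_ne_zero h2
  obtain ⟨v, -, hv⟩ := φ.nondegOn_top.exists_Q_ne_zero hQ.exists_T top_ne_bot
  have e : k = φ.refl v * (φ.refl v * k) := by rw [← mul_assoc, hQ.refl_mul_self, one_mul]
  have hv' : φ.Q (perm γ v) ≠ 0 := by rwa [Ne, Q_perm_eq_zero]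
  have e' := spinor_conj' hQ hg γ (k := φ.refl v * k) (by
    rw [map_mul, hQ.dickson_refl hg hv, h]; simp)
  generalize φ.refl v * k = k' at e e'
  rw [e, map_mul, map_mul, map_mul, e', Gam.conj_refl hQ, hQ.spinor_refl hg hv',
    hQ.spinor_refl hg hv, Q_perm, chi_mul (mult_ne_zero _) (by simpa using hv), chi_ringAut,
    chm_apply, mul_assoc]

omit [Finite F] [Nonempty ι] hQ h2 [φ.Nondeg] in
/-- the linear map of a similarity -/
theorem perm_eq_lin {γ : Gam φ} (h : fld γ = 1) (v : ι → F) : perm γ v = glEquiv (mat γ) v :=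
  perm_eq' h v

omit [Finite F] [DecidableEq ι] [Nonempty ι] [Fintype ι] h2 in
/-- the bilinear form of a quadratic `Form` -/
theorem rb_toQuad : RB (PB hQ.toQuad) ∧ ∀ x y, PB hQ.toQuad x y = φ.B x y :=
  ⟨⟨fun x hx => φ.eq_zero_of_B_left fun y => (hQ.polar_toQuad x y).symm.trans (hx y),
    Or.inl fun _ _ => QuadraticMap.polar_comm _ _ _⟩, hQ.polar_toQuad⟩

variable {m : ℕ} (hm : Fintype.card ι = 2 * m)
include hm

omit [Finite F] in
theorem graph_facts {γ : Gam φ} (h1 : fld γ = 1) (hγ : γ ∉ GSO φ) {l : Fˣ} (hl : γ * γ = scal l) :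
    (mat γ).1.det = -(l : F) ^ m ∧ mult γ = l ∧ ∀ x y, φ.B (perm γ x) y = φ.B x (perm γ y) := by
  have h3 : (mat γ).1.det = -mult γ ^ m := by
    refine (sq_eq_sq_iff_eq_or_eq_neg.1 ?_).resolve_left fun h => hγ ((mem_GSO_iff h2 hm).2 ⟨h1, h⟩)
    rw [det_mat_sq hQ.σ_eq h1, hm]; ring
  have h4 : ∀ x, perm γ (perm γ x) = (l : F) • x := fun x => congrArg (perm · x) hl
  have h5 : ∀ x y, (l : F) * φ.B (perm γ x) y = mult γ * φ.B x (perm γ y) := fun x y => by
    rw [← B_smul_right, ← h4, B_perm, h1]; rfl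
  have h6 : mult γ * mult γ = l * l := by
    have := congrArg mult hl
    rwa [mult_mul, h1, mult_scal' hQ] at this
  have h7 : mult γ = l := by
    refine (mul_self_eq_mul_self_iff.1 h6).resolve_right fun h => ?_
    obtain ⟨hB, eB⟩ := rb_toQuad hQ
    let ω : LinearMap.BilinForm F (ι → F) :=
      (PB hQ.toQuad).compl₁₂ LinearMap.id (glEquiv (mat γ)).toLinearMap
    have eω : ∀ x y, ω x y = φ.B x (perm γ y) := fun x y => by rw [perm_eq_lin h1, ← eB]; rfl
    have hω : ∀ x y, ω y x = -ω x y := fun x y => mul_left_cancel₀ l.ne_zero (by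
      rw [eω, eω, hQ.B_comm, h5, h]; ring)
    have hR : RB ω := ⟨fun x hx => φ.eq_zero_of_B_left fun y => by
      obtain ⟨y, rfl⟩ := (perm γ).surjective y
      rw [← eω, hx], Or.inr hω⟩
    have hA : ω.IsAlt := fun x => by
      have := hω x x
      exact (mul_eq_zero.1 (show 2 * ω x x = 0 by linear_combination this)).resolve_left h2
    have := det_sim_alt hR hA (m := m) (by simpa using hm) (mult_ne_zero γ) (g := glEquiv (mat γ))
      fun u v => by rw [← perm_eq_lin h1, ← perm_eq_lin h1, eω, eω, B_perm, h1]; rfl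
    rw [det_glEquiv] at this
    exact hγ ((mem_GSO_iff h2 hm).2 ⟨h1, this⟩)
  exact ⟨by rw [h3, h7], h7, fun x y => mul_left_cancel₀ l.ne_zero (by rw [h5, h7])⟩

omit hm [DecidableEq ι] [Nonempty ι] [Finite F] h2 in
theorem commute_refl {γ : Gam φ} {v : ι → F} {c : F} (hc : c ≠ 0) (h : perm γ v = c • v) :
    conj γ (φ.refl v) = φ.refl v := by rw [Gam.conj_refl hQ, h, hQ.refl_smul hc]

omit hm [DecidableEq ι] [Nonempty ι] [Finite F] hQ h2 [φ.Nondeg] [Fintype ι] in
theorem commute_of_conj {γ : Gam φ} {k : φ.Isom} (h : conj γ k = k) : Commute (ofIsom k) γ := by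
  have := ofIsom_conj γ k
  rw [h] at this
  exact mul_inv_eq_iff_eq_mul.1 this.symm |>.symm

omit hm [DecidableEq ι] [Nonempty ι] in
theorem exists_so_of_sub {U : Submodule F (ι → F)} (hU : φ.NondegOn U) (h : 2 ≤ finrank F U) :
    ∃ v ∈ U, ∃ w ∈ U, φ.dickson (φ.refl v * φ.refl w) = 1 ∧ φ.spinor (φ.refl v * φ.refl w) = -1 := by
  have hg := hQ.good_of_two_ne_zero h2
  obtain ⟨c, hc0, hc⟩ := exists_chi_eq_neg_one h2
  obtain ⟨v, hv, ev⟩ := hQ.exists_Q_eq hU h 1
  obtain ⟨w, hw, ew⟩ := hQ.exists_Q_eq hU h c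
  have hv' : φ.Q v ≠ 0 := by simp [ev]
  have hw' : φ.Q w ≠ 0 := by simpa [ew]
  exact ⟨v, hv, w, hw, by simp [hQ.dickson_refl hg hv', hQ.dickson_refl hg hw'],
    by simp [hQ.spinor_refl hg hv', hQ.spinor_refl hg hw', ev, ew, hc]⟩

theorem keyB (h5 : 5 ≤ Fintype.card ι) {γ : Gam φ} (h1 : fld γ = 1) (hγ : γ ∉ GSO φ) {l : Fˣ}
    (hl : γ * γ = scal l) : ∃ k, φ.dickson k = 1 ∧ φ.spinor k = -1 ∧ Commute (ofIsom k) γ := by
  have hg := hQ.good_of_two_ne_zero h2
  obtain ⟨-, h3, h4⟩ := graph_facts hQ h2 hm h1 hγ hl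
  let L := (glEquiv (mat γ)).toLinearMap
  have hL : ∀ x, perm γ x = L x := perm_eq_lin h1
  have h6 : ∀ x, L (L x) = (l : F) • x := fun x => by
    rw [← hL, ← hL]; exact congrArg (perm · x) hl
  simp only [hL] at h4
  by_cases hs : IsSquare (l : F)
  · obtain ⟨t, ht⟩ := hs
    have key : ∀ t : F, (l : F) = t * t → 2 ≤ finrank F (LinearMap.ker (L - t • LinearMap.id)) →
        ∃ k, φ.dickson k = 1 ∧ φ.spinor k = -1 ∧ Commute (ofIsom k) γ := fun t ht h => by
      have ht0 : t ≠ 0 := fun h => l.ne_zero (by simp [ht, h])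
      have mem : ∀ {x}, x ∈ LinearMap.ker (L - t • LinearMap.id) ↔ L x = t • x := by simp [sub_eq_zero]
      obtain ⟨v, hv, w, hw, e1, e2⟩ := exists_so_of_sub hQ h2 (fun x hx H => φ.eq_zero_of_B_left
        fun y => by
          have := H (L y + t • y) (mem.2 (by simp [h6, ht, smul_smul, add_comm]))
          rw [map_add, ← h4, mem.1 hx, hQ.B_smul_left, B_smul_right, ← two_mul] at this
          simpa [h2, ht0] using this) h
      exact ⟨_, e1, e2, commute_of_conj (by
        rw [map_mul, commute_refl hQ ht0 ((hL _).trans (mem.1 hv)),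
          commute_refl hQ ht0 ((hL _).trans (mem.1 hw))])⟩
    have e1 := LinearMap.finrank_range_add_finrank_ker (L - (-t) • LinearMap.id)
    have e2 : finrank F (LinearMap.range (L - (-t) • LinearMap.id)) ≤
        finrank F (LinearMap.ker (L - t • LinearMap.id)) := Submodule.finrank_mono (by
      rintro _ ⟨x, rfl⟩; simp [h6, ht, smul_smul, add_comm])
    simp only [finrank_fintype_fun_eq_card] at e1
    by_cases h7 : 2 ≤ finrank F (LinearMap.ker (L - t • LinearMap.id))
    · exact key t ht h7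
    · exact key (-t) (by simp [ht]) (by omega)
  obtain ⟨u, hu, hu'⟩ : ∃ u, φ.B u (L u) = 0 ∧ φ.Q u ≠ 0 := by
    by_contra! H
    obtain ⟨hB, eB⟩ := rb_toQuad hQ
    let β : LinearMap.BilinForm F (ι → F) := (PB hQ.toQuad).compl₁₂ LinearMap.id L
    have eβ : ∀ x y, β x y = φ.B x (L y) := fun x y => eB _ _
    have hβ : Sy β := fun x y => by rw [eβ, eβ, ← h4, hQ.B_comm]
    have := nondeg_TQ (B := β) (fun x hx => φ.eq_zero_of_B_left fun y => by
      obtain ⟨y, rfl⟩ := (glEquiv (mat γ)).surjective y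
      exact (eβ _ _).symm.trans (hx y)) hβ h2
    have hq := isQuad_ofQuad (TQ β)
    obtain ⟨e, f, hyp⟩ := hq.exists_hyp_of_three_le (by simp; omega)
    let W := (ofQuad (TQ β)).perp (Submodule.span F {e, f})
    have H' : ∀ x, (ofQuad (TQ β)).Q x = 0 → φ.Q x = 0 := fun x hx => H x ((eβ _ _).symm.trans hx)
    have h7 : ∀ w ∈ W, φ.Q w = φ.B e f * β w w := fun w hw => by
      have a1 := H' _ ((hyp.Q_comb 1 (-β w w) hw).trans (by simp))
      have a2 := H' _ ((hyp.Q_comb (-1) (β w w) hw).trans (by simp))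
      simp only [hQ.Q_add, hQ.Q_smul, H' _ hyp.Qe, H' _ hyp.Qf, map_add, LinearMap.add_apply,
        hQ.B_smul_left, B_smul_right] at a1 a2
      exact mul_left_cancel₀ h2 (by linear_combination a1 + a2)
    have h8 : ∀ x ∈ W, x - (2 * φ.B e f) • L x ∈ φ.perp W := fun x hx => φ.mem_perp.2 fun y hy => by
      have := h7 _ (W.add_mem hy hx)
      simp only [hQ.Q_add, h7 _ hx, h7 _ hy, map_add, LinearMap.add_apply, hβ y x] at this
      rw [map_sub, B_smul_right, ← eβ]; linear_combination this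
    have h9 : finrank F W ≤ finrank F (φ.perp W) := LinearMap.finrank_le_finrank_of_injective
      (f := (LinearMap.id - (2 * φ.B e f) • L).restrict h8)
      ((injective_iff_map_eq_zero _).2 fun x hx => Subtype.ext (by
        have a1 : x.1 = (2 * φ.B e f) • L x := sub_eq_zero.1 (congrArg Subtype.val hx)
        have a2 : x.1 = ((2 * φ.B e f) ^ 2 * l) • x.1 := by
          conv_lhs => rw [a1, a1, map_smul, h6, smul_smul, smul_smul, ← sq]
        by_contra h0
        have a3 : (2 * φ.B e f) ^ 2 * l = 1 := (smul_left_injective F h0 (by simpa using a2)).symm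
        generalize 2 * φ.B e f = z at a3
        have a4 : z ≠ 0 := fun h => by simp [h] at a3
        exact hs ⟨z⁻¹, by field_simp; linear_combination a3⟩))
    have h10 := φ.finrank_perp W
    have h11 := hyp.finrank_perp
    simp only [finrank_fintype_fun_eq_card] at h10 h11
    change finrank F W + 2 = _ at h11
    omega
  have hQu : φ.Q (L u) = l * φ.Q u := by rw [← hL, Q_perm, h1, h3]; rfl
  have hu'' : φ.Q (L u) ≠ 0 := by simp [hQu, hu']
  refine ⟨φ.refl u * φ.refl (L u), by simp [hQ.dickson_refl hg hu', hQ.dickson_refl hg hu''], ?_,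
    commute_of_conj ?_⟩
  · rw [map_mul, hQ.spinor_refl hg hu', hQ.spinor_refl hg hu'', hQu, chi_mul l.ne_zero hu',
      chi_eq_neg_one_iff.2 hs]; simp
  · rw [map_mul, Gam.conj_refl hQ, Gam.conj_refl hQ, hL, hL, h6, hQ.refl_smul l.ne_zero,
      ← mul_inv_eq_iff_eq_mul, hQ.refl_conj, hQ.refl_of_orth (by rwa [hQ.B_comm])]

variable {G : Type*} [Group G] {ρ : G →* φ.Isom} (h : Rep φ ρ) (h5 : 5 ≤ Fintype.card ι)
include h5

omit hm in
theorem comm_mem_inn {c g : Gam φ} (hc : chm c = -1) (hc' : c ∈ GSO φ) (hg : g ∈ GSO φ) :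
    h.paut (quadT hQ) (c * g * c⁻¹ * g⁻¹) ∈ Inn (G ⧸ center G) := by
  have hg' := hQ.good_of_two_ne_zero h2
  have key : ∀ g ∈ GSO φ, chm g = 1 → h.paut (quadT hQ) (c * g * c⁻¹ * g⁻¹) ∈ Inn (G ⧸ center G) := by
    intro g hg h1
    obtain ⟨k, a, h3, rfl⟩ := exists_so hQ hg' hg (chi_eq_one_iff.1 h1)
    have : c * (ofIsom k * scal a) * c⁻¹ * (ofIsom k * scal a)⁻¹ = ofIsom (conj c k * k⁻¹) * scal 1 := by
      rw [map_mul, ofIsom_conj, map_one, mul_one, map_inv, mul_assoc c, mul_assoc (ofIsom k),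
        ← scal_comm (by rw [map_inv, hc'.1, inv_one])]
      group
    rw [this]
    exact (mem_inn_iff hQ h h5 (by simp [Gam.dickson_conj hQ hg', h3]) _).2
      (.inl (by simp [spinor_conj' hQ hg' c h3]))
  rcases Int.units_eq_one_or (chm g) with h1 | h1
  · exact key g hg h1
  · have := key (g * c⁻¹) (mul_mem hg (inv_mem hc')) (by simp [h1, hc])
    convert this using 2
    group

theorem keyA (hd : φ.disc = 1 ∨ Even m) {γ : Gam φ} (h1 : fld γ = 1) (hγ : γ ∉ GSO φ) {l : Fˣ}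
    (hl : γ * γ = scal l) {c : Gam φ} (hc : c ∈ GSO φ)
    (H : Commute (h.paut (quadT hQ) c) (h.paut (quadT hQ) γ)) : chm c = 1 := by
  have hg := hQ.good_of_two_ne_zero h2
  refine (Int.units_eq_one_or _).resolve_right fun h3 => ?_
  rcases hd with hd | hd
  · obtain ⟨v, -, hv⟩ := φ.nondegOn_top.exists_Q_ne_zero hQ.exists_T top_ne_bot
    have h4 := (inferInstance : (Inn (G ⧸ center G)).Normal).conj_mem _
      (comm_mem_inn hQ h2 h h5 h3 hc ((mem_GSO_or hQ hg h1 hv).resolve_left hγ)) (h.paut (quadT hQ) γ)⁻¹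
    have h6 : (h.paut (quadT hQ) γ)⁻¹ * h.paut (quadT hQ) (c * (γ * ofIsom (φ.refl v)) * c⁻¹ *
        (γ * ofIsom (φ.refl v))⁻¹) * (h.paut (quadT hQ) γ)⁻¹⁻¹ =
        h.paut (quadT hQ) (ofIsom (conj c (φ.refl v) * (φ.refl v)⁻¹) * scal 1) := by
      rw [map_one, mul_one, map_mul ofIsom, ofIsom_conj]
      simp only [map_mul, map_inv, ← mul_assoc, H.inv_right.eq.symm]
      group
    rw [h6] at h4
    have := (mem_inn_iff hQ h h5 (by simp [Gam.dickson_conj hQ hg]) _).1 h4
    simp [spinor_conj_neg hQ h2 c (hQ.dickson_refl hg hv), h3, hd] at this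
  · obtain ⟨h4, h6, -⟩ := graph_facts hQ h2 hm h1 hγ hl
    have hA : (mat γ).1 * (mat γ).1 = (l : F) • 1 := by
      have := congrArg (fun x => (mat x).1) hl
      simpa [mat_mul, h1, mat_scal, glScal_val] using this
    have no : ¬ (¬ IsSquare (l : F) ∨ (-(mat γ).1).charpoly = (mat γ).1.charpoly) := fun H' => by
      have := det_of_sq hA hm H'
      rw [h4, hd.neg_pow] at this
      exact pow_ne_zero m l.ne_zero ((mul_eq_zero.1 (show 2 * (l : F) ^ m = 0 by
        linear_combination -this)).resolve_left h2)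
    push Not at no
    obtain ⟨s, hs⟩ := (h.ker_paut (quadT hQ) (by simp; omega)).le
      (show h.paut (quadT hQ) (c * γ * c⁻¹ * γ⁻¹) = 1 by simp only [map_mul, map_inv, H.eq]; group)
    have h7 : c * γ * c⁻¹ = scal s * γ := by rw [hs]; group
    have h8 : s * s = 1 := by
      have : scal s * γ * (scal s * γ) = scal l := by
        rw [← h7, conj_mul, hl, scal_comm hc.1]; group
      rw [mul_assoc, ← mul_assoc γ, scal_comm h1, mul_assoc, hl, ← map_mul, ← map_mul] at this
      simpa [← mul_assoc] using scal_injective this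
    rcases mul_self_eq_one_iff.1 (congrArg Units.val h8) with e | e
    · obtain ⟨k, a, rfl⟩ := exists_so_of_sq hQ h1 (h6 ▸ no.1)
      have h9 : φ.dickson k = -1 := (Int.units_eq_one_or _).resolve_left fun h' =>
        hγ (mul_mem (ofIsom_mem_GSO hQ hg h') (scal_mem_GSO hQ a))
      have h10 : conj c k = k := ofIsom_injective (by
        rw [show s = 1 from Units.ext e, map_one, one_mul, mul_assoc c, mul_assoc (ofIsom k),
          ← scal_comm (by rw [map_inv, hc.1, inv_one]), ← mul_assoc, ← mul_assoc, mul_left_inj] at h7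
        rw [ofIsom_conj, h7])
      have := spinor_conj_neg hQ h2 c h9
      simp [h10, h3] at this
    · refine no.2 ?_
      have h9 := congrArg (fun x => (mat x).1) (mul_inv_eq_iff_eq_mul.1 h7)
      simp only [mat_mul, hc.1, h1, mat_scal, glScal_val, map_mul, fld_scal, e] at h9
      have h10 : -(mat γ).1 = (mat c).1 * (mat γ).1 * (mat c).1⁻¹ := by
        rw [← coe_units_inv, Units.eq_mul_inv_iff_mul_eq]
        simpa using h9.symm
      rw [h10, charpoly_units_conj]

theorem split_graph {γ : Gam φ} (h1 : fld γ = 1) (hγ : γ ∉ GSO φ)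
    (ho : h.paut (quadT hQ) γ ^ 2 = 1) :
    (splitClassCount ((GSO φ).map (h.paut (quadT hQ))) (Inn _) (h.paut (quadT hQ) γ) = 1 ∨
      splitClassCount ((GSO φ).map (h.paut (quadT hQ))) (Inn _) (h.paut (quadT hQ) γ) = 2) ∧
    (φ.disc = 1 ∨ Even m →
      splitClassCount ((GSO φ).map (h.paut (quadT hQ))) (Inn _) (h.paut (quadT hQ) γ) = 2) := by
  have hg := hQ.good_of_two_ne_zero h2
  obtain ⟨l, hl⟩ := (h.ker_paut (quadT hQ) (by simp; omega)).le
    (show h.paut (quadT hQ) (γ * γ) = 1 by rw [map_mul, ← sq, ho])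
  obtain ⟨k, k1, k2, k3⟩ := keyB hQ h2 hm h5 h1 hγ hl.symm
  have a1 : ∀ g ∈ GSO φ, chm g = 1 → ∃ c ∈ GSO φ, Commute (h.paut (quadT hQ) c) (h.paut (quadT hQ) γ) ∧
      h.paut (quadT hQ) (g * c⁻¹) ∈ Inn (G ⧸ center G) := fun g hg' h3 => by
    obtain ⟨k', a, h4, rfl⟩ := exists_so hQ hg hg' (chi_eq_one_iff.1 h3)
    rcases Int.units_eq_one_or (φ.spinor k') with h6 | h6
    · exact ⟨1, one_mem _, by simp, by simpa using (mem_inn_iff hQ h h5 h4 a).2 (.inl h6)⟩
    · refine ⟨ofIsom k, ofIsom_mem_GSO hQ hg k1, k3.map _, ?_⟩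
      rw [mul_assoc, ← map_inv, ← scal_comm (fld_ofIsom _), ← mul_assoc, ← map_mul]
      exact (mem_inn_iff hQ h h5 (by simp [h4, k1]) a).2 (.inl (by simp [h6, k2]))
  have a2 : (∀ c ∈ GSO φ, Commute (h.paut (quadT hQ) c) (h.paut (quadT hQ) γ) → chm c = 1) →
      splitClassCount ((GSO φ).map (h.paut (quadT hQ))) (Inn _) (h.paut (quadT hQ) γ) = 2 := fun H => by
    rw [split_eq_index' _ _ _ (inn_le_GSO hQ h h5) _ chm.ker fun g hg' => ⟨a1 g hg', ?_⟩,
      relIndex_chm hQ h2 ⟨m, by omega⟩]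
    rintro ⟨c, h3, h4, h6⟩
    simpa [H c h3 h4] using chm_of_inn hQ h h5 h6
  refine ⟨?_, fun hd => a2 fun c hc => keyA hQ h2 hm h h5 hd h1 hγ hl.symm hc⟩
  by_cases H : ∀ c ∈ GSO φ, Commute (h.paut (quadT hQ) c) (h.paut (quadT hQ) γ) → chm c = 1
  · exact .inr (a2 H)
  push Not at H
  obtain ⟨c, h3, h4, h6⟩ := H
  left
  rw [split_eq_index' _ _ _ (inn_le_GSO hQ h h5) _ ⊤ fun g hg' => iff_of_true trivial ?_,
    relIndex_top_left]
  rcases Int.units_eq_one_or (chm g) with h7 | h7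
  · exact a1 g hg' h7
  · obtain ⟨c', h8, h9, h10⟩ := a1 (g * c⁻¹) (mul_mem hg' (inv_mem h3))
      (by simp [h7, (Int.units_eq_one_or _).resolve_left h6])
    exact ⟨c' * c, mul_mem h8 h3, by rw [map_mul]; exact h9.mul_left h4,
      by rwa [_root_.mul_inv_rev, ← mul_assoc]⟩

theorem hasTS_of_fld {γ : Gam φ} (h1 : fld γ ≠ 1) (ho : h.paut (quadT hQ) γ ^ 2 = 1) : φ.HasTS m := by
  obtain ⟨h3, b, hb, -⟩ := exists_norm _ (h.ker_paut (quadT hQ) (by simp; omega)) h1 Nat.prime_two ho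
  have hj := fixEmb_subtype (fld γ)
  obtain ⟨Q₀, μ, e, d, -⟩ := exists_desc_quad' (fld_scal_mul b γ) h3 hj hb hQ
  have hn : finrank F (ι → F) = 2 * m := by simpa using hm
  obtain ⟨b', hb'⟩ := d.frame.exists_basis (Pi.basisFun _ _)
  have h4 : ∀ c, IsSquare ((fixF (fld γ)).subtype c) := fun c => by
    by_cases hc : c = 0
    · simp [hc]
    · exact chi_eq_one_iff.1 (by rw [chi_emb hj h3 hc]; simp)
  have h6 : φ.disc = 1 := (isSquare_det_gram_iff hQ h2 b' (by simp [hm])).1 (by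
    have : gram φ b' = μ • (fixF (fld γ)).subtype.mapMatrix (gram (ofQuad Q₀) (Pi.basisFun _ _)) := by
      ext i k; simp [H09.gram, hb', d.B]
    rw [this, det_smul, ← RingHom.map_det, Fintype.card_fin]
    exact (Even.isSquare_pow ⟨m, by omega⟩ _).mul (h4 _))
  rw [hQ.hasTS_iff_disc h2 hn, h6, chi_eq_one_iff.2 (by simpa using h4 (-1)), one_pow]

end H03.GA
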