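import Mathlib
import Cfsg.Agent.H03.GA4

/-! Centralizers of semisimple elements of odd order in conformal orthogonal groups cover the
outer diagonal automorphisms. -/

namespace H03.GA

open Module Matrix H10 H10.Form H09 Subgroup Cfsg H09.Gam Polynomial

section poly
variable {F : Type*} [Field F] [Finite F] (h2 : (2 : F) ≠ 0)
include h2

theorem solve_field {σ : F} (hσ : σ ^ 2 - 4 ≠ 0) (β : F) : ∃ x y, x ^ 2 + σ * x * y + y ^ 2 = β := by
  obtain ⟨x, y, h⟩ := exists_binary h2 one_ne_zero (neg_ne_zero.2 hσ) β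
  exact ⟨x - σ * y, 2 * y, by linear_combination h⟩

omit h2 in
theorem finite_adjoinRoot {f : F[X]} (hf : f ≠ 0) : Finite (AdjoinRoot f) :=
  have := (AdjoinRoot.powerBasis hf).finite
  Module.finite_of_finite F

theorem solve_irred {f : F[X]} (hf : Irreducible f) (h4 : ¬ f ∣ X ^ 2 - 4) (β : F[X]) :
    ∃ x y, f ∣ x ^ 2 + X * x * y + y ^ 2 - β := by
  have := Fact.mk hf
  have := finite_adjoinRoot hf.ne_zero
  obtain ⟨x, y, h⟩ := solve_field (F := AdjoinRoot f)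
    (by rwa [← map_ofNat (algebraMap F (AdjoinRoot f)) 2, _root_.map_ne_zero]) (σ := AdjoinRoot.mk f X)
    (fun h => h4 (AdjoinRoot.mk_eq_zero.1 (by rw [map_sub, map_pow, map_ofNat, h]))) (AdjoinRoot.mk f β)
  obtain ⟨x, rfl⟩ := AdjoinRoot.mk_surjective x
  obtain ⟨y, rfl⟩ := AdjoinRoot.mk_surjective y
  exact ⟨x, y, AdjoinRoot.mk_eq_mk.1 (by simpa using h)⟩

theorem solve_sqfree {k : F[X]} (hk : Squarefree k) (hc : IsCoprime k (X ^ 2 - 4)) (β : F[X]) :
    ∃ x y, k ∣ x ^ 2 + X * x * y + y ^ 2 - β := by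
  induction k using WfDvdMonoid.induction_on_irreducible with
  | zero => exact absurd hk not_squarefree_zero
  | unit u hu => exact ⟨0, 0, hu.dvd⟩
  | mul a f _ hf ih =>
    obtain ⟨h1, -, h3⟩ := squarefree_mul_iff.1 hk
    obtain ⟨x, y, h⟩ := ih h3 hc.of_mul_left_right
    obtain ⟨x', y', h'⟩ := solve_irred h2 hf (fun e => hf.not_isUnit
      (hc.of_mul_left_left.isUnit_of_dvd' dvd_rfl e)) β
    obtain ⟨u, v, e⟩ := h1.isCoprime
    refine ⟨x * (u * f) + x' * (v * a), y * (u * f) + y' * (v * a), h1.isCoprime.mul_dvd ?_ ?_⟩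
    · obtain ⟨z, hz⟩ := h'
      rw [show v * a = 1 - u * f by rw [← e]; ring]
      exact ⟨z + u * (2 * x' * (x - x') + X * (x' * (y - y') + y' * (x - x')) + 2 * y' * (y - y') +
        u * f * ((x - x') ^ 2 + X * (x - x') * (y - y') + (y - y') ^ 2)), by linear_combination hz⟩
    · obtain ⟨z, hz⟩ := h
      rw [show u * f = 1 - v * a by rw [← e]; ring]
      exact ⟨z + v * (2 * x * (x' - x) + X * (x * (y' - y) + y * (x' - x)) + 2 * y * (y' - y) +
        v * a * ((x' - x) ^ 2 + X * (x' - x) * (y' - y) + (y' - y) ^ 2)), by linear_combination hz⟩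

end poly

variable {F V : Type*} [Field F] [AddCommGroup V] [Module F V] {φ : Form F V}

/-- `g + g⁻¹` -/
def sE (g : φ.Isom) : End F V := (g.1 : V →ₗ[F] V) + (g.1.symm : V →ₗ[F] V)

/-- `g - g⁻¹` -/
def tE (g : φ.Isom) : End F V := (g.1 : V →ₗ[F] V) - (g.1.symm : V →ₗ[F] V)

variable {g : φ.Isom}

theorem sE_apply (x : V) : sE g x = g.1 x + g.1.symm x := rfl
theorem tE_apply (x : V) : tE g x = g.1 x - g.1.symm x := rfl

theorem tE_tE (x : V) : tE g (tE g x) = aeval (sE g) (X ^ 2 - 4 : F[X]) x := by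
  simp only [map_sub, sq, map_mul, aeval_X, map_ofNat, LinearMap.sub_apply, End.mul_apply, tE_apply,
    sE_apply, map_add, LinearEquiv.apply_symm_apply, LinearEquiv.symm_apply_apply, End.ofNat_apply]
  module

theorem aeval_comm {L : End F V} (h : ∀ x, L (g.1 x) = g.1 (L x)) (p : F[X]) (x : V) :
    L (aeval (sE g) p x) = aeval (sE g) p (L x) := by
  have h' : ∀ x, L (g.1.symm x) = g.1.symm (L x) := fun x => g.1.injective (by simp [← h])
  induction p using Polynomial.induction_on' generalizing x with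
  | add p q hp hq => simp [hp, hq]
  | monomial n a =>
    simp only [aeval_monomial, End.mul_apply, algebraMap_end_apply, map_smul]
    congr 1
    induction n with
    | zero => rfl
    | succ n ih => rw [pow_succ', End.mul_apply, End.mul_apply, ← ih]; simp [sE_apply, h, h']

theorem g_aeval (p : F[X]) (x : V) : g.1 (aeval (sE g) p x) = aeval (sE g) p (g.1 x) :=
  aeval_comm (L := (g.1 : V →ₗ[F] V)) (fun _ => rfl) p x

theorem gi_aeval (p : F[X]) (x : V) : g.1.symm (aeval (sE g) p x) = aeval (sE g) p (g.1.symm x) :=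
  aeval_comm (L := (g.1.symm : V →ₗ[F] V)) (fun _ => by simp) p x

theorem tE_aeval (p : F[X]) (x : V) : tE g (aeval (sE g) p x) = aeval (sE g) p (tE g x) :=
  aeval_comm (L := tE g) (fun _ => by simp [tE_apply]) p x

theorem aeval_aeval (p q : F[X]) (x : V) :
    aeval (sE g) p (aeval (sE g) q x) = aeval (sE g) (p * q) x := by rw [map_mul]; rfl

theorem aeval_mem {W : Submodule F V} (h : ∀ x ∈ W, sE g x ∈ W) (p : F[X]) {x : V} (hx : x ∈ W) :
    aeval (sE g) p x ∈ W := by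
  induction p using Polynomial.induction_on' with
  | add p q hp hq => simpa using W.add_mem hp hq
  | monomial n a =>
    simp only [aeval_monomial, End.mul_apply, algebraMap_end_apply]
    refine W.smul_mem _ ?_
    induction n with
    | zero => exact hx
    | succ n ih => rw [pow_succ', End.mul_apply]; exact h _ ih

theorem B_tE (x y : V) : φ.B (tE g x) y = -φ.B x (tE g y) := by
  simp [tE_apply, Isom.B_symm_left, Isom.B_symm_right]

/-- the operator `x + y g` -/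
noncomputable def bE (g : φ.Isom) (x y : F[X]) : End F V :=
  aeval (sE g) x + aeval (sE g) y * (g.1 : V →ₗ[F] V)

theorem bE_apply (x y : F[X]) (v : V) : bE g x y v = aeval (sE g) x v + aeval (sE g) y (g.1 v) := rfl

theorem bE_star (x y : F[X]) (v : V) : aeval (sE g) x (bE g x y v) + aeval (sE g) y (g.1.symm (bE g x y v)) =
    aeval (sE g) (x ^ 2 + X * x * y + y ^ 2) v := by
  have : aeval (sE g) (X * x * y) v = aeval (sE g) (x * y) (g.1 v) + aeval (sE g) (x * y) (g.1.symm v) := by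
    rw [← map_add, ← sE_apply, show X * x * y = x * y * X by ring, map_mul, aeval_X]; rfl
  simp only [bE_apply, map_add, gi_aeval, aeval_aeval, LinearEquiv.symm_apply_apply, LinearMap.add_apply,
    this, sq, mul_comm y x]
  abel

variable (hQ : φ.IsQuad)
include hQ

theorem B_aeval (p : F[X]) (x y : V) : φ.B (aeval (sE g) p x) y = φ.B x (aeval (sE g) p y) := by
  induction p using Polynomial.induction_on' with
  | add p q hp hq => simp [hp, hq]
  | monomial n a =>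
    simp only [aeval_monomial, End.mul_apply, algebraMap_end_apply, hQ.B_smul_left, B_smul_right]
    congr 1
    induction n generalizing y with
    | zero => rfl
    | succ n ih =>
      rw [pow_succ', End.mul_apply, ← pow_succ', pow_succ, End.mul_apply, ← ih]
      simp [sE_apply, Isom.B_symm_left, Isom.B_symm_right, add_comm]

theorem B_bE (x y : F[X]) (u v : V) : φ.B (bE g x y u) (bE g x y v) =
    φ.B u (aeval (sE g) (x ^ 2 + X * x * y + y ^ 2) v) := by
  rw [← bE_star, bE_apply x y u, map_add, LinearMap.add_apply, B_aeval hQ, B_aeval hQ, map_add,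
    ← gi_aeval, Isom.B_symm_right]

variable (h2 : (2 : F) ≠ 0)
include h2

theorem B_aeval_tE (p q : F[X]) (v : V) : φ.B (aeval (sE g) p v) (tE g (aeval (sE g) q v)) = 0 := by
  have e : φ.B (aeval (sE g) p v) (tE g (aeval (sE g) q v)) = φ.B v (tE g (aeval (sE g) (p * q) v)) := by
    rw [B_aeval hQ, ← tE_aeval, aeval_aeval]
  have e' : φ.B v (tE g (aeval (sE g) (p * q) v)) = -φ.B v (tE g (aeval (sE g) (p * q) v)) :=
    calc _ = φ.B (tE g v) (aeval (sE g) (p * q) v) := by rw [tE_aeval, ← B_aeval hQ, hQ.B_comm]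
      _ = _ := B_tE _ _
  rw [e]
  exact (mul_eq_zero.1 (by linear_combination e')).resolve_left h2

variable (g) in
omit hQ h2 in
/-- the cyclic module generated by `w` -/
def cyc (w : V) : Submodule F V where
  carrier := {x | ∃ p q : F[X], x = aeval (sE g) p w + tE g (aeval (sE g) q w)}
  zero_mem' := ⟨0, 0, by simp⟩
  add_mem' := by
    rintro _ _ ⟨p, q, rfl⟩ ⟨p', q', rfl⟩
    exact ⟨p + p', q + q', by simp only [map_add, LinearMap.add_apply]; abel⟩
  smul_mem' := by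
    rintro c _ ⟨p, q, rfl⟩
    exact ⟨c • p, c • q, by simp⟩

omit hQ h2 in
theorem cyc_aeval {w x : V} (hx : x ∈ cyc g w) (p : F[X]) : aeval (sE g) p x ∈ cyc g w := by
  obtain ⟨a, b, rfl⟩ := hx
  exact ⟨p * a, p * b, by rw [map_add, ← tE_aeval, aeval_aeval, aeval_aeval]⟩

omit hQ h2 in
theorem cyc_tE {w x : V} (hx : x ∈ cyc g w) : tE g x ∈ cyc g w := by
  obtain ⟨a, b, rfl⟩ := hx
  exact ⟨(X ^ 2 - 4) * b, a, by rw [map_add, tE_tE, aeval_aeval, add_comm]⟩

omit hQ h2 in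
theorem cyc_self (w : V) : w ∈ cyc g w := ⟨1, 0, by simp⟩

omit hQ h2 in
theorem cyc_le {v w : V} (h : v ∈ cyc g w) : cyc g v ≤ cyc g w := by
  rintro _ ⟨a, b, rfl⟩
  exact add_mem (cyc_aeval h a) (cyc_tE (cyc_aeval h b))

omit hQ in
theorem g_eq (x : V) : g.1 x = (2 : F)⁻¹ • (aeval (sE g) (X : F[X]) x + tE g x) ∧
    g.1.symm x = (2 : F)⁻¹ • (aeval (sE g) (X : F[X]) x - tE g x) := by
  rw [aeval_X, sE_apply, tE_apply, eq_inv_smul_iff₀ h2, eq_inv_smul_iff₀ h2]
  constructor <;> module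

omit hQ in
theorem cyc_g {w x : V} (hx : x ∈ cyc g w) : g.1 x ∈ cyc g w ∧ g.1.symm x ∈ cyc g w := by
  rw [(g_eq h2 x).1, (g_eq h2 x).2]
  exact ⟨Submodule.smul_mem _ _ (add_mem (cyc_aeval hx _) (cyc_tE hx)),
    Submodule.smul_mem _ _ (sub_mem (cyc_aeval hx _) (cyc_tE hx))⟩

theorem inverts {w : V} {ρ : φ.Isom} (h1 : ∀ p : F[X], ρ.1 (aeval (sE g) p w) = -aeval (sE g) p w)
    (h3 : ∀ y, (∀ p : F[X], φ.B (aeval (sE g) p w) y = 0) → ρ.1 y = y) {x : V} (hx : x ∈ cyc g w) :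
    ρ.1 x ∈ cyc g w ∧ ρ.1 (g.1 x) = g.1.symm (ρ.1 x) ∧ ρ.1 (g.1.symm x) = g.1 (ρ.1 x) := by
  have h4 : ∀ p : F[X], ρ.1 (tE g (aeval (sE g) p w)) = tE g (aeval (sE g) p w) := fun p =>
    h3 _ fun q => B_aeval_tE hQ h2 q p w
  obtain ⟨a, b, rfl⟩ := hx
  have h5 : ρ.1 (aeval (sE g) a w + tE g (aeval (sE g) b w)) =
      -aeval (sE g) a w + tE g (aeval (sE g) b w) := by rw [map_add, h1, h4]
  refine ⟨⟨-a, b, by simp [h5]⟩, ?_, ?_⟩
  all_goals
    simp only [h5, fun x => (g_eq (g := g) h2 x).1, fun x => (g_eq (g := g) h2 x).2]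
    simp only [map_smul, map_add, map_sub, map_neg, ← tE_aeval, aeval_aeval, tE_tE, h1, h4,
      LinearMap.sub_apply]
    module

variable [φ.Nondeg] [FiniteDimensional F V] [Finite F]

theorem exists_neg_on {E : Type*} [AddCommGroup E] [Module F E] {κ : Type*} [Fintype κ] [DecidableEq κ]
    (b : Basis κ F E) (L : E →ₗ[F] V) (h : ∀ x, (∀ y, φ.B (L x) (L y) = 0) → x = 0) :
    ∃ ρ : φ.Isom, (∀ x, ρ.1 (L x) = -L x) ∧ (∀ y, (∀ x, φ.B (L x) y = 0) → ρ.1 y = y) ∧
      LinearMap.det (ρ.1 : V →ₗ[F] V) = (-1) ^ Fintype.card κ ∧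
      chi (Matrix.of fun i j => φ.B (L (b i)) (L (b j))).det = chi (2 : F) ^ Fintype.card κ * φ.spinor ρ := by
  have hN : φ.NondegOn (LinearMap.range L) := by
    rintro _ ⟨x, rfl⟩ hx
    rw [h x fun y => hx _ ⟨y, rfl⟩, map_zero]
  have := hN.nondeg
  have hi : Function.Injective L := (injective_iff_map_eq_zero L).2 fun x hx => h x (by simp [hx])
  let b' := b.map (LinearEquiv.ofInjective L hi)
  have hq := hQ.restrict (LinearMap.range L)
  refine ⟨extHom hN ((φ.restrict _).scalar (-1)), fun x => ?_, fun y hy => extHom_right hN _ ?_, ?_, ?_⟩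
  · exact (extHom_left hN _ ⟨L x, x, rfl⟩).trans (congrArg Subtype.val (neg_one_apply _ _))
  · exact φ.mem_perp.2 (by rintro _ ⟨x, rfl⟩; exact hy x)
  · rw [det_extHom, det_of_scalar _ (c := (-1 : F)) fun x => by simp [neg_one_apply], finrank_eq_card_basis b']
  · rw [hQ.spinor_extHom (hQ.good_of_two_ne_zero h2) hN (hq.good_of_two_ne_zero h2)]
    exact chi_det_gram hq h2 b'

theorem exists_so_comm {f : F[X]} (hf : Irreducible f) (hm : f.Monic) (h4 : ¬ f ∣ X ^ 2 - 4) {v : V}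
    (hv : aeval (sE g) f v = 0) (hv' : φ.Q v ≠ 0) :
    ∃ k, φ.dickson k = 1 ∧ φ.spinor k = -1 ∧ Commute k g := by
  classical
  have := Fact.mk hf
  have := finite_adjoinRoot hf.ne_zero
  have := (AdjoinRoot.powerBasis hf.ne_zero).finite
  let ev : V → AdjoinRoot f →ₗ[F] V := fun w => LinearMap.applyₗ w ∘ₗ (aeval (sE g)).toLinearMap ∘ₗ
    AdjoinRoot.modByMonicHom hm
  have dvd : ∀ {w}, aeval (sE g) f w = 0 → ∀ {p q : F[X]}, f ∣ p - q →
      aeval (sE g) p w = aeval (sE g) q w := fun {w} hw p q ⟨z, hz⟩ => by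
    rw [← sub_eq_zero, ← LinearMap.sub_apply, ← map_sub, hz, mul_comm, ← aeval_aeval, hw, map_zero]
  have hev : ∀ {w}, aeval (sE g) f w = 0 → ∀ p, ev w (AdjoinRoot.mk f p) = aeval (sE g) p w :=
    fun hw p => dvd hw (p := p %ₘ f) (by rw [modByMonic_eq_sub_mul_div]; simp)
  obtain ⟨c, hc0, hc⟩ := exists_chi_eq_neg_one h2
  obtain ⟨β, hβ⟩ := FiniteField.norm_surjective F (AdjoinRoot f) c
  have hβ0 : β ≠ 0 := by rintro rfl; simp [hc0.symm] at hβ
  obtain ⟨β, rfl⟩ := AdjoinRoot.mk_surjective β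
  obtain ⟨x, y, hxy⟩ := solve_irred h2 hf h4 β
  have hw : aeval (sE g) f (bE g x y v) = 0 := by
    simp only [bE_apply, map_add, aeval_aeval, mul_comm f, ← g_aeval]
    simp [hv]
  have e1 : ∀ a a', φ.B (ev (bE g x y v) a) (ev (bE g x y v) a') =
      φ.B (ev v a) (ev v (AdjoinRoot.mk f β * a')) := fun a a' => by
    obtain ⟨a, rfl⟩ := AdjoinRoot.mk_surjective a
    obtain ⟨a', rfl⟩ := AdjoinRoot.mk_surjective a'
    rw [← map_mul, hev hw, hev hw, hev hv, hev hv, B_aeval hQ, B_aeval hQ, aeval_aeval,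
      ← B_aeval hQ, ← aeval_comm (L := bE g x y) fun z => by simp [bE_apply, g_aeval], B_bE hQ, dvd hv hxy,
      B_aeval hQ, aeval_aeval, aeval_aeval]
    congr 3; ring
  have n1 : ∀ a, (∀ a', φ.B (ev v a) (ev v a') = 0) → a = 0 := fun a ha => by
    by_contra h0
    obtain ⟨a', ha'⟩ := AdjoinRoot.mk_surjective a⁻¹
    obtain ⟨a, rfl⟩ := AdjoinRoot.mk_surjective a
    have := ha (AdjoinRoot.mk f a')
    rw [hev hv, hev hv, B_aeval hQ, aeval_aeval, ← hev hv, map_mul, ha', mul_inv_cancel₀ h0,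
      ← map_one (AdjoinRoot.mk f), hev hv] at this
    exact hQ.B_self_ne_zero h2 hv' (by simpa using this)
  let b := Module.finBasis F (AdjoinRoot f)
  obtain ⟨ρ₁, a1, a2, a3, a4⟩ := exists_neg_on hQ h2 b (ev v) n1
  obtain ⟨ρ₂, b1, b2, b3, b4⟩ := exists_neg_on hQ h2 b (ev (bE g x y v)) fun a ha => n1 a fun a' => by
    rw [← mul_inv_cancel_left₀ hβ0 a', ← e1, ha]
  have hd : (Matrix.of fun i j => φ.B (ev v (b i)) (ev v (b j))).det ≠ 0 := by
    let B₁ : LinearMap.BilinForm F (AdjoinRoot f) := (PB hQ.toQuad).compl₁₂ (ev v) (ev v)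
    have e : ∀ a a', B₁ a a' = φ.B (ev v a) (ev v a') := fun a a' => hQ.polar_toQuad _ _
    have := (LinearMap.BilinForm.nondegenerate_iff_det_ne_zero b).1 (RB.nondeg (B := B₁)
      ⟨fun a ha => n1 a fun a' => (e _ _).symm.trans (ha a'), .inl fun a a' => by rw [e, e, hQ.B_comm]⟩)
    convert this
    ext i j; simp [e]
  have e2 : (Matrix.of fun i j => φ.B (ev (bE g x y v) (b i)) (ev (bE g x y v) (b j))) =
      (Matrix.of fun i j => φ.B (ev v (b i)) (ev v (b j))) *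
        LinearMap.toMatrix b b (Algebra.lmul F _ (AdjoinRoot.mk f β)) := by
    ext i j
    rw [of_apply, e1, mul_apply]
    conv_lhs => rw [← b.sum_repr (AdjoinRoot.mk f β * b j)]
    simp only [map_sum, map_smul, of_apply, LinearMap.toMatrix_apply, smul_eq_mul, mul_comm]
    rfl
  rw [e2, det_mul, LinearMap.det_toMatrix, ← Algebra.norm_apply, hβ, chi_mul hd hc0, a4, hc] at b4
  refine ⟨ρ₂ * ρ₁, (hQ.dickson_eq_one_iff h2).2 (φ.mem_SIsom.2 ?_), ?_, Isom.ext fun z => ?_⟩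
  · change LinearMap.det ((ρ₂.1 : V →ₗ[F] V) ∘ₗ (ρ₁.1 : V →ₗ[F] V)) = 1
    rw [LinearMap.det_comp, a3, b3, ← mul_pow]; simp
  · rw [mul_assoc, mul_right_inj] at b4
    rw [map_mul, ← b4]; simp [mul_comm]
  have c1 := fun {z} => inverts hQ h2 (g := g) (w := v) (x := z) (fun p => by rw [← hev hv, a1])
    fun y hy => a2 y fun a => by
      obtain ⟨a, rfl⟩ := AdjoinRoot.mk_surjective a
      rw [hev hv, hy]
  have c2 := fun {z} => inverts hQ h2 (g := g) (w := bE g x y v) (x := z) (fun p => by rw [← hev hw, b1])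
    fun y hy => b2 y fun a => by
      obtain ⟨a, rfl⟩ := AdjoinRoot.mk_surjective a
      rw [hev hw, hy]
  have l1 : cyc g (bE g x y v) ≤ cyc g v := cyc_le (add_mem (cyc_aeval (cyc_self v) x)
    (cyc_aeval (cyc_g h2 (cyc_self v)).1 y))
  have l2 : cyc g v ≤ cyc g (bE g x y v) := cyc_le (by
    obtain ⟨a', ha'⟩ := AdjoinRoot.mk_surjective (AdjoinRoot.mk f β)⁻¹
    have := cyc_aeval (add_mem (cyc_aeval (cyc_self (g := g) (bE g x y v)) x)
      (cyc_aeval (cyc_g h2 (cyc_self (bE g x y v))).2 y)) a'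
    rwa [bE_star, dvd hv hxy, aeval_aeval, ← hev hv, map_mul, ha', inv_mul_cancel₀ hβ0,
      ← map_one (AdjoinRoot.mk f), hev hv, map_one] at this)
  have hU : φ.NondegOn (cyc g v) := by
    rintro _ ⟨p, q, rfl⟩ H
    have d1 : AdjoinRoot.mk f p = 0 := n1 _ fun a => by
      obtain ⟨a, rfl⟩ := AdjoinRoot.mk_surjective a
      have := H _ (cyc_aeval (cyc_self v) a)
      rwa [map_add, LinearMap.add_apply, hQ.B_comm (tE g _), B_aeval_tE hQ h2, add_zero, ← hev hv,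
        ← hev hv] at this
    have d2 : AdjoinRoot.mk f ((X ^ 2 - 4) * q) = 0 := n1 _ fun a => by
      obtain ⟨a, rfl⟩ := AdjoinRoot.mk_surjective a
      have := H _ (cyc_tE (cyc_aeval (cyc_self v) a))
      rwa [map_add, LinearMap.add_apply, B_aeval_tE hQ h2, zero_add, B_tE, tE_tE, ← B_aeval hQ,
        aeval_aeval, neg_eq_zero, ← hev hv, ← hev hv] at this
    rw [map_mul, mul_eq_zero, AdjoinRoot.mk_eq_zero] at d2
    rw [← hev hv, ← hev hv, d1, d2.resolve_left h4]; simp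
  obtain ⟨u, hu, w, hw', rfl⟩ := Submodule.mem_sup.1 (hU.isCompl_perp.sup_eq_top.ge (Submodule.mem_top (x := z)))
  have fix : ∀ w ∈ φ.perp (cyc g v), ρ₂.1 (ρ₁.1 w) = w := fun w hw' => by
    rw [a2 w, b2 w] <;> intro a <;> obtain ⟨a, rfl⟩ := AdjoinRoot.mk_surjective a
    · rw [hev hw]; exact φ.mem_perp.1 hw' _ (l1 (cyc_aeval (cyc_self _) a))
    · rw [hev hv]; exact φ.mem_perp.1 hw' _ (cyc_aeval (cyc_self _) a)
  simp only [Isom.mul_apply, map_add]
  rw [fix w hw', fix (g.1 w) (φ.mem_perp.2 fun y hy => by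
    rw [← Isom.B_symm_left]; exact φ.mem_perp.1 hw' _ (cyc_g h2 hy).2), (c1 hu).2.1,
    (c2 (l2 (c1 hu).1)).2.2]

variable {r : ℕ} (hr : Odd r) (hr0 : (r : F) ≠ 0) (hg : g ^ r = 1)
include hr hr0 hg

omit hQ h2 [φ.Nondeg] [FiniteDimensional F V] [Finite F] in
theorem fix_of_tE {x : V} (h : tE g (tE g x) = 0) : g.1 x = x := by
  have e : ∀ (n : ℕ) y, (g ^ (n + 1)).1 y = (g ^ n).1 (g.1 y) := fun n y => by rw [pow_succ]; rfl
  have key : ∀ {x}, tE g x = 0 → g.1 x = x := fun {x} h => by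
    have h1 : g.1 (g.1 x) = x := by
      rw [show g.1 x = g.1.symm x from sub_eq_zero.1 h, LinearEquiv.apply_symm_apply]
    obtain ⟨k, rfl⟩ := hr
    have : ∀ n, (g ^ (2 * n)).1 x = x := fun n => by
      induction n with
      | zero => rfl
      | succ n ih => rw [show 2 * (n + 1) = 2 * n + 1 + 1 by ring, e, e, h1, ih]
    rw [← this k, ← Isom.mul_apply, ← pow_succ', hg, this]; rfl
  have h1 := key h
  have h3 : g.1 (g.1 x) = x + tE g x := by
    rw [← h1, tE_apply, map_sub, LinearEquiv.apply_symm_apply]; abel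
  have h4 : ∀ n, (g ^ n).1 (tE g x) = tE g x := fun n => by
    induction n with
    | zero => rfl
    | succ n ih => rw [e, h1, ih]
  have : ∀ n : ℕ, (g ^ (2 * n)).1 x = x + (n : F) • tE g x := fun n => by
    induction n with
    | zero => simp
    | succ n ih =>
      rw [show 2 * (n + 1) = 2 * n + 1 + 1 by ring, e, e, h3, map_add, ih, h4]; push_cast; module
  have h5 := this r
  rw [pow_mul', hg, one_pow, Isom.one_apply, left_eq_add, smul_eq_zero] at h5
  exact key (h5.resolve_left hr0)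

omit hQ h2 [φ.Nondeg] [Finite F] in
theorem exists_k : ∃ d k : F[X], Squarefree (d * k) ∧ minpoly F (sE g) = d * k ∧ d ∣ X ^ 2 - 4 ∧
    IsCoprime k (X ^ 2 - 4) := by
  classical
  have e : ∀ n : ℕ, ((g ^ n).1 : End F V) = (g.1 : End F V) ^ n := fun n => by
    induction n with
    | zero => rfl
    | succ n ih => rw [pow_succ, pow_succ, ← ih]; rfl
  have h1 : End.IsSemisimple (g.1 : End F V) := End.isSemisimple_of_squarefree_aeval_eq_zero
    (X_pow_sub_one_separable_iff.2 hr0).squarefree (by simp [← e, hg]; exact sub_self _)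
  have h3 : sE g = aeval (g.1 : End F V) (X + X ^ (r - 1) : F[X]) := by
    have : g ^ (r - 1) = g⁻¹ := eq_inv_of_mul_eq_one_left (by
      rw [← pow_succ, Nat.sub_add_cancel hr.pos, hg])
    simp only [map_add, aeval_X, map_pow, ← e, this]; rfl
  have h4 : Squarefree (minpoly F (sE g)) := (h3 ▸ h1.aeval _).minpoly_squarefree
  obtain ⟨k, hk⟩ := EuclideanDomain.gcd_dvd_left (minpoly F (sE g)) (X ^ 2 - 4)
  refine ⟨_, k, hk ▸ h4, hk, EuclideanDomain.gcd_dvd_right _ _, ?_⟩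
  refine isCoprime_of_irreducible_dvd (fun h => h4.ne_zero (by rw [hk, h.1, mul_zero]))
    fun z hz h5 h6 => hz.not_isUnit (h4 z ?_)
  rw [hk]
  exact mul_dvd_mul (EuclideanDomain.dvd_gcd (hk ▸ h5.mul_left _) h6) h5

theorem exists_so_comm' (h1 : g ≠ 1) : ∃ k, φ.dickson k = 1 ∧ φ.spinor k = -1 ∧ Commute k g := by
  obtain ⟨d, k, h3, h4, ⟨e, h5⟩, h6⟩ := exists_k hr hr0 hg
  have h0 : aeval (sE g) (d * k) = 0 := h4 ▸ minpoly.aeval _ _
  have hk : ¬ IsUnit k := fun hk => h1 (Isom.ext fun x => fix_of_tE hr hr0 hg (by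
    obtain ⟨k', hk'⟩ := hk.exists_right_inv
    rw [tE_tE, h5, show d * e = e * k' * (d * k) by linear_combination (-d * e) * hk', map_mul, h0]
    simp))
  obtain ⟨f, hm, hf, z, rfl⟩ := exists_monic_irreducible_factor k hk
  have h7 : IsCoprime f (d * z) := by
    rw [mul_left_comm] at h3
    exact (squarefree_mul_iff.1 h3).1.isCoprime
  obtain ⟨a, b, hab⟩ := h7
  have hU : φ.NondegOn (LinearMap.ker (aeval (sE g) f)) := fun x hx H => φ.eq_zero_of_B_left fun y => by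
    have := H (aeval (sE g) (b * (d * z)) y) (by
      rw [LinearMap.mem_ker, aeval_aeval, show f * (b * (d * z)) = b * (d * (f * z)) by ring, map_mul, h0]
      simp)
    rwa [show b * (d * z) = 1 - f * a by rw [← hab]; ring, map_sub, LinearMap.sub_apply, map_sub,
      ← aeval_aeval, ← B_aeval hQ f, LinearMap.mem_ker.1 hx, map_zero, LinearMap.zero_apply,
      sub_zero, map_one] at this
  obtain ⟨v, hv, hv'⟩ := hU.exists_Q_ne_zero hQ.exists_T fun h => by
    have h8 : aeval (sE g) (d * z) = 0 := LinearMap.ext fun y => (Submodule.eq_bot_iff _).1 h _ (by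
      rw [LinearMap.mem_ker, aeval_aeval, mul_left_comm, h0]; rfl)
    have h9 := minpoly.dvd F _ h8
    rw [h4, mul_left_comm] at h9
    have h10 : d * z ≠ 0 := fun h => h3.ne_zero (by rw [mul_left_comm, h, mul_zero])
    exact hf.not_isUnit (isUnit_of_dvd_one ((mul_dvd_mul_iff_right h10).1 (by rwa [one_mul])))
  exact exists_so_comm hQ h2 hf hm (fun e => hf.not_isUnit
    (h6.of_mul_left_left.isUnit_of_dvd' dvd_rfl e)) hv hv'

theorem exists_sim_comm {m : ℕ} (hm : finrank F V = 2 * m) {c : F} (hc : c ≠ 0) :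
    ∃ D : V ≃ₗ[F] V, (∀ x y, φ.B (D x) (D y) = c * φ.B x y) ∧ (∀ x, D (g.1 x) = g.1 (D x)) ∧
      (LinearMap.det (D : V →ₗ[F] V) = c ^ m ∨ ∃ v, g.1 v = v ∧ φ.Q v ≠ 0) := by
  obtain ⟨d, k, h3, h4, ⟨e, h5⟩, h6⟩ := exists_k hr hr0 hg
  have h0 : aeval (sE g) (d * k) = 0 := h4 ▸ minpoly.aeval _ _
  obtain ⟨x, y, z, hxy⟩ := solve_sqfree h2 h3.of_mul_right h6 (C c)
  let U := LinearMap.ker ((g.1 : V →ₗ[F] V) - LinearMap.id)
  have mem : ∀ {x}, x ∈ U ↔ g.1 x = x := by simp [U, sub_eq_zero]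
  have mem' : ∀ {x}, x ∈ U → g.1.symm x = x := fun h => by
    rw [LinearEquiv.symm_apply_eq, mem.1 h]
  have hU : φ.NondegOn U := fun x hx H => φ.eq_zero_of_B_left fun y => by
    have e1 : ∀ n, φ.B x ((g ^ n).1 y) = φ.B x y := fun n => by
      induction n with
      | zero => rfl
      | succ n ih => rw [pow_succ', Isom.mul_apply, ← Isom.B_symm_left, mem' hx, ih]
    have := H (∑ i ∈ Finset.range r, (g ^ i).1 y) (mem.2 (by
      have e2 := Finset.sum_range_succ' (fun i => (g ^ i).1 y) r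
      rw [Finset.sum_range_succ, hg, pow_zero, add_left_inj] at e2
      rw [map_sum]
      conv_rhs => rw [e2]
      exact Finset.sum_congr rfl fun i _ => by rw [pow_succ', Isom.mul_apply]))
    rw [map_sum, Finset.sum_congr rfl fun i _ => e1 i] at this
    simpa [hr0] using this
  have hW : ∀ w ∈ φ.perp U, g.1 w ∈ φ.perp U ∧ g.1.symm w ∈ φ.perp U := fun w hw =>
    ⟨φ.mem_perp.2 fun u hu => by rw [← Isom.B_symm_left, mem' hu, φ.mem_perp.1 hw u hu],
      φ.mem_perp.2 fun u hu => by rw [Isom.B_symm_right, mem.1 hu, φ.mem_perp.1 hw u hu]⟩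
  have hW' : ∀ (p : F[X]) w, w ∈ φ.perp U → aeval (sE g) p w ∈ φ.perp U := fun p w hw =>
    aeval_mem (fun x hx => add_mem (hW x hx).1 (hW x hx).2) p hw
  have hc' := hU.isCompl_perp
  have zero : ∀ w ∈ φ.perp U, tE g (tE g w) = 0 → w = 0 := fun w hw h =>
    Submodule.disjoint_def.1 hc'.disjoint w (mem.2 (fix_of_tE hr hr0 hg h)) hw
  have hb : ∀ u, ∀ w ∈ φ.perp U, φ.B (bE g x y u) (bE g x y w) = c * φ.B u w := fun u w hw => by
    have : aeval (sE g) k w = 0 := zero _ (hW' k w hw) (by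
      rw [tE_tE, aeval_aeval, h5, mul_right_comm, mul_comm, map_mul, h0]; simp)
    rw [B_bE hQ, sub_eq_iff_eq_add.1 hxy, map_add, mul_comm k, map_mul]; simp [this]
  have hbW : ∀ w ∈ φ.perp U, bE g x y w ∈ φ.perp U := fun w hw =>
    add_mem (hW' x w hw) (hW' y _ (hW w hw).1)
  let ω : LinearMap.BilinForm F V := (PB hQ.toQuad).compl₁₂ LinearMap.id (tE g)
  have eω : ∀ x y, ω x y = φ.B x (tE g y) := fun x y => hQ.polar_toQuad _ _
  have hA : ω.IsAlt := fun x => by simpa [eω] using B_aeval_tE hQ h2 (g := g) 1 1 x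
  have hω : ∀ w ∈ φ.perp U, (∀ y ∈ φ.perp U, ω w y = 0) → w = 0 := fun w hw H => zero w hw (by
    rw [hU.perp (tE g w) (sub_mem (hW w hw).1 (hW w hw).2) fun y hy => by
      rw [B_tE, ← eω, H y hy, neg_zero], map_zero])
  obtain ⟨n, hn⟩ := (RB.mk (B := ω.restrict (φ.perp U)) (fun w H => Subtype.ext (hω w w.2
    fun y hy => H ⟨y, hy⟩)) (.inr fun x y => (hA.neg_eq _ _).symm)).even fun x => hA _
  have hn' := φ.finrank_perp U
  obtain ⟨D₁, hD₁⟩ := exists_sim_sy (B := (PB hQ.toQuad).restrict U) (fun u H => Subtype.ext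
    (hU u u.2 fun y hy => (hQ.polar_toQuad _ _).symm.trans (H ⟨y, hy⟩)))
    (fun _ _ => QuadraticMap.polar_comm _ _ _) h2 (m := m - n) (by omega) hc
  have hD₁' : ∀ u v : U, φ.B (D₁ u) (D₁ v) = c * φ.B u v := fun u v => by
    rw [← hQ.polar_toQuad, ← hQ.polar_toQuad]; exact hD₁ u v
  let D := LinearMap.ofIsCompl hc' (U.subtype ∘ₗ D₁.toLinearMap) (bE g x y ∘ₗ (φ.perp U).subtype)
  have hD : ∀ (u : U) (w : φ.perp U), D ((u : V) + w) = D₁ u + bE g x y w := fun u w => by simp [D]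
  have dec : ∀ x : V, ∃ (u : U) (w : φ.perp U), x = u + w := fun x =>
    let ⟨u, w, h, _⟩ := Submodule.existsUnique_add_of_isCompl hc' x; ⟨u, w, h.symm⟩
  have hB : ∀ x y, φ.B (D x) (D y) = c * φ.B x y := fun x y => by
    obtain ⟨u, w, rfl⟩ := dec x
    obtain ⟨u', w', rfl⟩ := dec y
    simp only [hD, map_add, LinearMap.add_apply, hD₁', hb _ _ w'.2, φ.mem_perp.1 w'.2 _ u.2,
      φ.mem_perp'.1 w.2 _ u'.2, φ.mem_perp.1 (hbW _ w'.2) _ (D₁ u).2,
      φ.mem_perp'.1 (hbW _ w.2) _ (D₁ u').2]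
    ring
  have hi : Function.Injective D := (injective_iff_map_eq_zero D).2 fun x hx =>
    φ.eq_zero_of_B_left fun y => by simpa [hx, hc] using (hB x y).symm
  have hcomm : ∀ x, D (g.1 x) = g.1 (D x) := fun v => by
    obtain ⟨u, w, rfl⟩ := dec v
    rw [map_add g.1, mem.1 u.2, hD, hD u ⟨_, (hW _ w.2).1⟩, map_add, mem.1 (D₁ u).2]
    simp [bE_apply, g_aeval]
  refine ⟨LinearEquiv.ofInjectiveEndo D hi, hB, hcomm, ?_⟩
  by_cases hU0 : U = ⊥
  · refine .inl (det_sim_alt (B := ω) ⟨fun w H => hω w (by simp [hU0]) fun y _ => H y,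
      .inr fun x y => (hA.neg_eq _ _).symm⟩ hA hm hc fun u v => ?_)
    have : ∀ x, D (g.1.symm x) = g.1.symm (D x) := fun x => g.1.injective (by simp [← hcomm])
    rw [eω, eω, ← hB]; simp [tE_apply, hcomm, this]
  · obtain ⟨v, hv, hv'⟩ := hU.exists_Q_ne_zero hQ.exists_T hU0
    exact .inr ⟨v, mem.1 hv, hv'⟩

omit hQ h2 hr hr0 hg in
theorem conj_iff {A : Type*} [Group A] {H K : Subgroup A} (hle : H ≤ K) {x : A}
    (h : ∀ k ∈ K, ∃ c, Commute c x ∧ k * c ∈ H) (y : A) : IsConjUnder H x y ↔ IsConjUnder K x y :=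
  ⟨fun ⟨k, hk, e⟩ => ⟨k, hle hk, e⟩, fun ⟨k, hk, e⟩ => let ⟨c, hc, h'⟩ := h k hk
    ⟨k * c, h', by rw [e, mul_assoc k c, hc.eq]; group⟩⟩

end H03.GA

namespace H03.GA

open Module Matrix H10 H10.Form H09 Subgroup Cfsg H09.Gam

variable {F : Type*} [Field F] [Finite F] {ι : Type} [Fintype ι] [DecidableEq ι] [Nonempty ι]
  (h2 : (2 : F) ≠ 0) {m : ℕ} (hm : Fintype.card ι = 2 * m) {r : ℕ} (hr : Odd r) (hr0 : (r : F) ≠ 0)
include h2 hm hr hr0

theorem exists_delta {φ : Form F (ι → F)} [φ.Nondeg] (hQ : φ.IsQuad) {g : φ.Isom} (hg : g ^ r = 1) :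
    ∃ δ ∈ GSO φ, chm δ = -1 ∧ Commute δ (ofIsom g) := by
  have hg' := hQ.good_of_two_ne_zero h2
  obtain ⟨c, hc0, hc⟩ := exists_chi_eq_neg_one h2
  obtain ⟨D, h1, h3, h4⟩ := exists_sim_comm hQ h2 hr hr0 hg (m := m) (by simpa using hm) hc0
  let δ : Gam φ := ofEquiv D hc0 h1 fun x => mul_left_cancel₀ h2 (by
    have := h1 x x
    rw [hQ.B_self, hQ.B_self] at this
    linear_combination this)
  have e1 : mult δ = c := mult_eq h1
  have e2 : Commute δ (ofIsom g) := ext (by simp [δ]; rfl) h3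
  have e3 : chm δ = -1 := by rw [chm_apply, e1, hc]
  rcases h4 with h4 | ⟨v, hv, hv'⟩
  · refine ⟨δ, (mem_GSO_iff h2 hm).2 ⟨rfl, ?_⟩, e3, e2⟩
    rw [e1, ← h4, ← det_glEquiv]
    congr 1; ext1; exact LinearMap.ext fun _ => (perm_eq_lin (γ := δ) rfl _).symm
  rcases mem_GSO_or hQ hg' (γ := δ) rfl hv' with h | h
  · exact ⟨δ, h, e3, e2⟩
  · refine ⟨_, h, by rw [map_mul, e3]; simp [chm_apply, mult_ofIsom], e2.mul_left (Commute.map ?_ _)⟩
    have := hQ.refl_conj g v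
    rw [hv] at this
    exact (mul_inv_eq_iff_eq_mul.1 this).symm

omit h2 hm hr hr0 [Nonempty ι] in
theorem poAut_eq (Q : QuadraticForm F (ι → F)) [(Form.ofQuad Q).Nondeg] (h5 : 5 ≤ Fintype.card ι) :
    poAut F Q = (ofIsom : _ →* Gam (Form.ofQuad Q)).range.map (omAut Q h5) := by
  refine closure_eq_map _ _ fun β => ⟨fun ⟨g, hg, h⟩ => ?_, ?_⟩
  · obtain ⟨k, rfl⟩ : ∃ k : (Form.ofQuad Q).Isom, g = mat (ofIsom k) :=
      ⟨isometryEquiv Q ⟨g, hg⟩, Units.ext (mat_eq fun v => rfl).symm⟩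
    exact ⟨_, ⟨k, rfl⟩, (induced_iff' h5 rfl).1 h⟩
  · rintro ⟨_, ⟨k, rfl⟩, rfl⟩
    exact ⟨mat (ofIsom k), fun u _ => (congrArg Q (perm_eq' rfl u).symm).trans (k.2.Q u),
      (induced_iff' h5 rfl).2 rfl⟩

theorem semisimple_classes (Q : QuadraticForm F (ι → F)) [(Form.ofQuad Q).Nondeg]
    (h5 : 5 ≤ Fintype.card ι) {x : MulAut (POmega F Q)} (hx : x ∈ pgoAut F Q) (hx1 : x ≠ 1)
    (hxr : x ^ r = 1) :
    (∀ y, (IsConjUnder (Inn _) x y ↔ IsConjUnder ((GSO _).map (omAut Q h5)) x y) ∧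
      (IsConjUnder (psoAut F Q) x y ↔ IsConjUnder ((GSO _).map (omAut Q h5)) x y)) ∧
    ∀ y, IsConjUnder (poAut F Q) x y ↔ IsConjUnder (pgoAut F Q) x y := by
  have hQ := isQuad_ofQuad Q
  have hg' := hQ.good_of_two_ne_zero h2
  have sc : ∀ a, omAut Q h5 (scal a) = 1 := fun a => (ker_omAut h5).ge ⟨a, rfl⟩
  obtain ⟨g, hg, rfl⟩ : ∃ g, g ^ r = 1 ∧ omAut Q h5 (ofIsom g) = x := by
    obtain ⟨γ, h1, rfl⟩ := (pgoAut_eq h5).le hx
    obtain ⟨c, hc⟩ := (ker_omAut h5).le (show omAut Q h5 (γ ^ r) = 1 by rw [map_pow, hxr])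
    have h3 : chm γ = 1 := by
      have := congrArg chm hc
      rw [chm_scal hQ, map_pow] at this
      exact (Int.units_eq_one_or _).resolve_right fun h => by simp [h, hr.neg_one_pow] at this
    obtain ⟨g, a, rfl⟩ := exists_so_of_sq hQ h1 (chi_eq_one_iff.1 h3)
    rw [map_mul, sc, mul_one] at hxr ⊢
    obtain ⟨s, hs⟩ := (ker_omAut h5).le (show omAut Q h5 (ofIsom (g ^ r)) = 1 by
      rw [map_pow, map_pow, hxr])
    have h4 : (g ^ r) ^ 2 = 1 := by
      rcases eq_or_eq_neg_of_so hQ (g := g ^ r) (k := 1) (a := 1) (b := s) (by simp [hs]) with h | h <;>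
        rw [h]
      · simp
      · exact Isom.ext fun x => by simp [sq, neg_one_apply]
    obtain ⟨k, hk⟩ := hr
    refine ⟨g ^ (r + 1), ?_, by rw [map_pow, map_pow, pow_succ, hxr, one_mul]⟩
    rw [← pow_mul, show (r + 1) * r = r * 2 * (k + 1) by rw [hk]; ring, pow_mul, pow_mul, h4, one_pow]
  obtain ⟨k, k1, k2, k3⟩ := exists_so_comm' hQ h2 hr hr0 hg fun h => hx1 (by simp [h])
  obtain ⟨δ, d1, d2, d3⟩ := exists_delta h2 hm hr hr0 hQ hg
  have a1 : ∀ γ : Gam (Form.ofQuad Q), ∃ c ∈ GSO _, Commute c (ofIsom g) ∧ chm (γ * c) = 1 := fun γ => by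
    rcases Int.units_eq_one_or (chm γ) with h | h
    · exact ⟨1, one_mem _, by simp, by simpa⟩
    · exact ⟨δ, d1, d3, by simp [h, d2]⟩
  have a2 : Inn _ ≤ (GSO _).map (omAut Q h5) := inn_le_GSO hQ (omRep Q h5) h5
  refine ⟨fun y => ⟨conj_iff a2 ?_ y, ?_⟩, ?_⟩
  · rintro _ ⟨γ, h, rfl⟩
    obtain ⟨c, c1, c2, c3⟩ := a1 γ
    obtain ⟨k', a, h4, e⟩ := exists_so hQ hg' (mul_mem h c1) (chi_eq_one_iff.1 c3)
    rcases Int.units_eq_one_or ((Form.ofQuad Q).spinor k') with h6 | h6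
    · exact ⟨_, c2.map _, by rw [← map_mul, e]; exact (mem_inn_iff hQ _ h5 h4 a).2 (.inl h6)⟩
    · refine ⟨_, (c2.mul_left (k3.map ofIsom)).map _, ?_⟩
      rw [← map_mul, ← mul_assoc, e, mul_assoc, ← scal_comm (fld_ofIsom _), ← mul_assoc, ← map_mul]
      exact (mem_inn_iff hQ _ h5 (by simp [h4, k1]) a).2 (.inl (by simp [h6, k2]))
  · rw [psoAut_eq Q h5 h2 hm]
    refine conj_iff (map_mono inf_le_right) ?_ y
    rintro _ ⟨γ, h, rfl⟩
    obtain ⟨c, c1, c2, c3⟩ := a1 γ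
    exact ⟨_, c2.map _, _, ⟨c3, mul_mem h c1⟩, map_mul _ _ _⟩
  · rw [poAut_eq Q h5, pgoAut_eq h5]
    refine conj_iff (map_mono (by rintro _ ⟨k, rfl⟩; rfl)) ?_
    rintro _ ⟨γ, h, rfl⟩
    obtain ⟨c, c1, c2, c3⟩ := a1 γ
    obtain ⟨k', a, e⟩ := exists_so_of_sq hQ (γ := γ * c) (by rw [map_mul, c1.1, mul_one]; exact h)
      (chi_eq_one_iff.1 c3)
    exact ⟨_, c2.map (omAut Q h5), ofIsom k', ⟨k', rfl⟩, by rw [← map_mul, e, map_mul, sc, mul_one]⟩

end H03.GA
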