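import Mathlib
import Cfsg.Agent.H03.HE1

/-!
Groups of shape `2^{1+6}.L3(2)`: the coded group (namespace `H03.HE`).
`Pre`, `Rel`, `el`, `CM`, `chk`, `Rel.cm`, `ok`, `ok_spec`.
-/

set_option autoImplicit false
set_option maxRecDepth 100000

namespace H03.HE
open H13 H14.PK

variable {G : Type*} [Group G] {z : G} {γ : ℕ → G} {x f g a : G} {X q0 μ : ℕ}

/-- the Frobenius group of order 21 acting on the extraspecial group -/
structure Pre (z : G) (γ : ℕ → G) (f g : G) : Prop where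
  cl : Cl z γ
  af : Act z γ f XF
  ag : Act z γ g XG
  f7 : f ^ 7 = 1
  g3 : g ^ 3 = 1
  gf : g * f = f ^ 2 * g

/-- the relations of the whole group -/
structure Rel (z : G) (γ : ℕ → G) (f g a : G) (X q0 μ : ℕ) : Prop extends Pre z γ f g where
  aa : Act z γ a X
  ga : a * g = g ^ 2 * a
  a2 : a * a = kap z γ μ
  a3 : (a * f) ^ 3 = kap z γ q0

/-- representatives of the cosets of the Frobenius group -/
def ww (f a : G) : ℕ → G
  | 0 => 1
  | k + 1 => a * f ^ k

/-- normal form -/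
def nf (z : G) (γ : ℕ → G) (f g a : G) (q i j m : ℕ) : G := kap z γ q * (f ^ i * g ^ j * ww f a m)

/-- the coded elements -/
def el (z : G) (γ : ℕ → G) (f g a : G) (c : ℕ) : G := nf z γ f g a (c % 128) (c / 128 % 7) (c / 896 % 3) (c / 2688)

def enc (q i j m : ℕ) : ℕ := q + 128 * i + 896 * j + 2688 * m

noncomputable def sf (c : ℕ) : ℕ := force c fun c =>
  Nat.rec (enc (c % 128) ((c / 128 % 7 + 2 ^ (c / 896 % 3)) % 7) (c / 896 % 3) 0)
    (fun k _ => enc (c % 128) (c / 128 % 7) (c / 896 % 3) ((k + 1) % 7 + 1)) (c / 2688)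
noncomputable def sg (c : ℕ) : ℕ := force c fun c =>
  Nat.rec (enc (c % 128) (c / 128 % 7) ((c / 896 % 3 + 1) % 3) 0)
    (fun k _ => enc (c % 128) (c / 128 % 7) ((c / 896 % 3 + 2) % 3) (4 * k % 7 + 1)) (c / 2688)
noncomputable def lf (c : ℕ) : ℕ := force c fun c => enc (ap XF (c % 128)) ((c / 128 % 7 + 1) % 7) (c / 896 % 3) (c / 2688)
noncomputable def lg (c : ℕ) : ℕ := force c fun c =>
  enc (ap XG (c % 128)) (2 * (c / 128 % 7) % 7) ((c / 896 % 3 + 1) % 3) (c / 2688)
noncomputable def lq (d c : ℕ) : ℕ := force c fun c => Nat.add (qm d (Nat.mod c 128)) (Nat.mul 128 (Nat.div c 128))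
noncomputable def dd (c : ℕ) : ℕ := sg (lg (lg c))
noncomputable def am (q0 μ m : ℕ) : ℕ := nd 0 [enc 0 0 0 1, μ, enc (qm q0 μ) 6 0 7, dd (enc (qm q0 μ) 6 0 7),
  dd (dd (enc (qi (ap XF q0)) 1 0 2)), dd (dd (enc (qm q0 μ) 6 0 7)), dd (enc (qi (ap XF q0)) 1 0 2), enc (qi (ap XF q0)) 1 0 2] m
noncomputable def itr (s : ℕ → ℕ) (n c : ℕ) : ℕ := Nat.rec c (fun _ ih => s ih) n
noncomputable def sa (q0 μ c : ℕ) : ℕ := force c fun c =>
  lq (c % 128) (itr lf (c / 128 % 7) (itr lg (c / 896 % 3) (am q0 μ (c / 2688))))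

theorem el_enc {q i j : ℕ} (hq : q < 128) (hi : i < 7) (hj : j < 3) (m : ℕ) :
    el z γ f g a (enc q i j m) = nf z γ f g a q i j m := by
  generalize hn : enc q i j m = n
  unfold enc at hn
  rw [el, show n % 128 = q by omega, show n / 128 % 7 = i by omega, show n / 896 % 3 = j by omega, show n / 2688 = m by omega]

theorem el_split (c : ℕ) : el z γ f g a c = kap z γ (c % 128) * el z γ f g a (128 * (c / 128)) := by
  generalize hn : 128 * (c / 128) = n
  rw [el, el, show n % 128 = 0 by omega, show n / 128 % 7 = c / 128 % 7 by omega, show n / 896 % 3 = c / 896 % 3 by omega,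
    show n / 2688 = c / 2688 by omega, nf, nf, kap_zero, one_mul]

theorem el_add {q : ℕ} (hq : q < 128) (p : ℕ) : el z γ f g a (q + 128 * p) = kap z γ q * el z γ f g a (128 * p) := by
  rw [el_split, show (q + 128 * p) % 128 = q by omega, show (q + 128 * p) / 128 = p by omega]

theorem el_kap {q : ℕ} (hq : q < 128) : el z γ f g a q = kap z γ q := by
  simpa [enc, nf, ww] using el_enc (z := z) (γ := γ) (f := f) (g := g) (a := a) hq (i := 0) (j := 0) (by decide) (by decide) 0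

namespace Pre

variable (h : Pre z γ f g)
include h

theorem fm (n : ℕ) : f ^ (n % 7) = f ^ n := (pow_eq_pow_mod n h.f7).symm
theorem gm (n : ℕ) : g ^ (n % 3) = g ^ n := (pow_eq_pow_mod n h.g3).symm

theorem gfk (k : ℕ) : g * f ^ k = f ^ (2 * k) * g := by
  rw [pow_mul]; exact (SemiconjBy.pow_right h.gf k).eq

theorem gjf (j : ℕ) : g ^ j * f = f ^ 2 ^ j * g ^ j := by
  induction j with
  | zero => simp
  | succ j ih => rw [pow_succ' g, mul_assoc, ih, ← mul_assoc, h.gfk, mul_assoc, pow_succ' 2]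

theorem fkg (k : ℕ) : f ^ k * g = g * f ^ (4 * k) := by
  rw [h.gfk, ← h.fm (2 * _), show 2 * (4 * k) % 7 = k % 7 by omega, h.fm]

theorem el_sf (c : ℕ) : el z γ f g a c * f = el z γ f g a (sf c) := by
  simp only [sf, force_eq]
  rw [el]
  generalize c / 2688 = m
  rcases m with _ | k
  · refine Eq.trans ?_ (el_enc (by omega) (by omega) (by omega) _).symm
    simp only [nf, ww, mul_one, h.fm, pow_add, mul_assoc, h.gjf]
  · refine Eq.trans ?_ (el_enc (by omega) (by omega) (by omega) _).symm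
    simp only [nf, ww, h.fm, pow_succ, mul_assoc]

theorem el_lf (c : ℕ) : f * el z γ f g a c = el z γ f g a (lf c) := by
  simp only [lf, force_eq]
  rw [el_enc (ap_lt _ _) (by omega) (by omega), el, nf, nf, ← mul_assoc, h.af.kap' h.cl, h.fm (_ + 1), pow_succ']
  simp only [mul_assoc]

theorem el_lg (c : ℕ) : g * el z γ f g a c = el z γ f g a (lg c) := by
  simp only [lg, force_eq]
  rw [el_enc (ap_lt _ _) (by omega) (by omega), el, nf, nf, ← mul_assoc, h.ag.kap' h.cl, h.fm (2 * _), h.gm (_ + 1), pow_succ' g,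
    ← mul_assoc (f ^ (2 * _)), ← h.gfk]
  simp only [mul_assoc]

theorem el_lq {d : ℕ} (hd : d < 128) (c : ℕ) : kap z γ d * el z γ f g a c = el z γ f g a (lq d c) := by
  have l : c % 128 < 128 := by omega
  rw [show lq d c = qm d (c % 128) + 128 * (c / 128) from rfl, el_add (qm_lt hd l), el_split, h.cl.kap_mul hd l, mul_assoc]

omit h in
theorem el_itr {s : ℕ → ℕ} (hs : ∀ c, x * el z γ f g a c = el z γ f g a (s c)) (n c : ℕ) :
    x ^ n * el z γ f g a c = el z γ f g a (itr s n c) := by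
  induction n with
  | zero => simp [itr]
  | succ n ih => rw [pow_succ', mul_assoc, ih, hs]; rfl

end Pre

namespace Rel

variable (h : Rel z γ f g a X q0 μ)
include h

theorem el_sg (c : ℕ) : el z γ f g a c * g = el z γ f g a (sg c) := by
  simp only [sg, force_eq]
  rw [el]
  generalize c / 2688 = m
  rcases m with _ | k
  · refine Eq.trans ?_ (el_enc (by omega) (by omega) (by omega) _).symm
    simp only [nf, ww, mul_one, h.gm (_ + 1), pow_succ, mul_assoc]
  · refine Eq.trans ?_ (el_enc (by omega) (by omega) (by omega) _).symm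
    simp only [nf, ww, h.fm, h.gm (_ + 2), pow_add, mul_assoc, h.fkg]
    rw [← mul_assoc a, h.ga, mul_assoc]

theorem el_dd {k c : ℕ} (e : a * f ^ k * a = el z γ f g a c) : a * f ^ (2 * k % 7) * a = el z γ f g a (dd c) := by
  have e1 : f ^ (2 * k) = g * f ^ k * g ^ 2 := by rw [h.gfk, mul_assoc, ← pow_succ', h.g3, mul_one]
  rw [dd, ← h.el_sg, ← h.el_lg, ← h.el_lg, ← e, h.fm, e1]
  calc _ = a * g * f ^ k * (g ^ 2 * a) := by simp only [mul_assoc]
    _ = g ^ 2 * a * f ^ k * (a * g) := by rw [← h.ga]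
    _ = _ := by rw [pow_two]; simp only [mul_assoc]

theorem el_am (hq : q0 < 128) (hμ : μ < 2) {m : ℕ} (hm : m < 8) : ww f a m * a = el z γ f g a (am q0 μ m) := by
  have f6 : f ^ 6 = f⁻¹ := eq_inv_of_mul_eq_one_left (by rw [← pow_succ, h.f7])
  have c : ∀ x, x * z = z * x → x * kap z γ μ = kap z γ μ * x := fun x e => by
    interval_cases μ <;> simp [kap_zero, kap_one, e]
  have k2 : kap z γ μ * kap z γ μ = 1 := by interval_cases μ <;> simp [kap_zero, kap_one, h.cl.z2]
  have ai : a⁻¹ = kap z γ μ * a := by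
    rw [inv_eq_iff_mul_eq_one, ← mul_assoc, c a h.aa.1, mul_assoc, h.a2, k2]
  have cf : ∀ y, f⁻¹ * (kap z γ μ * y) = kap z γ μ * (f⁻¹ * y) := fun y => by
    rw [← mul_assoc, c _ (Commute.inv_left h.af.1).eq, mul_assoc]
  have ca : ∀ y, a * (kap z γ μ * y) = kap z γ μ * (a * y) := fun y => by rw [← mul_assoc, c _ h.aa.1, mul_assoc]
  have e1 : a * f ^ 1 * a = el z γ f g a (enc (qm q0 μ) 6 0 7) := by
    rw [el_enc (qm_lt hq (by omega)) (by decide) (by decide), nf, ww, h.cl.kap_mul hq (by omega), ← h.a3, f6, pow_zero, mul_one,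
      mul_assoc ((a * f) ^ 3), ← cf, ← mul_assoc (kap _ _ _), ← ai]
    simp only [pow_succ]; group
  have e6 : a * f ^ 6 * a = el z γ f g a (enc (qi (ap XF q0)) 1 0 2) := by
    rw [el_enc (qi_spec _ (ap_lt _ _)).1 (by decide) (by decide), nf, ww, h.cl.kap_qi (ap_lt _ _), ← h.af.kap h.cl, ← h.a3, f6]
    have : a * f⁻¹ * a = a⁻¹ * f⁻¹ * a⁻¹ := by
      rw [ai]; simp only [mul_assoc, cf, ca]; rw [← mul_assoc (kap _ _ _), k2, one_mul]
    rw [this]; simp only [pow_succ]; group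
  interval_cases m
  · rw [show am q0 μ 0 = enc 0 0 0 1 from rfl, el_enc (by decide) (by decide) (by decide)]; simp [nf, ww, kap_zero]
  · rw [show am q0 μ 1 = μ from rfl, el_kap (by omega), ← h.a2]; simp [ww]
  exacts [e1, h.el_dd e1, h.el_dd (h.el_dd e6), h.el_dd (h.el_dd e1), h.el_dd e6, e6]

theorem el_sa (hq : q0 < 128) (hμ : μ < 2) {c : ℕ} (hc : c < 21504) : el z γ f g a c * a = el z γ f g a (sa q0 μ c) := by
  simp only [sa, force_eq]
  rw [← h.el_lq (by omega), ← Pre.el_itr h.el_lf, ← Pre.el_itr h.el_lg, ← h.el_am hq hμ (by omega), el, nf]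
  simp only [mul_assoc]

end Rel

/-- a coded group of order 21504 -/
structure CM (mu : ℕ → ℕ → ℕ) (e : ℕ → G) : Prop where
  mul : ∀ a < 21504, ∀ b < 21504, e a * e b = e (mu a b)
  lt : ∀ a < 21504, ∀ b < 21504, mu a b < 21504
  inj : ∀ a < 21504, ∀ b < 21504, e a = e b → a = b
  zero : e 0 = 1
  cz : ∀ a < 21504, e a * e 1 = e 1 * e a

/-- product of codes -/
noncomputable def mu (AC MT a b : ℕ) : ℕ := force a fun a => force b fun b => force (Nat.div a 128) fun p =>
  force (get 15 MT (Nat.add (Nat.mul 168 (Nat.div b 128)) p)) fun m =>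
    force (get 7 AC (Nat.add (Nat.mul 128 p) (Nat.mod b 128))) fun x => force (qm (Nat.mod a 128) x) fun y =>
      Nat.add (qm y (Nat.mod m 128)) (Nat.mul 128 (Nat.div m 128))

/-- the tree -/
noncomputable def pa (r : ℕ) : ℕ := Bool.rec (Bool.rec (r - 21) (r - 7) (Nat.blt r 21)) (r - 1) (Nat.blt r 7)
noncomputable def ge (r : ℕ) : ℕ := Bool.rec (Bool.rec (Bool.rec 0 2 (Nat.blt r 42)) 1 (Nat.blt r 21)) 0 (Nat.blt r 7)

/-- a step -/
noncomputable def st (ST s c : ℕ) : ℕ := force c fun c => lq (Nat.mod c 128) (get 15 ST (Nat.add (Nat.mul 168 s) (Nat.div c 128)))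

/-- the checks -/
noncomputable def chk (X q0 μ ST AT AC MT : ℕ) : Bool :=
  band (band (band (Nat.blt q0 128) (Nat.blt μ 2)) (band
    (allLt (fun p => band (band (Nat.beq (get 15 ST p) (sf (128 * p))) (Nat.beq (get 15 ST (168 + p)) (sg (128 * p))))
      (Nat.beq (get 15 ST (336 + p)) (sa q0 μ (128 * p)))) 168)
    (allLt (fun c => band (band (Nat.beq (get 7 AT c) (ap XF c)) (Nat.beq (get 7 AT (128 + c)) (ap XG c)))
      (Nat.beq (get 7 AT (256 + c)) (ap X c))) 128)))
  (band (band (band (allLt (fun c => Nat.beq (get 7 AC c) c) 128) (allLt (fun p => Nat.beq (get 15 MT p) (128 * p)) 168))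
    (allLt (fun r => bor (Nat.beq r 0) (force (pa r) fun r0 => force (ge r) fun s =>
      band (band (band (Nat.blt r0 r) (Nat.blt s 3)) (Nat.beq (st ST s (128 * r0)) (128 * r))) (band
        (allLt (fun c => Nat.beq (get 7 AC (128 * r + c)) (get 7 AC (128 * r0 + get 7 AT (128 * s + c)))) 128)
        (allLt (fun p => force (get 15 MT (168 * r + p)) fun m =>
          band (Nat.beq m (st ST s (get 15 MT (168 * r0 + p)))) (Nat.blt m 21504)) 168)))) 168))
    (allLt (fun p => allLt (fun r => bor (Nat.beq p r) (anyL (fun c => bn (Nat.beq (get 7 AC (128 * p + c) / 2)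
      (get 7 AC (128 * r + c) / 2))) [2, 4, 8, 16, 32, 64])) 168) 168))

theorem Rel.cm (h : Rel z γ f g a X q0 μ) {ST AT AC MT : ℕ} (c : chk X q0 μ ST AT AC MT = true) :
    CM (mu AC MT) (el z γ f g a) := by
  simp only [chk, band_eq_true, bor_eq_true, allLt_iff, anyL_iff, bn_iff, Nat.beq_eq, Nat.blt_eq, force_eq] at c
  obtain ⟨⟨⟨hq, hμ⟩, c1, c2⟩, ⟨⟨c3, c4⟩, c5⟩, c6⟩ := c
  obtain ⟨e, he⟩ : ∃ e, e = el z γ f g a := ⟨_, rfl⟩
  obtain ⟨κ, hκ⟩ : ∃ κ, κ = kap z γ := ⟨_, rfl⟩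
  have sp : ∀ c, e c = κ (c % 128) * e (128 * (c / 128)) := fun c => by rw [he, hκ]; exact el_split c
  have km : ∀ a < 128, ∀ b < 128, κ (qm a b) = κ a * κ b := fun a ha b hb => by rw [hκ]; exact h.cl.kap_mul ha hb
  have e0 : e 0 = 1 := by rw [he, el_kap (by decide), kap_zero]
  have m7 : ∀ c : ℕ, c % 128 < 128 := fun c => by omega
  have gs : ∀ s < 3, ∃ t, (∀ c < 128, t * κ c = κ (get 7 AT (128 * s + c)) * t) ∧ ∀ c < 21504, e c * t = e (st ST s c) := by
    have k : ∀ s t, (∀ p < 168, e (128 * p) * t = e (get 15 ST (168 * s + p))) → ∀ c < 21504, e c * t = e (st ST s c) :=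
      fun s t k c hc => by
        rw [sp, mul_assoc, k _ (by omega), he, hκ, h.el_lq (m7 c)]; rfl
    intro s hs
    interval_cases s
    · exact ⟨f, fun c hc => by rw [Nat.zero_add, (c2 c hc).1.1, hκ, h.af.kap' h.cl],
        k _ _ fun p hp => by rw [Nat.zero_add, (c1 p hp).1.1, he, h.el_sf]⟩
    · exact ⟨g, fun c hc => by rw [(c2 c hc).1.2, hκ, h.ag.kap' h.cl], k _ _ fun p hp => by rw [(c1 p hp).1.2, he, h.el_sg]⟩
    · exact ⟨a, fun c hc => by rw [(c2 c hc).2, hκ, h.aa.kap' h.cl],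
        k _ _ fun p hp => by rw [(c1 p hp).2, he, h.el_sa hq hμ (by omega)]⟩
  have main : ∀ r < 168, (∀ c < 128, e (128 * r) * κ c = κ (get 7 AC (128 * r + c)) * e (128 * r)) ∧
      ∀ p < 168, get 15 MT (168 * r + p) < 21504 ∧ e (128 * p) * e (128 * r) = e (get 15 MT (168 * r + p)) := fun r => by
    induction r using Nat.strong_induction_on with
    | _ r ih =>
      intro hr
      rcases c5 r hr with rfl | ⟨⟨⟨a1, a2⟩, a3⟩, a4, a5⟩
      · refine ⟨fun c hc => by rw [Nat.zero_add, c3 c hc, e0, one_mul, mul_one], fun p hp => ?_⟩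
        rw [Nat.zero_add, c4 p hp, e0, mul_one]
        exact ⟨by omega, rfl⟩
      · obtain ⟨b1, b2⟩ := ih _ a1 (a1.trans hr)
        obtain ⟨t, t1, t2⟩ := gs _ a2
        have e1 : e (128 * r) = e (128 * pa r) * t := by rw [t2 _ (by omega), a3]
        refine ⟨fun c hc => by rw [a4 c hc, e1, mul_assoc, t1 c hc, ← mul_assoc, b1 _ (l7 _ _), mul_assoc],
          fun p hp => ⟨(a5 p hp).2, ?_⟩⟩
        rw [(a5 p hp).1, ← t2 _ (b2 p hp).1, ← (b2 p hp).2, e1, mul_assoc]
  have mm : ∀ a b, mu AC MT a b = qm (qm (a % 128) (get 7 AC (128 * (a / 128) + b % 128)))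
    (get 15 MT (168 * (b / 128) + a / 128) % 128) + 128 * (get 15 MT (168 * (b / 128) + a / 128) / 128) := fun _ _ => rfl
  have ea : ∀ q < 128, ∀ p, e (q + 128 * p) = κ q * e (128 * p) := fun q hq p => by rw [he, hκ]; exact el_add hq p
  rw [← he]
  refine ⟨fun a ha b hb => ?_, fun a ha b hb => ?_, fun a ha b hb E => ?_, e0, fun c hc => ?_⟩
  · have c1 := qm_lt (m7 a) (l7 AC (128 * (a / 128) + b % 128))
    rw [mm, ea _ (qm_lt c1 (m7 _)), km _ c1 _ (m7 _), km _ (m7 _) _ (l7 _ _), mul_assoc, ← sp,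
      ← ((main _ (by omega)).2 _ (by omega)).2, sp a, sp b, mul_assoc, mul_assoc, ← mul_assoc (e _), (main _ (by omega)).1 _ (m7 _),
      mul_assoc]
  · have c1 := qm_lt (qm_lt (m7 a) (l7 AC (128 * (a / 128) + b % 128))) (m7 (get 15 MT (168 * (b / 128) + a / 128)))
    have := ((main (b / 128) (by omega)).2 (a / 128) (by omega)).1
    rw [mm]; omega
  · have k : ∀ a < 21504, ∀ c < 128, e a * κ c * (e a)⁻¹ = κ (cj (a % 128) (get 7 AC (128 * (a / 128) + c))) := fun a ha c hc => by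
      rw [sp, mul_assoc (κ _), (main _ (by omega)).1 c hc, hκ, ← h.cl.kap_cj (m7 _) (l7 _ _)]; group
    have : a / 128 = b / 128 := (c6 _ (by omega) _ (by omega)).resolve_right fun ⟨c, hc, ne⟩ => ne (by
      have c7 : c < 128 := by simp at hc; omega
      have e1 := k a ha c c7
      rw [E, k b hb c c7, hκ] at e1
      have := h.cl.kap_inj (cj_spec _ (m7 _) _ (l7 _ _)).1 (cj_spec _ (m7 _) _ (l7 _ _)).1 e1
      rw [← (cj_spec _ (m7 a) _ (l7 _ _)).2.1, ← this, (cj_spec _ (m7 b) _ (l7 _ _)).2.1])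
    rw [sp a, sp b, this, mul_left_inj, hκ] at E
    have := h.cl.kap_inj (m7 _) (m7 _) E
    omega
  · rw [he, el_kap (q := 1) (by decide), kap_one, el, nf]
    refine (Commute.mul_left (h.cl.kap_z (m7 c)) (Commute.mul_left (Commute.mul_left (Commute.pow_left h.af.1 _)
      (Commute.pow_left h.ag.1 _)) ?_)).eq
    generalize c / 2688 = m
    rcases m with _ | k
    exacts [Commute.one_left _, Commute.mul_left h.aa.1 (Commute.pow_left h.af.1 _)]

/-- build a table -/
noncomputable def mk (w : ℕ) (F : ℕ → ℕ → ℕ) (n : ℕ) : ℕ :=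
  Nat.rec (motive := fun _ => ℕ → ℕ) (fun T => T)
    (fun i ih T => force (n - 1 - i) fun j => force (Nat.add T (Nat.shiftLeft (F T j) (Nat.mul w j))) ih) n 0

/-- build the tables, check them and continue -/
noncomputable def ok (X q0 μ : ℕ) (k : (ℕ → ℕ → ℕ) → Bool) : Bool :=
  force (mk 15 (fun _ i => force (128 * (i % 168)) fun c => nd 0 [sf c, sg c, sa q0 μ c] (i / 168)) 504) fun ST =>
  force (mk 7 (fun _ i => ap (nd 0 [XF, XG, X] (i / 128)) (i % 128)) 384) fun AT =>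
  force (mk 896 (fun T r => force (pa r) fun r0 => force (ge r) fun s =>
    mk 7 (fun _ c => Nat.rec c (fun _ _ => get 7 T (128 * r0 + get 7 AT (128 * s + c))) r) 128) 168) fun AC =>
  force (mk 2520 (fun T r => force (pa r) fun r0 => force (ge r) fun s =>
    mk 15 (fun _ p => Nat.rec (128 * p) (fun _ _ => st ST s (get 15 T (168 * r0 + p))) r) 168) 168) fun MT =>
  band (chk X q0 μ ST AT AC MT) (k (mu AC MT))

theorem force_ex {x : ℕ} {k : ℕ → Bool} (h : force x k = true) : ∃ y, k y = true := ⟨x, h⟩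

theorem ok_spec {k : (ℕ → ℕ → ℕ) → Bool} (h : ok X q0 μ k = true) :
    ∃ ST AT AC MT, chk X q0 μ ST AT AC MT = true ∧ k (mu AC MT) = true := by
  unfold ok at h
  obtain ⟨ST, h⟩ := force_ex h
  obtain ⟨AT, h⟩ := force_ex h
  obtain ⟨AC, h⟩ := force_ex h
  obtain ⟨MT, h⟩ := force_ex h
  exact ⟨ST, AT, AC, MT, band_eq_true.1 h⟩

end H03.HE
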