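import Mathlib
import Cfsg.Agent.H03.HE2

/-!
Groups of shape `2^{1+6}.L3(2)`: counting square roots (namespace `H03.HE`).
`cn`, `nr`, `bad`, `CM.bad`.
-/

set_option autoImplicit false
set_option maxRecDepth 100000

namespace H03.HE
open H13 H14.PK

/-- counting -/
noncomputable def cn (P : ℕ → Bool) (n : ℕ) : ℕ :=
  Nat.rec (motive := fun _ => ℕ → ℕ) (fun c => c) (fun i ih c => force (Bool.rec c (Nat.succ c) (P i)) ih) n 0

theorem cn_eq (P : ℕ → Bool) (n : ℕ) : cn P n = ((Finset.range n).filter fun i => P i = true).card := by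
  have : ∀ n c : ℕ, Nat.rec (motive := fun _ => ℕ → ℕ) (fun c => c) (fun i ih c => force (Bool.rec c (Nat.succ c) (P i)) ih) n c =
      c + ((Finset.range n).filter fun i => P i = true).card := fun n => by
    induction n with
    | zero => simp
    | succ n ih =>
      intro c
      rw [Finset.range_add_one, Finset.filter_insert]
      refine (ih _).trans ?_
      cases h : P n
      · simp
      · rw [if_pos rfl, Finset.card_insert_of_notMem (by simp)]
        change c + 1 + _ = _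
        omega
  simpa [cn] using this n 0

noncomputable def al (mu : ℕ → ℕ → ℕ) (u : ℕ) : ℕ := cn (fun c => band (Nat.beq (mu c c) 1) (Nat.beq (mu c u) (mu u c))) 21504
noncomputable def be (mu : ℕ → ℕ → ℕ) (u : ℕ) : ℕ := cn (fun c => Nat.beq (mu c c) u) 21504

/-- a sparse table -/
noncomputable def spT (P n : ℕ) : ℕ :=
  Nat.rec 0 (fun i ih => force ih fun T => force (get 30 P i) fun x => Nat.add T (Nat.shiftLeft (x / 32768) (15 * (x % 32768)))) n

/-- the checks -/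
noncomputable def bad (V R : List ℕ) (rs P n : ℕ) (mu : ℕ → ℕ → ℕ) : Bool := force (spT P n) fun T =>
  band (band (allLt (fun c => bor (Nat.blt 0 (mu c c)) (bor (Nat.blt c 2) (force (get 15 T c) fun t => band (Nat.blt t 21504)
      (force (mu c t) fun d => bor (band (memL c V) (Nat.beq d (mu t rs))) (band (bn (memL c V)) (anyL (fun r => Nat.beq d (mu t r)) R))))))
      21504)
    (allL (fun r => band (Nat.blt r 21504) (Nat.blt (be mu r) (al mu r))) R))
  (band (band (band (Nat.blt rs 21504) (Nat.ble (be mu rs) (al mu rs))) (band (memL 0 V) (memL 1 V)))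
    (allL (fun v => band (band (Nat.blt v 128) (Nat.beq (mu v v) 0))
      (allL (fun w => band (memL (mu v w) V) (Nat.beq (mu v w) (mu w v))) V)) V))

variable {G : Type*} [Group G] {mu : ℕ → ℕ → ℕ} {e : ℕ → G}

/-- the number of square roots of `y` which commute with `w` -/
noncomputable def nr (y w : G) : ℕ := Set.ncard {x : G | x * x = y ∧ x * w = w * x}

theorem nr_cj (g y w : G) : nr (g * y * g⁻¹) (g * w * g⁻¹) = nr y w := by
  rw [nr, nr, ← Set.ncard_image_of_injective {x : G | x * x = y ∧ x * w = w * x} (MulAut.conj g).injective]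
  congr 1
  ext x
  obtain ⟨x, rfl⟩ := (MulAut.conj g).surjective x
  rw [(MulAut.conj g).injective.mem_set_image]
  simp only [Set.mem_ofPred_eq, MulAut.conj_apply, conj_mul, mul_left_inj, mul_right_inj]

namespace CM

variable (h : CM mu e) (hs : ∀ x, x * e 1 = e 1 * x → ∃ c < 21504, e c = x)
include h

theorem eq {a b : ℕ} (ha : a < 21504) (hb : b < 21504) : e a = e b ↔ a = b := ⟨h.inj a ha b hb, congrArg e⟩

theorem mul_eq {a b c d : ℕ} (ha : a < 21504) (hb : b < 21504) (hc : c < 21504) (hd : d < 21504) :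
    mu a b = mu c d ↔ e a * e b = e c * e d := by
  rw [h.mul a ha b hb, h.mul c hc d hd, h.eq (h.lt a ha b hb) (h.lt c hc d hd)]

theorem mul_eq' {a b c : ℕ} (ha : a < 21504) (hb : b < 21504) (hc : c < 21504) : mu a b = c ↔ e a * e b = e c := by
  rw [h.mul a ha b hb, h.eq (h.lt a ha b hb) hc]

include hs

theorem count {P : G → Prop} {B : ℕ → Bool} (h1 : ∀ x, P x → x * e 1 = e 1 * x) (h2 : ∀ c < 21504, B c = true ↔ P (e c)) :
    Set.ncard {x | P x} = cn B 21504 := by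
  rw [cn_eq, ← Set.ncard_coe_finset, ← Set.InjOn.ncard_image (f := e) fun a ha b hb =>
    h.inj a (by simpa using (Finset.mem_filter.1 ha).1) b (by simpa using (Finset.mem_filter.1 hb).1)]
  congr 1
  ext x
  simp only [Set.mem_ofPred_eq, Set.mem_image, Finset.coe_filter, Finset.mem_range]
  refine ⟨fun p => ?_, fun ⟨c, ⟨hc, b⟩, r⟩ => r ▸ (h2 c hc).1 b⟩
  obtain ⟨c, hc, rfl⟩ := hs x (h1 x p)
  exact ⟨c, ⟨hc, (h2 c hc).2 p⟩, rfl⟩

theorem al_eq {u : ℕ} (hu : u < 21504) : nr (e 1) (e u) = al mu u :=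
  h.count hs (fun x p => by rw [← p.1, mul_assoc]) fun c hc => by
    rw [band_eq_true, Nat.beq_eq, Nat.beq_eq, h.mul_eq' hc hc (by decide), h.mul_eq hc hu hu hc]

theorem be_eq {u : ℕ} (hu : u < 21504) : nr (e u) (e 1) = be mu u :=
  h.count hs (fun x p => p.2) fun c hc => by
    rw [Nat.beq_eq, h.mul_eq' hc hc hu, and_iff_left (h.cz c hc)]

theorem bad {V R : List ℕ} {rs P n : ℕ} (b : bad V R rs P n mu = true) :
    ∃ A : Subgroup G, IsMulCommutative A ∧ (∀ x ∈ A, ∃ v < 128, e v = x) ∧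
      ∀ x, x ∈ A ↔ x * e 1 = e 1 * x ∧ (x = 1 ∨ IsConj (e 1) x) := by
  unfold HE.bad at b
  replace b := force_ex b
  obtain ⟨T, b⟩ := b
  simp only [band_eq_true, bor_eq_true, allLt_iff, allL_iff, anyL_iff, bn_iff, Nat.beq_eq, Nat.blt_eq, Nat.ble_eq, force_eq,
    memL_iff] at b
  obtain ⟨⟨b1, b2⟩, ⟨⟨b3, b4⟩, b5, b6⟩, b7⟩ := b
  have z2 : e 1 * e 1 = 1 := by rw [← h.zero, ← h.mul_eq' (by decide) (by decide) (by decide)]; exact (b7 1 b6).1.2
  have z1 : e 1 ≠ 1 := fun r => absurd (h.inj 1 (by decide) 0 (by decide) (r.trans h.zero.symm)) (by decide)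
  have cj : ∀ {c t r}, c < 21504 → t < 21504 → r < 21504 → mu c t = mu t r →
      e c = e t * e r * (e t)⁻¹ ∧ nr (e 1) (e c) = al mu r ∧ nr (e c) (e 1) = be mu r := fun {c t r} hc ht hr E => by
    have e1 := eq_mul_inv_of_mul_eq ((h.mul_eq hc ht ht hr).1 E)
    have e2 : e 1 = e t * e 1 * (e t)⁻¹ := eq_mul_inv_of_mul_eq (h.cz t ht).symm
    exact ⟨e1, by rw [← h.al_eq hs hr, ← nr_cj (e t) (e 1) (e r), ← e1, ← e2],
      by rw [← h.be_eq hs hr, ← nr_cj (e t) (e r) (e 1), ← e1, ← e2]⟩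
  have k1 : ∀ g : G, g * e 1 * g⁻¹ * e 1 = e 1 * (g * e 1 * g⁻¹) → g * e 1 * g⁻¹ ≠ e 1 →
      nr (g * e 1 * g⁻¹) (e 1) ≤ nr (e 1) (g * e 1 * g⁻¹) ∧ (nr (g * e 1 * g⁻¹) (e 1) < nr (e 1) (g * e 1 * g⁻¹) ∨
        IsConj (e 1) (e rs) ∧ ∃ v ∈ V, e v = g * e 1 * g⁻¹) := fun g c ne => by
    obtain ⟨u, hu, E⟩ := hs _ c
    have u2 : mu u u = 0 := (h.mul_eq' hu hu (by decide)).2 (by rw [E, conj_mul, z2, h.zero]; simp)
    rcases b1 u hu with r | r | ⟨ht, ⟨r1, r2⟩ | ⟨-, r, r1, r2⟩⟩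
    · omega
    · interval_cases u
      · rw [h.zero, eq_comm, conj_eq_one_iff] at E; exact (z1 E).elim
      · exact (ne E.symm).elim
    · obtain ⟨e1, e2, e3⟩ := cj hu ht b3 r2
      rw [← E, e2, e3]
      exact ⟨b4, .inr ⟨(isConj_iff.2 ⟨g, E.symm⟩).trans (isConj_iff.2 ⟨_, e1.symm⟩).symm, u, r1, rfl⟩⟩
    · obtain ⟨-, e2, e3⟩ := cj hu ht (b2 r r1).1 r2
      rw [← E, e2, e3]
      exact ⟨(b2 r r1).2.le, .inl (b2 r r1).2⟩
  have k2 : ∀ x, x * e 1 = e 1 * x → IsConj (e 1) x → x = e 1 ∨ IsConj (e 1) (e rs) ∧ ∃ v ∈ V, e v = x := fun x c i => by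
    obtain ⟨g, rfl⟩ := isConj_iff.1 i
    refine or_iff_not_imp_left.2 fun ne => ((k1 g c ne).2.resolve_left fun lt => ?_)
    have := (k1 g⁻¹ (by
      rw [← mul_left_inj g⁻¹, ← mul_right_inj g]
      calc _ = e 1 * (g * e 1 * g⁻¹) := by group
        _ = _ := by rw [← c]; group) (fun r => ne (by
      calc _ = g * (g⁻¹ * e 1 * g⁻¹⁻¹) * g⁻¹ := by rw [r]
        _ = _ := by group))).1
    rw [← nr_cj g, ← nr_cj g (e 1), show g * (g⁻¹ * e 1 * g⁻¹⁻¹) * g⁻¹ = e 1 by group] at this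
    omega
  have l : ∀ v ∈ V, v < 21504 := fun v hv => (b7 v hv).1.1.trans (by decide)
  by_cases hc : IsConj (e 1) (e rs)
  · refine ⟨{ carrier := {x | ∃ v ∈ V, e v = x}
              one_mem' := ⟨0, b5, h.zero⟩
              mul_mem' := by
                rintro _ _ ⟨v, hv, rfl⟩ ⟨w, hw, rfl⟩
                exact ⟨_, ((b7 v hv).2 w hw).1, (h.mul v (l v hv) w (l w hw)).symm⟩
              inv_mem' := by
                rintro _ ⟨v, hv, rfl⟩
                exact ⟨v, hv, eq_inv_of_mul_eq_one_left (((h.mul_eq' (l v hv) (l v hv) (by decide)).1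
                  (b7 v hv).1.2).trans h.zero)⟩ }, ⟨⟨?_⟩⟩, fun x ⟨v, hv, E⟩ => ⟨v, (b7 v hv).1.1, E⟩, fun x => ⟨?_, ?_⟩⟩
    · rintro ⟨_, v, hv, rfl⟩ ⟨_, w, hw, rfl⟩
      exact Subtype.ext ((h.mul_eq (l v hv) (l w hw) (l w hw) (l v hv)).1 ((b7 v hv).2 w hw).2)
    · rintro ⟨v, hv, rfl⟩
      refine ⟨h.cz v (l v hv), ?_⟩
      rcases b1 v (l v hv) with r | r | ⟨ht, ⟨-, r⟩ | ⟨r, -⟩⟩
      · rw [(b7 v hv).1.2] at r; omega
      · interval_cases v
        exacts [.inl h.zero, .inr (IsConj.refl _)]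
      · exact .inr (hc.trans (isConj_iff.2 ⟨_, (cj (l v hv) ht b3 r).1.symm⟩))
      · exact (r hv).elim
    · rintro ⟨c, rfl | i⟩
      · exact ⟨0, b5, h.zero⟩
      · rcases k2 x c i with rfl | ⟨-, r⟩
        exacts [⟨1, b6, rfl⟩, r]
  · have m : ∀ x, x ∈ Subgroup.zpowers (e 1) ↔ x = 1 ∨ x = e 1 := fun x => by
      refine ⟨?_, by rintro (rfl | rfl) <;> simp⟩
      rintro ⟨k, rfl⟩
      have h2 : e 1 ^ (2 : ℤ) = 1 := by rw [zpow_two, z2]
      rcases Int.emod_two_eq_zero_or_one k with r | r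
      · left; simp only; rw [zpow_eq_zpow_emod k h2, r, zpow_zero]
      · right; simp only; rw [zpow_eq_zpow_emod k h2, r, zpow_one]
    refine ⟨Subgroup.zpowers (e 1), inferInstance, fun x hx => ?_, fun x => (m x).trans ⟨?_, ?_⟩⟩
    · rcases (m x).1 hx with rfl | rfl
      exacts [⟨0, by decide, h.zero⟩, ⟨1, by decide, rfl⟩]
    · rintro (rfl | rfl)
      exacts [⟨by simp, .inl rfl⟩, ⟨rfl, .inr (IsConj.refl _)⟩]
    · rintro ⟨c, rfl | i⟩
      exacts [.inl rfl, .inr ((k2 x c i).resolve_right fun r => hc r.1)]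

end CM

end H03.HE
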