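import Mathlib
import Cfsg.Agent.H03.HE2
import Cfsg.Agent.H03.LX1

/-!
Groups of shape `2^{1+6}.L3(2)`: the heptad (namespace `H03.HE`).
`Base`, `Base.gens`, `cf`, `Hep`, `Base.hep`.
-/

set_option autoImplicit false
set_option linter.unusedSectionVars false

namespace H03.HE
open Cfsg BG H04 Subgroup
open scoped commutatorElement

variable {G : Type*} [Group G] [Finite G] {Q : Subgroup G} {z f g a x y u v w : G}

/-- the hypothesis on the centraliser of `z` -/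
structure Base (Q : Subgroup G) (z : G) : Prop where
  es : ES Q z
  card : Nat.card Q = 128
  quo : ∃ π : C_[z] →* Matrix.SpecialLinearGroup (Fin 3) (ZMod 2), Function.Surjective π ∧ ∀ x, π x = 1 ↔ (x : G) ∈ Q

theorem two_cases (hz : orderOf z = 2) (h : x ∈ zpowers z) : x = 1 ∨ x = z := by
  obtain ⟨k, rfl⟩ := h
  have h2 : z ^ (2 : ℤ) = 1 := by rw [zpow_ofNat, ← hz, pow_orderOf_eq_one]
  rcases Int.emod_two_eq_zero_or_one k with e | e
  · left; simp only; rw [zpow_eq_zpow_emod k h2, e, zpow_zero]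
  · right; simp only; rw [zpow_eq_zpow_emod k h2, e, zpow_one]

def mF : Matrix.SpecialLinearGroup (Fin 3) (ZMod 2) := ⟨!![0, 1, 1; 1, 1, 0; 1, 0, 0], by decide⟩
def mF3 : Matrix.SpecialLinearGroup (Fin 3) (ZMod 2) := ⟨!![1, 1, 0; 1, 1, 1; 0, 1, 0], by decide⟩
def mH : Matrix.SpecialLinearGroup (Fin 3) (ZMod 2) := ⟨!![1, 0, 1; 1, 1, 1; 1, 0, 0], by decide⟩
def mA : Matrix.SpecialLinearGroup (Fin 3) (ZMod 2) := ⟨!![0, 0, 1; 1, 1, 1; 1, 0, 0], by decide⟩

theorem sl_gens : ∃ F H A : Matrix.SpecialLinearGroup (Fin 3) (ZMod 2), F ≠ 1 ∧ F ^ 7 = 1 ∧ H ^ 3 = 1 ∧ H * F = F ^ 2 * H ∧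
    A * H = H ^ 2 * A ∧ A * A = 1 ∧ (A * F) ^ 3 = 1 := by
  have e : mF ^ 3 = mF3 := Subtype.ext (by decide +kernel)
  refine ⟨mF, mH, mA, fun r => absurd (congrArg Subtype.val r) (by decide +kernel), ?_, Subtype.ext (by decide +kernel),
    Subtype.ext (by decide +kernel), Subtype.ext (by decide +kernel), Subtype.ext (by decide +kernel),
    Subtype.ext (by decide +kernel)⟩
  rw [show 7 = 3 + 3 + 1 from rfl, pow_succ, pow_add, e]
  exact Subtype.ext (by decide +kernel)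

/-- conjugation by a power -/
def cf (f : G) (i : ℕ) (u : G) : G := f ^ i * u * (f ^ i)⁻¹

theorem cf_zero : cf f 0 u = u := by simp [cf]
theorem cf_mul (i : ℕ) : cf f i (u * v) = cf f i u * cf f i v := by simp [cf]
theorem cf_inv (i : ℕ) : cf f i u⁻¹ = (cf f i u)⁻¹ := by simp [cf, mul_assoc]
theorem cf_cf (i j : ℕ) : cf f i (cf f j u) = cf f (i + j) u := by unfold cf; group
theorem cf_succ (i : ℕ) : f * cf f i u * f⁻¹ = cf f (i + 1) u := by unfold cf; group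
theorem cf_mod (f7 : f ^ 7 = 1) (i : ℕ) : cf f (i % 7) u = cf f i u := by rw [cf, cf, ← pow_eq_pow_mod i f7]
theorem cf_z (hf : f ∈ C_[z]) (i : ℕ) : cf f i z = z := mul_inv_eq_iff_eq_mul.2 (mem_cent1.1 (pow_mem hf i))

open Classical in
/-- the alternating form -/
noncomputable def bf (x y : G) : ZMod 2 := if x * y = y * x then 0 else 1

open Classical in
/-- the quadratic form -/
noncomputable def qf (x : G) : ZMod 2 := if x * x = 1 then 0 else 1

/-- power of `z` -/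
def zt (z : G) (t : ZMod 2) : G := if t = 0 then 1 else z

theorem bf_symm : bf x y = bf y x := by classical exact if_congr eq_comm rfl rfl
theorem bf_self : bf x x = 0 := if_pos rfl
theorem bf_cf (i : ℕ) : bf (cf f i x) (cf f i y) = bf x y := by
  classical exact if_congr (by rw [cf, cf, conj_mul, conj_mul, mul_left_inj, mul_right_inj]) rfl rfl
theorem qf_cf (i : ℕ) : qf (cf f i x) = qf x := by
  classical exact if_congr (by rw [cf, conj_mul, conj_eq_one_iff]) rfl rfl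

/-- the trace form -/
noncomputable def tr (f y u : G) : ZMod 2 := bf y (cf f 0 u) + bf y (cf f 1 u) + bf y (cf f 2 u) + bf y (cf f 3 u) +
  bf y (cf f 4 u) + bf y (cf f 5 u) + bf y (cf f 6 u)

/-- a heptad -/
structure Hep (Q : Subgroup G) (z f u : G) : Prop where
  mem : u ∈ Q
  sq : u * u = z
  ac : ∀ k < 7, 0 < k → u * cf f k u = z * (cf f k u * u)
  pr : cf f 0 u * cf f 1 u * cf f 2 u * cf f 3 u * cf f 4 u * cf f 5 u * cf f 6 u = 1

def sS (s1 s2 s3 : ZMod 2) (d : ℕ) : ZMod 2 := [0, s1, s2, s3, s3, s2, s1].getD (d % 7) 0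
def bS (S : ℕ → ZMod 2) (l m : List ℕ) : ZMod 2 := (l.map fun i => (m.map fun j => S (j + 6 * i)).sum).sum
def qS (q : ZMod 2) (S : ℕ → ZMod 2) : List ℕ → ZMod 2
  | [] => 0
  | i :: l => q + qS q S l + bS S [i] l

theorem cands : ∀ q s1 s2 s3 : ZMod 2, (s1 = 0 ∧ s2 = 0 ∧ s3 = 0) ∨ ∃ l ∈ [[0, 1, 2, 3], [0, 1, 3, 4], [0, 2], [0, 1, 3, 5], [0, 3],
    [0, 1], [0, 1, 2, 3, 4, 5], [0, 1, 2], [0, 1, 4], [0, 2, 4], [0]], qS q (sS s1 s2 s3) l = 1 ∧
      ∀ k < 7, 0 < k → bS (sS s1 s2 s3) l (l.map (k + ·)) = 1 := by decide +kernel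

namespace Base

variable (h : Base Q z)
include h

theorem ord : orderOf z = 2 := h.es.aes.ord
theorem z2 : z * z = 1 := by rw [← pow_two, ← h.ord, pow_orderOf_eq_one]
theorem z1 : z ≠ 1 := fun e => by have := h.ord; rw [e, orderOf_one] at this; omega
theorem zc (hq : x ∈ Q) : x * z = z * x := mem_cent1.1 (aes_le h.es.aes hq)
theorem cj (hf : f ∈ C_[z]) (hx : x ∈ Q) : f * x * f⁻¹ ∈ Q := conj_mem_of_norm (h.es.norm hf) hx
theorem cfm (hf : f ∈ C_[z]) (hx : x ∈ Q) (i : ℕ) : cf f i x ∈ Q := h.cj (pow_mem hf i) hx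

theorem cardH : Nat.card C_[z] = 21504 := by
  obtain ⟨π, h1, h2⟩ := h.quo
  have e : π.ker = Q.subgroupOf C_[z] := by ext x; rw [MonoidHom.mem_ker, h2, mem_subgroupOf]
  have c : Nat.card (Matrix.SpecialLinearGroup (Fin 3) (ZMod 2)) = 168 := by
    rw [Nat.card_eq_fintype_card]; decide +kernel
  rw [← π.ker.card_mul_index, index_ker, MonoidHom.range_eq_top.2 h1, card_top, e, card_subgroupOf (aes_le h.es.aes), h.card, c]

theorem pow4 (hx : x ∈ Q) : x ^ 4 = 1 := by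
  rcases two_cases h.ord (h.es.aes.pow x hx) with e | e <;> rw [show 4 = 2 * 2 from rfl, pow_mul, e]
  exacts [one_pow _, (pow_two z).trans h.z2]

theorem conj_mod {p : ℕ} [Fact p.Prime] (hp : ¬ p ∣ 128) (hx : x ∈ C_[z]) (h1 : x ^ p = 1) (h2 : y ^ p = 1) (e : x * y⁻¹ ∈ Q) :
    ∃ q ∈ Q, q⁻¹ * x * q = y := by
  have m : ∀ q ∈ Q, x * q * y⁻¹ ∈ Q := fun q hq => by simpa [mul_assoc] using mul_mem (h.cj hx hq) e
  let σ : Equiv.Perm Q := Equiv.ofBijective (fun q => ⟨_, m q q.2⟩) (Finite.injective_iff_bijective.1 fun a b e => by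
    simpa using e)
  have k : ∀ n (q : Q), ((σ ^ n) q : G) = x ^ n * q * (y ^ n)⁻¹ := fun n => by
    induction n with
    | zero => simp
    | succ n ih => intro q; rw [pow_succ, Equiv.Perm.mul_apply, ih]; change _ * (x * q * y⁻¹) * _ = _; group
  have := Fintype.ofFinite Q
  obtain ⟨q, hq⟩ := Equiv.Perm.exists_fixed_point_of_prime (p := p) (n := 1) (σ := σ)
    (by rwa [← Nat.card_eq_fintype_card, h.card]) (by ext q; simp [k, h1, h2])
  refine ⟨q, q.2, ?_⟩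
  have : x * q * y⁻¹ = q := congrArg Subtype.val hq
  rw [mul_assoc, eq_mul_of_mul_inv_eq this, inv_mul_cancel_left]

theorem gens : ∃ f ∈ C_[z], ∃ g ∈ C_[z], ∃ a ∈ C_[z], f ∉ Q ∧ f ^ 7 = 1 ∧ g ^ 3 = 1 ∧ g * f = f ^ 2 * g ∧ a * g = g ^ 2 * a ∧
    ∀ d ∈ Q, d * a * (d * a) ∈ Q ∧ (d * a * f) ^ 3 ∈ Q := by
  have : Fact (Nat.Prime 7) := ⟨by decide⟩
  obtain ⟨π, h1, h2⟩ := h.quo
  obtain ⟨F, H, A, e0, e1, e2, e3, e4, e5, e6⟩ := sl_gens
  have p4 : ∀ x : C_[z], π x = 1 → x ^ 4 = 1 := fun x e => Subtype.ext (h.pow4 ((h2 x).1 e))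
  have cm : ∀ (p : ℕ) [Fact p.Prime], ¬ p ∣ 128 → ∀ x y : C_[z], x ^ p = 1 → y ^ p = 1 → π x = π y →
      ∃ q, π q = 1 ∧ q⁻¹ * x * q = y := fun p _ hp x y hx hy e => by
    obtain ⟨q, hq, r⟩ := h.conj_mod hp x.2 (congrArg Subtype.val hx) (congrArg Subtype.val hy)
      ((h2 (x * y⁻¹)).1 (by simp [e]))
    exact ⟨⟨q, aes_le h.es.aes hq⟩, (h2 _).2 hq, Subtype.ext r⟩
  obtain ⟨f, pf, f7⟩ : ∃ f, π f = F ∧ f ^ 7 = 1 := by
    obtain ⟨f, rfl⟩ := h1 F
    exact ⟨f ^ 8, by rw [map_pow, pow_succ, e1, one_mul], by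
      rw [← pow_mul, show 8 * 7 = 7 * 4 * 2 from rfl, pow_mul, pow_mul, p4 _ (by rw [map_pow, e1]), one_pow]⟩
  obtain ⟨g, pg, g3, gf⟩ : ∃ g, π g = H ∧ g ^ 3 = 1 ∧ g * f = f ^ 2 * g := by
    obtain ⟨g, rfl⟩ := h1 H
    obtain ⟨q, hq, r⟩ := cm 7 (by decide) (g * f * g⁻¹) (f ^ 2) (by rw [conj_pow, f7]; simp)
      (by rw [← pow_mul, mul_comm, pow_mul, f7, one_pow]) (by simp [pf, e3])
    have s : SemiconjBy (q⁻¹ * g) f (f ^ 2) := by rw [SemiconjBy, ← r]; group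
    have p : π (q⁻¹ * g) = π g := by simp [hq]
    generalize q⁻¹ * g = k at s p
    refine ⟨k ^ 4, by rw [map_pow, p, pow_succ, e2, one_mul], by rw [← pow_mul, mul_comm, pow_mul, p4 _ (by rw [map_pow, p, e2])], ?_⟩
    have s' : ∀ n, k * f ^ n = f ^ (2 * n) * k := fun n => by rw [pow_mul]; exact (s.pow_right n).eq
    calc _ = k * (k * (k * (k * f ^ 1))) := by simp only [pow_succ, pow_zero, one_mul, mul_assoc]
      _ = f ^ 16 * k ^ 4 := by
        rw [s', ← mul_assoc k (f ^ _), s', mul_assoc, ← mul_assoc k (f ^ _), s', mul_assoc, ← mul_assoc k (f ^ _), s']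
        simp only [pow_succ k, pow_zero, one_mul, mul_assoc]
      _ = _ := by rw [pow_eq_pow_mod 16 f7]
  obtain ⟨a, pa, ag⟩ : ∃ a, π a = A ∧ a * g = g ^ 2 * a := by
    obtain ⟨a, rfl⟩ := h1 A
    obtain ⟨q, hq, r⟩ := cm 3 (by decide) (a * g * a⁻¹) (g ^ 2) (by rw [conj_pow, g3]; simp)
      (by rw [← pow_mul, mul_comm, pow_mul, g3, one_pow]) (by simp [pg, e4])
    exact ⟨q⁻¹ * a, by simp [hq], by rw [← r]; group⟩
  refine ⟨f, f.2, g, g.2, a, a.2, fun c => e0 (pf ▸ (h2 f).2 c), congrArg Subtype.val f7, congrArg Subtype.val g3,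
    congrArg Subtype.val gf, congrArg Subtype.val ag, fun d hd => ?_⟩
  have pd := (h2 ⟨d, aes_le h.es.aes hd⟩).2 hd
  exact ⟨(h2 (⟨d, aes_le h.es.aes hd⟩ * a * (⟨d, aes_le h.es.aes hd⟩ * a))).1 (by simp [pd, pa, e5]),
    (h2 ((⟨d, aes_le h.es.aes hd⟩ * a * f) ^ 3)).1 (by simp [pd, pa, pf, e6])⟩

theorem zt_add (s t : ZMod 2) : zt z (s + t) = zt z s * zt z t := by
  have : ∀ t : ZMod 2, t = 0 ∨ t = 1 := by decide
  rcases this s with rfl | rfl <;> rcases this t with rfl | rfl <;> simp [zt, h.z2, show (1 + 1 : ZMod 2) = 0 from rfl]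

theorem zt_inj {s t : ZMod 2} (e : zt z s = zt z t) : s = t := by
  have : ∀ t : ZMod 2, t = 0 ∨ t = 1 := by decide
  have := h.z1
  rcases ‹∀ t : ZMod 2, _› s with rfl | rfl <;> rcases ‹∀ t : ZMod 2, _› t with rfl | rfl <;> simp_all [zt, eq_comm]

theorem zt_mov (hx : x ∈ Q) (t : ZMod 2) (y : G) : x * (zt z t * y) = zt z t * (x * y) := by
  unfold zt; split_ifs
  · simp
  · rw [← mul_assoc, h.zc hx, mul_assoc]

theorem bf_spec (hx : x ∈ Q) (hy : y ∈ Q) : x * y = zt z (bf x y) * (y * x) := by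
  unfold bf; split_ifs with c
  · simp [zt, c]
  · rw [zt, if_neg (by decide), ← (two_cases h.ord (h.es.aes.comm x hx y hy)).resolve_left
      (fun e => c (commutatorElement_eq_one_iff_mul_comm.1 e)), commutatorElement_def]
    group

theorem qf_spec (hx : x ∈ Q) : x * x = zt z (qf x) := by
  unfold qf; split_ifs with c
  · simp [zt, c]
  · rw [zt, if_neg (by decide), (two_cases h.ord (pow_two x ▸ h.es.aes.pow x hx)).resolve_left c]

theorem bf_mul (hx : x ∈ Q) (hu : u ∈ Q) (hv : v ∈ Q) : bf x (u * v) = bf x u + bf x v := by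
  refine h.zt_inj (mul_right_cancel (b := u * v * x) ?_)
  rw [← h.bf_spec hx (mul_mem hu hv), ← mul_assoc, h.bf_spec hx hu, mul_assoc, mul_assoc, h.bf_spec hx hv, h.zt_mov hu, h.zt_add]
  simp only [mul_assoc]

theorem bf_mul' (hx : x ∈ Q) (hu : u ∈ Q) (hv : v ∈ Q) : bf (u * v) x = bf u x + bf v x := by
  rw [bf_symm, h.bf_mul hx hu hv, bf_symm, bf_symm (x := x)]

theorem bf_inv (hx : x ∈ Q) (hu : u ∈ Q) : bf x u⁻¹ = bf x u := by
  have := h.bf_mul hx hu (inv_mem hu)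
  rw [mul_inv_cancel, show bf x 1 = 0 by simp [bf]] at this
  revert this; generalize bf x u = s, bf x u⁻¹ = t; revert s t; decide

theorem qf_mul (hu : u ∈ Q) (hv : v ∈ Q) : qf (u * v) = qf u + qf v + bf u v := by
  refine h.zt_inj ?_
  rw [← h.qf_spec (mul_mem hu hv), mul_assoc, ← mul_assoc v, h.bf_spec hv hu, mul_assoc, h.zt_mov hu, mul_assoc, ← mul_assoc u u,
    h.qf_spec hu, h.qf_spec hv, ← h.zt_add, ← h.zt_add, add_comm, bf_symm]

theorem rad (hu : u ∈ Q) (e : ∀ y ∈ Q, bf y u = 0) : u ∈ zpowers z :=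
  h.es.cent fun y hy => by simpa [e y hy, zt] using h.bf_spec hy hu

variable (hf : f ∈ C_[z]) (f7 : f ^ 7 = 1)
include hf

theorem tr_mul (hy : y ∈ Q) (hu : u ∈ Q) (hv : v ∈ Q) : tr f y (u * v) = tr f y u + tr f y v := by
  simp only [tr, cf_mul, h.bf_mul hy (h.cfm hf hu _) (h.cfm hf hv _)]; ring

theorem tr_inv (hy : y ∈ Q) (hu : u ∈ Q) : tr f y u⁻¹ = tr f y u := by
  simp only [tr, cf_inv, h.bf_inv hy (h.cfm hf hu _)]

include f7

omit h hf in
theorem tr_cf (i : ℕ) : tr f y (cf f i u) = tr f y u := by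
  induction i with
  | zero => rw [cf_zero]
  | succ i ih =>
    rw [← ih, add_comm, ← cf_cf]
    generalize cf f i u = v
    simp only [tr, cf_cf, ← cf_mod f7 (6 + 1)]; ring

omit h hf in
theorem bf_ij (i j : ℕ) : bf (cf f i x) (cf f j y) = bf x (cf f (j + 6 * i) y) := by
  rw [← bf_cf (f := f) (x := x) i, cf_cf, ← cf_mod f7 j, ← cf_mod f7 (i + _), show (i + (j + 6 * i)) % 7 = j % 7 by omega]

omit h hf in
theorem bf_neg {i : ℕ} (hi : i ≤ 7) : bf x (cf f i y) = bf y (cf f (7 - i) x) := by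
  rw [bf_symm, ← bf_cf (f := f) (7 - i), cf_cf, ← cf_mod f7 (_ + _), show (7 - i + i) % 7 = 0 by omega, cf_zero, bf_symm]

theorem exists_u (hQ : f ∉ Q) : ∃ u ∈ Q, (∀ y ∈ Q, tr f y u = 0) ∧ ∃ i, bf u (cf f i u) ≠ 0 := by
  by_contra! hn
  have W1 : ∀ v ∈ Q, ∀ i, cf f i v * v⁻¹ ∈ Q ∧ ∀ y ∈ Q, tr f y (cf f i v * v⁻¹) = 0 := fun v hv i =>
    ⟨mul_mem (h.cfm hf hv i) (inv_mem hv), fun y hy => by
      rw [h.tr_mul hf hy (h.cfm hf hv i) (inv_mem hv), h.tr_inv hf hy hv, tr_cf f7, CharTwo.add_self_eq_zero]⟩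
  have k1 : ∀ u ∈ Q, (∀ y ∈ Q, tr f y u = 0) → ∀ w ∈ Q, (∀ y ∈ Q, tr f y w = 0) → ∀ i ≤ 7,
      bf u (cf f i w) = bf u (cf f (7 - i) w) := fun u hu tu w hw tw i hi => by
    have := hn _ (mul_mem hu hw) (fun y hy => by rw [h.tr_mul hf hy hu hw, tu y hy, tw y hy, add_zero]) i
    rw [cf_mul, h.bf_mul' (mul_mem (h.cfm hf hu _) (h.cfm hf hw _)) hu hw, h.bf_mul hu (h.cfm hf hu _) (h.cfm hf hw _),
      h.bf_mul hw (h.cfm hf hu _) (h.cfm hf hw _), hn u hu tu, hn w hw tw, zero_add, add_zero, bf_neg f7 (x := w) hi] at this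
    revert this; generalize bf u (cf f i w) = s, bf u (cf f (7 - i) w) = t; revert s t; decide
  have k2 : ∀ u ∈ Q, (∀ y ∈ Q, tr f y u = 0) → ∀ w ∈ Q, (∀ y ∈ Q, tr f y w = 0) → bf u w = 0 := fun u hu tu w hw tw => by
    have a := k1 u hu tu w hw tw
    have b := k1 u hu tu _ (h.cfm hf hw 1) (fun y hy => by rw [tr_cf f7, tw y hy])
    have t := tw u hu
    have a1 := a 1 (by decide); have a2 := a 2 (by decide); have a3 := a 3 (by decide)
    have b1 := b 1 (by decide); have b2 := b 2 (by decide); have b3 := b 3 (by decide)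
    simp only [cf_cf, Nat.reduceSub, Nat.reduceAdd, ← cf_mod f7 7, Nat.mod_self] at a1 a2 a3 b1 b2 b3
    rw [tr, ← a1, ← b3, ← a3, b2, ← a1] at t
    rw [← cf_zero (f := f) (u := w)]
    rw [← b3, ← a3, b2, ← a1] at a2
    rw [a2] at b1 t
    rw [← b1] at t ⊢
    revert t; generalize bf u (cf f 1 w) = s; revert s; decide
  refine hQ (h.es.inner hf fun v hv => ?_)
  obtain ⟨hu, tu⟩ := W1 v hv 1
  rw [show f * v * f⁻¹ = cf f 1 v by simp [cf]]
  generalize cf f 1 v * v⁻¹ = u at hu tu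
  refine h.rad hu fun y hy => ?_
  have k3 : ∀ i ≤ 7, bf y (cf f i u) = bf y u := fun i hi => by
    have := k2 u hu tu _ (W1 y hy (7 - i)).1 (W1 y hy (7 - i)).2
    rw [h.bf_mul hu (h.cfm hf hy _) (inv_mem hy), h.bf_inv hu hy, ← bf_neg f7 hi, bf_symm (x := u)] at this
    revert this; generalize bf y (cf f i u) = s, bf y u = t; revert s t; decide
  have := tu y hy
  rw [tr, k3 0 (by decide), k3 1 (by decide), k3 2 (by decide), k3 3 (by decide), k3 4 (by decide), k3 5 (by decide),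
    k3 6 (by decide)] at this
  revert this; generalize bf y u = s; revert s; decide

theorem hep (hQ : f ∉ Q) : ∃ u, Hep Q z f u := by
  obtain ⟨u, hu, tu, i, hi⟩ := h.exists_u hf f7 hQ
  obtain ⟨S, hS⟩ : ∃ S, S = sS (bf u (cf f 1 u)) (bf u (cf f 2 u)) (bf u (cf f 3 u)) := ⟨_, rfl⟩
  have s : ∀ d, bf u (cf f d u) = S d := fun d => by
    rw [← cf_mod f7, hS, sS]
    have : d % 7 < 7 := by omega
    generalize d % 7 = d at this
    interval_cases d
    exacts [by rw [cf_zero, bf_self]; rfl, rfl, rfl, rfl, bf_neg f7 (by decide), bf_neg f7 (by decide), bf_neg f7 (by decide)]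
  let P : List ℕ → G := fun l => (l.map fun i => cf f i u).prod
  have pc : ∀ i l, P (i :: l) = cf f i u * P l := fun _ _ => rfl
  have p1 : ∀ l, P l ∈ Q ∧ (∀ y ∈ Q, tr f y (P l) = 0) ∧ (∀ k, cf f k (P l) = P (l.map (k + ·))) ∧
      ∀ i, bf (cf f i u) (P l) = (l.map fun j => S (j + 6 * i)).sum := fun l => by
    induction l with
    | nil => exact ⟨one_mem _, fun y _ => by simp [P, tr, cf, bf], fun k => by simp [P, cf], fun i => by simp [P, bf]⟩
    | cons j l ih =>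
      refine ⟨mul_mem (h.cfm hf hu j) ih.1, fun y hy => ?_, fun k => ?_, fun i => ?_⟩
      · rw [pc, h.tr_mul hf hy (h.cfm hf hu j) ih.1, tr_cf f7, tu y hy, ih.2.1 y hy, add_zero]
      · rw [pc, cf_mul, cf_cf, ih.2.2.1, List.map_cons, pc]
      · rw [pc, h.bf_mul (h.cfm hf hu i) (h.cfm hf hu j) ih.1, ih.2.2.2, bf_ij f7, s]; rfl
  have p2 : ∀ m l, bf (P l) (P m) = bS S l m := fun m l => by
    induction l with
    | nil => simp [P, bf, bS]
    | cons j l ih => rw [pc, h.bf_mul' (p1 m).1 (h.cfm hf hu j) (p1 l).1, ih, (p1 m).2.2.2]; rfl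
  have p3 : ∀ l, qf (P l) = qS (qf u) S l := fun l => by
    induction l with
    | nil => simp [P, qf, qS]
    | cons j l ih => rw [pc, h.qf_mul (h.cfm hf hu j) (p1 l).1, ih, (p1 l).2.2.2, qf_cf, qS, bS]; simp
  rcases cands (qf u) (bf u (cf f 1 u)) (bf u (cf f 2 u)) (bf u (cf f 3 u)) with ⟨e1, e2, e3⟩ | ⟨l, -, e1, e2⟩
  · rw [s, hS, e1, e2, e3, sS] at hi
    have : i % 7 < 7 := by omega
    generalize i % 7 = d at this hi
    interval_cases d <;> exact (hi rfl).elim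
  rw [← hS] at e1 e2
  obtain ⟨hv, tv, cv, -⟩ := p1 l
  have q1 := h.qf_spec hv
  have b1 : ∀ k < 7, 0 < k → P l * cf f k (P l) = z * (cf f k (P l) * P l) := fun k h1 h2 => by
    rw [h.bf_spec hv (h.cfm hf hv k), cv, p2, e2 k h1 h2]; rfl
  rw [p3, e1, show zt z 1 = z from rfl] at q1
  generalize P l = v at hv tv q1 b1
  have m := h.cfm hf hv
  have m1 := mul_mem (m 0) (m 1)
  have m2 := mul_mem m1 (m 2)
  have m3 := mul_mem m2 (m 3)
  have m4 := mul_mem m3 (m 4)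
  have m5 := mul_mem m4 (m 5)
  rcases two_cases h.ord (h.rad (mul_mem m5 (m 6)) fun y hy => by
    rw [h.bf_mul hy m5 (m 6), h.bf_mul hy m4 (m 5), h.bf_mul hy m3 (m 4), h.bf_mul hy m2 (m 3), h.bf_mul hy m1 (m 2),
      h.bf_mul hy (m 0) (m 1)]
    exact tv y hy) with e | e
  · exact ⟨v, hv, q1, b1, e⟩
  have mv : ∀ {x}, x ∈ Q → ∀ y, x * (z * y) = z * (x * y) := fun hx y => by rw [← mul_assoc, h.zc hx, mul_assoc]
  have zz : ∀ y, z * (z * y) = y := fun y => by rw [← mul_assoc, h.z2, one_mul]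
  refine ⟨z * v, mul_mem h.es.aes.mem hv, by simp only [mul_assoc, mv hv, zz, q1], fun k h1 h2 => ?_, ?_⟩
  · simp only [cf_mul, cf_z hf, mul_assoc, mv hv, mv (m _), zz, b1 k h1 h2]
  · simp only [cf_mul, cf_z hf, mul_assoc, mv (m _), zz] at e ⊢
    rw [e, h.z2]

end Base

end H03.HE
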