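import Mathlib
import Cfsg.Agent.H03.HE4
import Cfsg.Agent.H03.HE5

/-!
Groups of shape `2^{1+6}.L3(2)`: the relations (namespace `H03.HE`).
`Hep.cl`, `Base.pre`, `Base.rel`.
-/

set_option autoImplicit false
set_option linter.unusedSectionVars false
set_option maxRecDepth 100000

namespace H03.HE
open Cfsg BG H04 Subgroup H13 H14.PK

variable {G : Type*} [Group G] [Finite G] {Q : Subgroup G} {z f g a x y u v w : G} {γ : ℕ → G}

noncomputable def gc (j : ℕ) : ℕ := nd 0 [2, 4, 8, 16, 32, 64, 127] j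
noncomputable def g2 (c : ℕ) : ℕ := ap XG (ap XG c)
noncomputable def pX (x0 x1 x3 : ℕ) : ℕ := x0 + 128 * (x1 + 128 * (g2 x1 + 128 * (x3 + 128 * (g2 (g2 x1) + 128 * g2 (g2 x3)))))

theorem tabC : ∀ c < 128, qm c c = 1 → (∀ k < 4, 0 < k → qm c (itr (ap XF) k c) = qm 1 (qm (itr (ap XF) k c) c)) →
    ∃ j < 7, c = gc j ∨ c = qm 1 (gc j) := by
  have : allLt (fun c => bor (bn (band (Nat.beq (qm c c) 1) (allLt (fun k => bor (Nat.beq k 0)
      (Nat.beq (qm c (itr (ap XF) k c)) (qm 1 (qm (itr (ap XF) k c) c)))) 4)))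
      (anyL (fun j => bor (Nat.beq c (gc j)) (Nat.beq c (qm 1 (gc j)))) [0, 1, 2, 3, 4, 5, 6])) 128 = true := by decide +kernel
  simp only [band_eq_true, bor_eq_true, allLt_iff, anyL_iff, bn_iff, Nat.beq_eq] at this
  intro c hc h1 h2
  obtain ⟨j, hj, e⟩ := (this c hc).resolve_left fun r => r ⟨h1, fun k hk => (Nat.eq_zero_or_pos k).imp_right (h2 k hk)⟩
  exact ⟨j, by simp at hj; omega, e⟩

theorem tabD : ∀ x0 < 128, g2 x0 = x0 → qm x0 x0 = 1 → ∀ x1 < 128, qm x1 x1 = 1 → ∀ x3 < 128, qm x3 x3 = 1 →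
    ap (pX x0 x1 x3) 127 = g2 x3 → (∀ i < 6, ap (pX x0 x1 x3) (ap (pX x0 x1 x3) (gc i)) / 2 = gc i / 2) →
    (∀ i < 6, itr (fun c => ap (pX x0 x1 x3) (ap XF c)) 3 (gc i) / 2 = gc i / 2) →
    ∃ d ∈ [0, 2, 44, 46], ∃ X ∈ [XA, XB, XC], ∀ i < 6, cj d (get 7 (pX x0 x1 x3) i) = get 7 X i := by
  have : allLt (fun x0 => bor (bn (band (Nat.beq (g2 x0) x0) (Nat.beq (qm x0 x0) 1))) (allLt (fun x1 =>
      bor (bn (Nat.beq (qm x1 x1) 1)) (allLt (fun x3 => bor (bn (Nat.beq (qm x3 x3) 1)) (force (pX x0 x1 x3) fun X =>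
        bor (bn (band (band (Nat.beq (ap X 127) (g2 x3)) (allLt (fun i => Nat.beq (ap X (ap X (gc i)) / 2) (gc i / 2)) 6))
          (allLt (fun i => Nat.beq (itr (fun c => ap X (ap XF c)) 3 (gc i) / 2) (gc i / 2)) 6)))
        (anyL (fun d => anyL (fun Y => allLt (fun i => Nat.beq (cj d (get 7 X i)) (get 7 Y i)) 6) [XA, XB, XC]) [0, 2, 44, 46])))
      128)) 128)) 128 = true := by decide +kernel
  simp only [band_eq_true, bor_eq_true, allLt_iff, anyL_iff, bn_iff, Nat.beq_eq, force_eq] at this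
  intro x0 l0 a0 b0 x1 l1 b1 x3 l3 b3 c1 c2 c3
  exact (((this x0 l0).resolve_left (fun r => r ⟨a0, b0⟩) x1 l1).resolve_left (fun r => r b1) x3 l3).resolve_left
    (fun r => r b3) |>.resolve_left fun r => r ⟨⟨c1, c2⟩, c3⟩

theorem tabE : ∀ t ∈ [(XA, 116), (XB, 92), (XC, 0)], ∀ c < 128,
    ((∀ i < 6, ap t.1 (ap t.1 (gc i)) = cj c (gc i)) → c < 2) ∧
    ((∀ i < 6, itr (fun c => ap t.1 (ap XF c)) 3 (gc i) = cj c (gc i)) → c = t.2 ∨ qm 1 c = t.2) := by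
  have : allL (fun t : ℕ × ℕ => allLt (fun c => band
      (bor (bn (allLt (fun i => Nat.beq (ap t.1 (ap t.1 (gc i))) (cj c (gc i))) 6)) (Nat.blt c 2))
      (bor (bn (allLt (fun i => Nat.beq (itr (fun c => ap t.1 (ap XF c)) 3 (gc i)) (cj c (gc i))) 6))
        (bor (Nat.beq c t.2) (Nat.beq (qm 1 c) t.2)))) 128) [(XA, 116), (XB, 92), (XC, 0)] = true := by decide +kernel
  simp only [band_eq_true, bor_eq_true, allLt_iff, allL_iff, bn_iff, Nat.beq_eq, Nat.blt_eq] at this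
  exact fun t ht c hc => ⟨fun r => (this t ht c hc).1.resolve_left fun n => n r,
    fun r => (this t ht c hc).2.resolve_left fun n => n r⟩

theorem gc_lt : ∀ j < 7, gc j < 128 := by decide +kernel

theorem itr_lt {s : ℕ → ℕ} (hs : ∀ c, s c < 128) {c : ℕ} (hc : c < 128) (k : ℕ) : itr s k c < 128 := by
  cases k
  exacts [hc, hs _]

theorem itr_kap {s : ℕ → ℕ} (hs : ∀ c, x * kap z γ c * x⁻¹ = kap z γ (s c)) (k c : ℕ) :
    cf x k (kap z γ c) = kap z γ (itr s k c) := by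
  induction k with
  | zero => exact cf_zero
  | succ k ih => rw [← cf_succ, ih, hs]; rfl

theorem get_pX {x0 x1 x3 : ℕ} (h0 : x0 < 128) (h1 : x1 < 128) (h3 : x3 < 128) : get 7 (pX x0 x1 x3) 0 = x0 ∧
    get 7 (pX x0 x1 x3) 1 = x1 ∧ get 7 (pX x0 x1 x3) 2 = g2 x1 ∧ get 7 (pX x0 x1 x3) 3 = x3 ∧
    get 7 (pX x0 x1 x3) 4 = g2 (g2 x1) ∧ get 7 (pX x0 x1 x3) 5 = g2 (g2 x3) := by
  have a : g2 x1 < 128 := ap_lt _ _
  have b : g2 (g2 x1) < 128 := ap_lt _ _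
  have c : g2 (g2 x3) < 128 := ap_lt _ _
  simp only [get_def, pX]
  omega

theorem Base.memQ (h : Base Q z) (c : Cl z γ) (hγ : ∀ i < 6, γ i ∈ Q) (hx : x ∈ Q) : ∃ a < 128, kap z γ a = x := by
  have m := kap_mem h.es.aes.mem hγ
  have hi : Function.Injective fun a : Fin 128 => (⟨kap z γ a, m a⟩ : Q) := fun a b e =>
    Fin.ext (c.kap_inj a.2 b.2 (congrArg Subtype.val e))
  obtain ⟨a, e⟩ := ((Nat.bijective_iff_injective_and_card _).2 ⟨hi, by rw [h.card]; simp⟩).2 ⟨x, hx⟩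
  exact ⟨a, a.2, congrArg Subtype.val e⟩

namespace Hep

variable (p : Hep Q z f u) (h : Base Q z) (hf : f ∈ C_[z]) (f7 : f ^ 7 = 1)
include p h hf

theorem cf (k : ℕ) : Hep Q z f (cf f k u) :=
  ⟨h.cfm hf p.mem k, by rw [← cf_mul, p.sq, cf_z hf], fun i h1 h2 => by
    rw [cf_cf, add_comm, ← cf_cf, ← cf_mul, p.ac i h1 h2, cf_mul, cf_z hf, cf_mul], by
    have := congrArg (HE.cf f k) p.pr
    simpa only [cf_mul, cf_cf, add_comm k, show HE.cf f k 1 = 1 by simp [HE.cf]] using this⟩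

theorem cl : Cl z fun i => HE.cf f i u :=
  ⟨h.z2, h.z1, fun i _ => (p.cf h hf i).sq, fun i _ => h.zc (h.cfm hf p.mem i), fun i hi j hj => by
    have := (p.cf h hf j).ac (i - j) (by omega) (by omega)
    rw [cf_cf, Nat.sub_add_cancel hj.le] at this
    simp only [this, ← mul_assoc, h.z2, one_mul]⟩

theorem gc_eq {j : ℕ} (hj : j < 7) : kap z (fun i => HE.cf f i u) (gc j) = HE.cf f j u := by
  have e : ∀ j < 6, gc j = 2 ^ (j + 1) := by decide +kernel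
  rcases Nat.lt_succ_iff_lt_or_eq.1 hj with r | rfl
  · rw [e j r, kap_gen r]
  · rw [show gc 6 = qi 126 by decide +kernel, (p.cl h hf).kap_qi (by decide), eq_inv_of_mul_eq_one_right p.pr]
    simp [kap]

theorem af : Act z (fun i => HE.cf f i u) f XF :=
  ⟨mem_cent1.1 hf, fun i hi => by
    have e : ∀ i < 6, get 7 XF i = gc (i + 1) := by decide +kernel
    rw [e i hi, p.gc_eq h hf (by omega), cf_succ]⟩

end Hep

theorem cf_g (gf : g * f = f ^ 2 * g) (i : ℕ) : g * cf f i u * g⁻¹ = cf f (2 * i) (g * u * g⁻¹) := by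
  have : f ^ (2 * i) = g * f ^ i * g⁻¹ := by rw [pow_mul, (SemiconjBy.pow_right gf i).eq, mul_inv_cancel_right]
  rw [cf, cf, this]; group

namespace Base

variable (h : Base Q z) (hf : f ∈ C_[z]) (hg : g ∈ C_[z]) (f7 : f ^ 7 = 1) (g3 : g ^ 3 = 1) (gf : g * f = f ^ 2 * g)
include h hf hg f7 g3 gf

theorem hep' (hQ : f ∉ Q) : ∃ u, Hep Q z f u ∧ g * u * g⁻¹ = u := by
  obtain ⟨u, p⟩ := h.hep hf f7 hQ
  have c := p.cl h hf
  have gz : g * z * g⁻¹ = z := mul_inv_eq_iff_eq_mul.2 (mem_cent1.1 hg)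
  obtain ⟨d, hd, e⟩ := h.memQ c (fun i _ => h.cfm hf p.mem i) (h.cj hg p.mem)
  have it := itr_kap ((p.af h hf).kap c)
  have il := itr_lt (ap_lt XF) hd
  obtain ⟨j, hj, r⟩ := tabC d hd (c.kap_inj (qm_lt hd hd) (by decide) (by rw [c.kap_mul hd hd, e, conj_mul, p.sq, gz, kap_one]))
    fun k h1 h2 => c.kap_inj (qm_lt hd (il k)) (qm_lt (by decide) (qm_lt (il k) hd)) (by
      rw [c.kap_mul hd (il k), c.kap_mul (by decide) (qm_lt (il k) hd), c.kap_mul (il k) hd, ← it, e, kap_one, ← cf_mod f7,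
        show k % 7 = 2 * (4 * k % 7) % 7 by omega, cf_mod f7, ← cf_g gf, conj_mul, conj_mul, p.ac _ (by omega) (by omega),
        ← conj_mul, gz])
  have k : cf f (2 * (7 - j) + j) u = cf f (7 - j) u := by
    rw [← cf_mod f7, ← cf_mod f7 (7 - j)]; congr 1; omega
  rcases r with rfl | rfl
  · exact ⟨_, p.cf h hf (7 - j), by rw [cf_g gf, ← e, p.gc_eq h hf hj, cf_cf, k]⟩
  · have r : g * cf f (7 - j) u * g⁻¹ = z * cf f (7 - j) u := by
      rw [cf_g gf, ← e, c.kap_mul (by decide) (gc_lt j hj), kap_one, p.gc_eq h hf hj, cf_mul, cf_z hf, cf_cf, k]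
    generalize cf f (7 - j) u = v at r
    have r2 : g * (g * v * g⁻¹) * g⁻¹ = v := by rw [r, ← conj_mul (a := z), gz, r, ← mul_assoc, h.z2, one_mul]
    have : g ^ 3 * v * (g ^ 3)⁻¹ = g * (g * (g * v * g⁻¹) * g⁻¹) * g⁻¹ := by
      simp only [pow_succ, pow_zero, one_mul, mul_inv_rev, mul_assoc]
    rw [g3, r2, r] at this
    exact (h.z1 (by simpa using this)).elim

theorem pre (hQ : f ∉ Q) : ∃ u, Hep Q z f u ∧ Pre z (fun i => cf f i u) f g ∧ ∀ i, g * cf f i u * g⁻¹ = cf f (2 * i % 7) u := by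
  obtain ⟨u, p, e⟩ := h.hep' hf hg f7 g3 gf hQ
  have k : ∀ i, g * cf f i u * g⁻¹ = cf f (2 * i % 7) u := fun i => by rw [cf_g gf, e, cf_mod f7]
  refine ⟨u, p, ⟨p.cl h hf, p.af h hf, ⟨mem_cent1.1 hg, fun i hi => ?_⟩, f7, g3, gf⟩, k⟩
  have e : ∀ i < 6, get 7 XG i = gc (2 * i % 7) := by decide +kernel
  rw [e i hi, p.gc_eq h hf (by omega), k]

omit hf hg f7 g3 gf in
theorem rel : ∃ γ f g a, ∃ μ < 2, (∀ i < 6, γ i ∈ Q) ∧ ∃ t ∈ [(XA, 116), (XB, 92), (XC, 0)], Rel z γ f g a t.1 t.2 μ := by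
  obtain ⟨f, hf, g, hg, a, ha, hQ, f7, g3, gf, ag, aq⟩ := h.gens
  obtain ⟨u, p, P, k⟩ := h.pre hf hg f7 g3 gf hQ
  have gc' := fun j => p.gc_eq h hf (j := j)
  have hγ : ∀ i, cf f i u ∈ Q := h.cfm hf p.mem
  have c := P.cl
  generalize hκ : kap z (fun i => cf f i u) = κ at gc'
  have mQ : ∀ x ∈ Q, ∃ a < 128, κ a = x := fun x hx => hκ ▸ h.memQ c (fun i _ => hγ i) hx
  have km : ∀ {a b}, a < 128 → b < 128 → κ (qm a b) = κ a * κ b := hκ ▸ c.kap_mul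
  have ki : ∀ {a b}, a < 128 → b < 128 → κ a = κ b → a = b := hκ ▸ c.kap_inj
  have kc : ∀ {a b}, a < 128 → b < 128 → κ a * κ b * (κ a)⁻¹ = κ (HE.cj a b) := hκ ▸ c.kap_cj
  have k1 : κ 1 = z := hκ ▸ kap_one
  have kQ : ∀ a, κ a ∈ Q := hκ ▸ kap_mem h.es.aes.mem fun i _ => hγ i
  have kg : ∀ c, g * κ c * g⁻¹ = κ (ap XG c) := hκ ▸ P.ag.kap c
  have kf : ∀ c, f * κ c * f⁻¹ = κ (ap XF c) := hκ ▸ P.af.kap c
  have two : ∀ a X, Act z (fun i => cf f i u) a X → a * a ∈ Q → (a * f) ^ 3 ∈ Q →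
      (∃ c < 128, κ c = a * a ∧ ∀ i < 6, ap X (ap X (gc i)) = HE.cj c (gc i)) ∧
      ∃ c < 128, κ c = (a * f) ^ 3 ∧ ∀ i < 6, itr (fun c => ap X (ap XF c)) 3 (gc i) = HE.cj c (gc i) := fun a X A m1 m2 => by
    have ka : ∀ c, a * κ c * a⁻¹ = κ (ap X c) := hκ ▸ A.kap c
    obtain ⟨c1, l1, e1⟩ := mQ _ m1
    obtain ⟨c2, l2, e2⟩ := mQ _ m2
    refine ⟨⟨c1, l1, e1, fun i hi => ?_⟩, c2, l2, e2, fun i hi => ?_⟩
    · have l := gc_lt i (by omega)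
      refine ki (ap_lt _ _) (cj_spec _ l1 _ l).1 ?_
      rw [← ka, ← ka, ← kc l1 l, e1]; group
    · have l := gc_lt i (by omega)
      refine ki (itr_lt (fun _ => ap_lt _ _) l _) (cj_spec _ l2 _ l).1 ?_
      rw [← kc l2 l, e2, ← hκ, ← itr_kap (x := a * f) fun c => by rw [hκ, ← ka, ← kf]; group]
      rfl
  have az : a * z * a⁻¹ = z := mul_inv_eq_iff_eq_mul.2 (mem_cent1.1 ha)
  have st : ∀ i x, κ x = a * cf f i u * a⁻¹ → κ (g2 x) = a * cf f (2 * i % 7) u * a⁻¹ := fun i x e => by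
    rw [g2, ← kg, ← kg, e, ← k, ← mul_assoc a, ← mul_assoc a, ag, mul_assoc _ g⁻¹, ← mul_inv_rev, ag, pow_two]; group
  have sq : ∀ i x, x < 128 → κ x = a * cf f i u * a⁻¹ → qm x x = 1 := fun i x l e =>
    ki (qm_lt l l) (by decide) (by rw [km l l, e, conj_mul, (p.cf h hf i).sq, az, k1])
  obtain ⟨x0, l0, e0⟩ := mQ _ (h.cj ha (hγ 0))
  obtain ⟨x1, l1, e1⟩ := mQ _ (h.cj ha (hγ 1))
  obtain ⟨x3, l3, e3⟩ := mQ _ (h.cj ha (hγ 3))
  obtain ⟨r0, r1, r2, r3, r4, r5⟩ := get_pX l0 l1 l3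
  have A : Act z (fun i => cf f i u) a (pX x0 x1 x3) := ⟨mem_cent1.1 ha, fun i hi => by
    rw [hκ]
    interval_cases i
    exacts [by rw [r0]; exact e0.symm, by rw [r1]; exact e1.symm, by rw [r2]; exact (st _ _ e1).symm, by rw [r3]; exact e3.symm,
      by rw [r4]; exact (st _ _ (st _ _ e1)).symm, by rw [r5]; exact (st _ _ (st _ _ e3)).symm]⟩
  obtain ⟨⟨c1, m1, -, s1⟩, c2, m2, -, s2⟩ := two a _ A (by simpa using (aq 1 (one_mem _)).1) (by simpa using (aq 1 (one_mem _)).2)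
  obtain ⟨d, hd, X, hX, e⟩ := tabD x0 l0 (ki (ap_lt _ _) l0 ((st _ _ e0).trans e0.symm)) (sq _ _ l0 e0) x1 l1 (sq _ _ l1 e1) x3 l3
    (sq _ _ l3 e3) (ki (ap_lt _ _) (ap_lt _ _) (by
      refine Eq.trans ?_ (st _ _ e3).symm
      rw [← gc' _ (by decide), ← hκ, A.kap c]; rfl))
    (fun i hi => by rw [s1 i hi, (cj_spec _ m1 _ (gc_lt i (by omega))).2.1])
    (fun i hi => by rw [s2 i hi, (cj_spec _ m2 _ (gc_lt i (by omega))).2.1])
  have td : ∀ d ∈ [0, 2, 44, 46], d < 128 ∧ ap XG d = d := by decide +kernel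
  have fin : ∀ y ∈ Q, y * g = g * y → (∀ i < 6, y * κ (get 7 (pX x0 x1 x3) i) * y⁻¹ = κ (get 7 X i)) →
      Act z (fun i => cf f i u) (y * a) X ∧ y * a * g = g ^ 2 * (y * a) := fun y hy e1 e2 =>
    ⟨⟨mem_cent1.1 (mul_mem (aes_le h.es.aes hy) ha), fun i hi => by rw [hκ, ← e2 i hi, ← hκ, ← A.2 i hi]; group⟩, by
      rw [mul_assoc, ag, ← mul_assoc, (Commute.pow_right e1 2).eq, mul_assoc]⟩
  obtain ⟨l, e1⟩ := td d hd
  have y1 : κ d * g = g * κ d := by rw [← mul_inv_eq_iff_eq_mul.1 (e1 ▸ kg d :)]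
  have y2 : ∀ i < 6, κ d * κ (get 7 (pX x0 x1 x3) i) * (κ d)⁻¹ = κ (get 7 X i) := fun i hi => by rw [kc l (l7 _ _), e i hi]
  obtain ⟨q, hq⟩ : ∃ q, (X, q) ∈ [(XA, 116), (XB, 92), (XC, 0)] := by
    simp only [List.mem_cons, List.not_mem_nil, or_false] at hX
    rcases hX with rfl | rfl | rfl
    exacts [⟨116, by simp⟩, ⟨92, by simp⟩, ⟨0, by simp⟩]
  have out : ∀ y ∈ Q, Act z (fun i => cf f i u) (y * a) X ∧ y * a * g = g ^ 2 * (y * a) → (y * a * f) ^ 3 = κ q →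
      ∃ γ f g a, ∃ μ < 2, (∀ i < 6, γ i ∈ Q) ∧ ∃ t ∈ [(XA, 116), (XB, 92), (XC, 0)], Rel z γ f g a t.1 t.2 μ := fun y hy B e => by
    obtain ⟨⟨c1, m1, t1, s1⟩, -⟩ := two _ _ B.1 (aq y hy).1 (aq y hy).2
    exact ⟨_, f, g, y * a, c1, (tabE _ hq c1 m1).1 s1, fun i _ => hγ i, _, hq, P, B.1, B.2, hκ ▸ t1.symm, hκ ▸ e⟩
  have B := fin _ (kQ d) y1 y2
  obtain ⟨-, c2, m2, t2, s2⟩ := two _ _ B.1 (aq _ (kQ d)).1 (aq _ (kQ d)).2
  rcases (tabE _ hq c2 m2).2 s2 with r | r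
  · exact out _ (kQ d) B (t2.symm.trans (congrArg κ r))
  have cz : Commute z (κ d * a * f) := (mem_cent1.1 (mul_mem (mul_mem (aes_le h.es.aes (kQ d)) ha) hf)).symm
  refine out _ (mul_mem h.es.aes.mem (kQ d)) (fin _ (mul_mem h.es.aes.mem (kQ d))
    (Commute.mul_left (mem_cent1.1 hg).symm y1).eq fun i hi => ?_) ?_
  · rw [mul_inv_rev, ← mul_assoc, mul_assoc z, mul_assoc z, y2 i hi, ← h.zc (kQ _), mul_inv_cancel_right]
  · rw [mul_assoc z, mul_assoc z, cz.mul_pow, ← t2, pow_succ, pow_two, h.z2, one_mul, ← k1, ← km (by decide) m2]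
    exact congrArg κ r

end Base

end H03.HE
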