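import Cfsg.Agent.H23.K0

/-! Part J2 of the cluster for S5567. -/

set_option autoImplicit false
open Cfsg BG Subgroup H01.XS Cfsg.Agent.H06.J Cfsg.Agent.H23.K

namespace H03.KJ2
universe u

theorem core {G : Type*} [Group G] {A : Subgroup G} {z δ l a : G} (A2 : ∀ x ∈ A, x * x = 1)
    (Az : ∀ x ∈ A, x * z = z * x) (zz : z * z = 1) (dz : δ * z = z * δ) (d3 : δ ^ 3 = 1)
    (n1 : ∀ x ∈ A, δ * x * δ⁻¹ ∈ A) (ld : l * δ * l⁻¹ = δ⁻¹) (aA : a ∈ A) (l2 : l * l = z)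
    (e : l * a * (l * a) = 1) : ∃ c ∈ A, δ * c = c * δ ∧ l * c * l⁻¹ = c * z := by
  have cm : ∀ x ∈ A, ∀ y ∈ A, x * y = y * x := fun x i y j => by
    refine (mul_eq_one_iff_eq_inv.1 (A2 _ (mul_mem i j))).trans ?_
    rw [mul_inv_rev, ← mul_eq_one_iff_eq_inv.1 (A2 _ i), ← mul_eq_one_iff_eq_inv.1 (A2 _ j)]
  have di : δ⁻¹ = δ * δ := by
    rw [inv_eq_iff_mul_eq_one, ← d3, pow_succ, pow_two, mul_assoc]
  have h1 : δ * a * δ⁻¹ ∈ A := n1 a aA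
  have e2 : δ * (δ * a * δ⁻¹) * δ⁻¹ = δ⁻¹ * a * δ := by
    have : δ = δ⁻¹ * δ⁻¹ := by rw [← mul_inv_rev, ← di, inv_inv]
    calc δ * (δ * a * δ⁻¹) * δ⁻¹ = (δ * δ) * a * (δ⁻¹ * δ⁻¹) := by group
      _ = δ⁻¹ * a * δ := by rw [← di, ← this]
  have h2 : δ⁻¹ * a * δ ∈ A := e2 ▸ n1 _ h1
  have la : l * a * l⁻¹ = a * z := by
    have : l * a * l⁻¹ * (z * a) = 1 := by rw [← l2, ← e]; group
    rw [mul_eq_one_iff_eq_inv.1 this, mul_inv_rev, ← mul_eq_one_iff_eq_inv.1 (A2 _ aA), ← mul_eq_one_iff_eq_inv.1 zz]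
  have dz' : δ⁻¹ * z = z * δ⁻¹ := by
    calc δ⁻¹ * z = δ⁻¹ * (z * δ) * δ⁻¹ := by group
      _ = z * δ⁻¹ := by rw [← dz]; group
  have l1 : l * (δ * a * δ⁻¹) * l⁻¹ = δ⁻¹ * a * δ * z := by
    calc l * (δ * a * δ⁻¹) * l⁻¹ = (l * δ * l⁻¹) * (l * a * l⁻¹) * (l * δ * l⁻¹)⁻¹ := by group
      _ = δ⁻¹ * a * (z * δ) := by rw [ld, la]; group
      _ = _ := by rw [← dz]; group
  have l3 : l * (δ⁻¹ * a * δ) * l⁻¹ = δ * a * δ⁻¹ * z := by
    calc l * (δ⁻¹ * a * δ) * l⁻¹ = (l * δ * l⁻¹)⁻¹ * (l * a * l⁻¹) * (l * δ * l⁻¹) := by group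
      _ = δ * a * (z * δ⁻¹) := by rw [ld, la]; group
      _ = _ := by rw [← dz']; group
  generalize hb : δ * a * δ⁻¹ = b at *
  generalize hc : δ⁻¹ * a * δ = c at *
  have e3 : δ * c * δ⁻¹ = a := by rw [← hc]; group
  refine ⟨a * b * c, mul_mem (mul_mem aA h1) h2, ?_, ?_⟩
  · have : δ * (a * b * c) * δ⁻¹ = a * b * c := by
      calc δ * (a * b * c) * δ⁻¹ = (δ * a * δ⁻¹) * (δ * b * δ⁻¹) * (δ * c * δ⁻¹) := by group
        _ = (b * c) * a := by rw [hb, e2, e3]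
        _ = a * b * c := by rw [cm _ (mul_mem h1 h2) _ aA, mul_assoc]
    exact mul_inv_eq_iff_eq_mul.1 this
  · calc l * (a * b * c) * l⁻¹ = (l * a * l⁻¹) * (l * b * l⁻¹) * (l * c * l⁻¹) := by group
      _ = a * (z * c) * (z * b) * z := by rw [la, l1, l3]; group
      _ = a * c * (z * b) * (z * z) := by rw [← Az c h2, ← Az b h1]; simp only [mul_assoc]; rw [← mul_assoc z b, ← Az b h1, mul_assoc]
      _ = a * (c * b) * z := by rw [zz, ← Az b h1]; group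
      _ = a * b * c * z := by rw [cm c h2 b h1]; group

theorem j2 : J2Stmt.{u} := by
  intro G _ _ z Q V _ _ _ Γ _ _ f π ν T d M β q s K Y B A δ x c h l lz lN ld _ l2 ⟨a, aA, e⟩
  have lz2 := mul_mem lz lz
  have lQ : l * l ∈ Q := (s.ker _ lz2).1 (by
    rw [← s.pf ⟨l, lz⟩, ← map_mul] at l2
    exact (s.pf ⟨l * l, lz2⟩).symm.trans l2)
  have ld' : l * δ⁻¹ * l⁻¹ = δ := by
    calc l * δ⁻¹ * l⁻¹ = (l * δ * l⁻¹)⁻¹ := by group
      _ = δ := by rw [ld, inv_inv]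
  have cd : δ * (l * l) * δ⁻¹ = l * l := by
    have : l * l * δ * l⁻¹ * l⁻¹ = δ := by
      calc l * l * δ * l⁻¹ * l⁻¹ = l * (l * δ * l⁻¹) * l⁻¹ := by group
        _ = δ := by rw [ld, ld']
    calc δ * (l * l) * δ⁻¹ = (l * l * δ * l⁻¹ * l⁻¹) * (l * l) * δ⁻¹ := by rw [this]
      _ = l * l := by group
  have fx := s.act δ x.δz _ lQ
  rw [cd, x.δd] at fx
  have v0 : ν (l * l) = 0 := by
    have := s.gm.hf (ν (l * l))
    rw [fx, fx] at this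
    have t : ν (l * l) + ν (l * l) = 0 := by
      rw [← two_smul (ZMod 2), show (2 : ZMod 2) = 0 from rfl, zero_smul]
    rwa [t, zero_add] at this
  refine ((s.md.ker _ lQ).1 v0).elim id fun lz' => ?_
  have dN : δ ∈ N_(A) := (c.mN δ x.δz).2 fun v i => x.δd ▸ x.pj.Bω v i
  obtain ⟨k, kA, k1, k2⟩ := core x.A2 (fun y i => (mem_centralizer_singleton_iff.1 (x.Az i))) s.md.lx.zz
    (mem_centralizer_singleton_iff.1 x.δz) x.δ3 (fun y i => (mem_normalizer_iff.1 dN y).1 i) ld aA lz' e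
  exact (h k kA (mem_centralizer_singleton_iff.2 k1.symm) l lN k2).elim

end H03.KJ2
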