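import Cfsg.Agent.H23.K0
import Cfsg.Agent.H26.JE
import Cfsg.Agent.H11.K89

/-! Part S of the cluster for S5567. -/

set_option autoImplicit false
open Cfsg BG Subgroup H01.XS Cfsg.Agent.H06.J Cfsg.Agent.H23.K

namespace H03.KS
universe u

variable {V : Type u} [AddCommGroup V] [Module (ZMod 2) V] [Finite V] {Γ : Type u} [Group Γ] [Finite Γ]
  {T : Γ → V →+ V} {d : Γ} {M K Y : Subgroup Γ} {β : V →+ V →+ ZMod 2} {q : V → ZMod 2}

def st (g : Gj T d M β q) (B : AddSubgroup V) : Subgroup Γ where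
  carrier := {x | ∀ v ∈ B, T x v ∈ B}
  one_mem' := fun v i => by rwa [g.one]
  mul_mem' := fun {a b} i j v k => by rw [g.mul]; exact i _ (j v k)
  inv_mem' := fun {x} i => by
    have p : ∀ n : ℕ, ∀ v ∈ B, T (x ^ n) v ∈ B := fun n => by
      induction n with
      | zero => intro v k; rwa [pow_zero, g.one]
      | succ n ih => intro v k; rw [pow_succ, g.mul]; exact ih _ (i v k)
    have : x⁻¹ = x ^ (Nat.card Γ - 1) := by
      rw [inv_eq_iff_mul_eq_one, ← pow_succ', Nat.sub_add_cancel Nat.card_pos, pow_card_eq_one']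
    rw [this]; exact p _

theorem s : SStmt.{u} := by
  intro G _ _ z Q V _ _ _ Γ _ _ f π ν T d M β q s K Y B A δ x c
  have g := s.gm
  have hx := x.hk.hx
  have KM := x.hk.KM
  have il : ∀ a v, T a⁻¹ (T a v) = v := fun a v => by rw [← g.mul, inv_mul_cancel, g.one]
  have ir : ∀ a v, T a (T a⁻¹ v) = v := fun a v => by rw [← g.mul, mul_inv_cancel, g.one]
  have Mn : M.Normal := normal_of_index_eq_two g.Mi
  have KS : K ≤ st g B := fun k i => x.pj.KB k i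
  have SY : ∀ a ∈ st g B, ∀ y ∈ Y, a * y * a⁻¹ ∈ Y := fun a i y j => c.fB _ fun v k => by
    rw [g.mul, g.mul, (x.pj.mB _).1 (inv_mem i v k) y j, ir]
  have SM : st g B ⊓ M = K := (x.hk.mx _ (le_inf KS KM) inf_le_right).resolve_right fun e => by
    obtain ⟨a, i, y, j, n⟩ := x.hk.nY
    exact n (SY a (e.ge i).1 y j)
  have cK : Nat.card K = 17280 := by
    have a1 := M.card_mul_index
    have a2 := card_mul_relIndex KM
    rw [g.Mi, g.cΓ] at a1
    rw [x.hk.iK] at a2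
    omega
  have cS : Nat.card (st g B) = 34560 := by
    have a1 := H26.JE.cnt s (U := N_(A) ⊓ C_[z]) inf_le_right
    have qU : Q ≤ N_(A) ⊓ C_[z] := fun r i => ⟨(c.mN r (s.md.lx.le i)).2 fun v k => by
      rwa [(s.ker r (s.md.lx.le i)).2 i, g.one], s.md.lx.le i⟩
    have e : ((N_(A) ⊓ C_[z]).subgroupOf C_[z]).map f = st g B := Subgroup.ext fun a =>
      ⟨fun ⟨r, i, e⟩ => by rw [← e, s.pf]; exact (c.mN r r.2).1 i.1, fun i => by
        obtain ⟨r, j, rfl⟩ := s.sur a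
        exact ⟨⟨r, j⟩, ⟨(c.mN r j).2 i, j⟩, s.pf _⟩⟩
    rw [inf_eq_left.2 qU, s.card, e, c.cN] at a1
    omega
  obtain ⟨g0, g0M, i16, orb⟩ := x.hk.orb
  have cI : Nat.card ↥(K ⊓ cj g0 K) = 1080 := by
    have a2 := card_mul_relIndex (inf_le_left : K ⊓ cj g0 K ≤ K)
    rw [i16, cK] at a2
    omega
  let B' : AddSubgroup V := B.map (T g0)
  have mB' : ∀ v, v ∈ B' ↔ T g0⁻¹ v ∈ B := fun v =>
    ⟨fun ⟨w, i, e⟩ => by rwa [← e, il], fun i => ⟨_, i, ir _ _⟩⟩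
  have mS' : ∀ a, a ∈ st g B' ↔ g0⁻¹ * a * g0 ∈ st g B := fun a =>
    ⟨fun i v k => by rw [g.mul, g.mul]; exact (mB' _).1 (i _ ⟨v, k, rfl⟩), fun i v k => by
      have := i _ ((mB' v).1 k)
      rw [g.mul, g.mul, ir] at this
      exact (mB' _).2 this⟩
  have mK' : ∀ a, a ∈ cj g0 K ↔ a ∈ st g B' ∧ a ∈ M := fun a => by
    rw [mem_cj, mS', ← SM, mem_inf]
    refine and_congr_right fun _ => ⟨fun i => ?_, fun i => mul_mem (mul_mem (inv_mem g0M) i) g0M⟩
    have := mul_mem (mul_mem g0M i) (inv_mem g0M)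
    rwa [show g0 * (g0⁻¹ * a * g0) * g0⁻¹ = a by group] at this
  have YI : Y ⊓ (K ⊓ cj g0 K) = ⊥ := by
    have : Fact (Nat.Prime 5) := ⟨by norm_num⟩
    obtain ⟨⟨t, tI⟩, o⟩ := exists_prime_orderOf_dvd_card' (G := ↥(K ⊓ cj g0 K)) 5 (by rw [cI]; norm_num)
    rw [orderOf_mk] at o
    have t5 : t ^ 5 = 1 := o ▸ pow_orderOf_eq_one t
    have Yc : ∀ a ∈ Y, ∀ b ∈ Y, a * b = b * a := fun a i b j => H20.FtW.EA.comm hx.Y2 i j
    have fp : Y ⊓ centralizer {t} = ⊥ := by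
      have a1 := H11.K89.md t5 (hx.nY t tI.1)
      have a2 : Nat.card ↥(Y ⊓ centralizer {t}) ∣ 2 ^ 4 := by
        have := card_dvd_of_le (inf_le_left : Y ⊓ centralizer {t} ≤ Y)
        rwa [hx.cY] at this
      obtain ⟨j, j4, ej⟩ := (Nat.dvd_prime_pow Nat.prime_two).1 a2
      rw [hx.cY, ej] at a1
      have : j = 0 ∨ j = 4 := by interval_cases j <;> simp [Nat.ModEq] at a1 ⊢
      rcases this with rfl | rfl
      · exact BG.card_eq_one.1 ej
      exfalso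
      have eY : Y ⊓ centralizer {t} = Y := eq_of_le_of_card_ge inf_le_left (by rw [ej, hx.cY]; norm_num)
      obtain ⟨φ, su, ke⟩ := x.hk.ph
      have : IsSimpleGroup A6 := alternatingGroup.isSimpleGroup (by simp)
      have nn : (C_(Y).subgroupOf K).Normal := ⟨fun n i k y j => by
        have := i _ (hx.nY _ (inv_mem k.2) y j)
        simp only [inv_inv, coe_subtype, coe_mul, InvMemClass.coe_inv] at this ⊢
        calc y * (k * n * (k : Γ)⁻¹) = k * ((k : Γ)⁻¹ * y * k * n) * (k : Γ)⁻¹ := by group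
          _ = _ := by rw [this]; group⟩
      have kc : ∀ k : K, φ k = 1 → (k : Γ) ∈ C_(Y) := fun k e => by
        obtain ⟨y, j, i, e⟩ := (ke k).1 e
        rw [e]
        exact mul_mem (fun a i => Yc a i y j) (pow_mem (show d ∈ C_(Y) from fun a i => g.Md a (KM (hx.YK i))) _)
      rcases (nn.map φ su).eq_bot_or_eq_top with e | e
      · have : φ ⟨t, tI.1⟩ = 1 := mem_bot.1 (e.le ⟨_, fun y j => mem_centralizer_singleton_iff.1 (eY.ge j).2, rfl⟩)
        obtain ⟨y, j, i, e⟩ := (ke _).1 this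
        have cm : Commute y (d ^ i) := Commute.pow_right (g.Md y (KM (hx.YK j))) i
        have e6 : t ^ 6 = 1 := by
          rw [show t = y * d ^ i from e, cm.mul_pow, show 6 = 2 * 3 from rfl, pow_mul, pow_two, hx.Y2 y j, one_pow, one_mul,
            ← pow_mul, show i * (2 * 3) = 3 * (2 * i) by ring, pow_mul, pow_three, g.d3, one_pow]
        have := orderOf_dvd_of_pow_eq_one e6
        rw [o] at this; omega
      · obtain ⟨y1, j1, n1, -⟩ := H26.JE.ex4 hx.cY 1 1 1 1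
        obtain ⟨y2, j2, n2, n3, -⟩ := H26.JE.ex4 hx.cY 1 y1 1 1
        obtain ⟨k, i, ek⟩ := hx.tr y1 j1 y2 j2 n1 n2
        obtain ⟨n, m, en⟩ := e.ge (mem_top (φ ⟨k, i⟩))
        have := mul_mem (show (n : Γ) ∈ C_(Y) from m) (kc (n⁻¹ * ⟨k, i⟩) (by rw [map_mul, map_inv, en, inv_mul_cancel]))
        have k2 : y1 * k = k * y1 := by simpa using this y1 j1
        exact n3 (by rw [← ek, ← k2]; group)
    have a1 := H11.K89.md (W := Y ⊓ (K ⊓ cj g0 K)) t5 fun a i =>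
      ⟨hx.nY t tI.1 a i.1, (K ⊓ cj g0 K).mul_mem (mul_mem tI i.2) (inv_mem tI)⟩
    rw [show Y ⊓ (K ⊓ cj g0 K) ⊓ centralizer {t} = ⊥ from eq_bot_iff.2 fun a i => fp.le ⟨i.1.1, i.2⟩, card_bot] at a1
    have a2 := card_dvd_of_le (inf_le_left : Y ⊓ (K ⊓ cj g0 K) ≤ Y)
    have a3 := card_dvd_of_le (inf_le_right : Y ⊓ (K ⊓ cj g0 K) ≤ K ⊓ cj g0 K)
    rw [hx.cY] at a2
    rw [cI] at a3
    have a4 : Nat.card ↥(Y ⊓ (K ⊓ cj g0 K)) ∣ 2 ^ 3 := by simpa using Nat.dvd_gcd a2 a3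
    obtain ⟨j, j4, ej⟩ := (Nat.dvd_prime_pow Nat.prime_two).1 a4
    rw [ej] at a1
    have : j = 0 := by interval_cases j <;> simp [Nat.ModEq] at a1 ⊢
    subst this
    exact BG.card_eq_one.1 ej
  have dec : ∀ (H U : Subgroup Γ), H ≤ U → Y ≤ U → U ≤ st g B → Y ⊓ H = ⊥ → Nat.card U = 16 * Nat.card H →
      ∀ k ∈ U, ∃ l ∈ H, ∃ y ∈ Y, k = l * y := fun H U l1 l2 l3 e cU k i => by
    have nH : H ≤ N_(Y) := le_norm_iff.2 fun a j => SY a (l3 (l1 j))
    have a1 := card_sup_mul nH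
    rw [e, card_bot, mul_one, hx.cY, ← cU] at a1
    have e2 : Y ⊔ H = U := eq_of_le_of_card_ge (sup_le l2 l1) a1.ge
    have : k ∈ ((H ⊔ Y : Subgroup Γ) : Set Γ) := by rw [sup_comm, e2]; exact i
    rw [coe_mul_of_left_le_normalizer_right H Y nH] at this
    obtain ⟨l, a, y, b, e⟩ := this
    exact ⟨l, a, y, b, e.symm⟩
  have cv := dec (K ⊓ cj g0 K) K inf_le_left hx.YK KS YI (by rw [cK, cI])
  have cB' : Nat.card B' = 64 :=
    (AddSubgroup.card_map_of_injective (Function.LeftInverse.injective (il g0))).trans x.pj.cB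
  have dj : B ⊓ B' = ⊥ := by
    rcases x.pj.w64 (B ⊓ B') (fun k i v j => by
      obtain ⟨l, a, y, b, rfl⟩ := cv k i
      rw [g.mul, (x.pj.mB v).1 j.1 y b]
      exact ⟨KS a.1 v j.1, ((mK' l).1 a.2).1 v j.2⟩) with e | e | e
    · exact e
    · have := AddSubgroup.card_le_of_le (e.ge.trans inf_le_left)
      rw [AddSubgroup.card_top, g.card, x.pj.cB] at this; omega
    · have e1 : B ⊓ B' = B := AddSubgroup.eq_of_le_of_card_ge inf_le_left (by rw [e, x.pj.cB])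
      have e2 : B ⊓ B' = B' := AddSubgroup.eq_of_le_of_card_ge inf_le_right (by rw [e, cB'])
      have : cj g0 K = K := Subgroup.ext fun a => by rw [mK', ← e2, e1, ← mem_inf, SM]
      rw [this, inf_idem, cK] at cI; omega
  have LM : (st g B ⊓ st g B') ⊓ M = K ⊓ cj g0 K := Subgroup.ext fun a => by
    rw [mem_inf, mem_inf, mem_inf, mK', ← SM, mem_inf]; tauto
  obtain ⟨l0, l0L, l0M⟩ : ∃ l ∈ st g B ⊓ st g B', l ∉ M := by
    obtain ⟨a, aS, aM⟩ : ∃ a ∈ st g B, a ∉ M := by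
      by_contra! h
      rw [inf_eq_left.2 h] at SM
      rw [SM, cK] at cS; omega
    have aK : cj a K = K := by
      rw [← SM, cj_inf, cj_of_mem aS, cj_of_mem_norm (by rw [normalizer_eq_top]; trivial)]
    have e1 : K ⊓ cj (a * g0 * a⁻¹) K = cj a (K ⊓ cj g0 K) := by
      rw [cj_inf, aK, cj_cj, ← cj_cj (a * g0), ← aK, cj_inv_cj, aK]
    have e2 : (K ⊓ cj (a * g0 * a⁻¹) K).relIndex K = 16 := by
      rw [e1, ← i16]; conv_lhs => rw [← aK]
      rw [aK, ← relIndex_cj a (K ⊓ cj g0 K) K, aK]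
    rcases orb _ (Mn.conj_mem g0 g0M a) with h | ⟨k, i, k', i', e⟩ | h
    · rw [cj_of_mem h, inf_idem, relIndex_self] at e2; omega
    · refine ⟨k⁻¹ * a, ⟨(st g B).mul_mem (inv_mem (KS i)) aS, (mS' _).2 ?_⟩, fun h => aM ?_⟩
      · rw [show g0⁻¹ * (k⁻¹ * a) * g0 = g0⁻¹ * k⁻¹ * (a * g0 * a⁻¹) * a by group, e,
          show g0⁻¹ * k⁻¹ * (k * g0 * k') * a = k' * a by group]
        exact mul_mem (KS i') aS
      · simpa using mul_mem (KM i) h
    · omega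
  have cL : Nat.card ↥(st g B ⊓ st g B') = 2160 := by
    have a1 := card_inf_mul_relIndex M (st g B ⊓ st g B')
    have a2 : M.relIndex (st g B ⊓ st g B') ∣ 2 := g.Mi ▸ relIndex_dvd_index_of_normal M _
    rw [inf_comm, LM, cI] at a1
    rcases (Nat.dvd_prime Nat.prime_two).1 a2 with e | e
    · exact absurd (relIndex_eq_one.1 e l0L) l0M
    · rw [e] at a1; omega
  have YL : Y ⊓ (st g B ⊓ st g B') = ⊥ := eq_bot_iff.2 fun a i => YI.le ⟨i.1, LM.le ⟨i.2, KM (hx.YK i.1)⟩⟩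
  refine ⟨st g B ⊓ st g B', B', cB', dj, ?_, fun a i => i.1, fun a i => i.2, ⟨KS hx.dK, (mS' _).2 ?_⟩,
    (inf_comm _ _).trans YL, cL, LM.le.trans inf_le_left, fun k i => ?_, ?_⟩
  · rintro _ ⟨v, i, rfl⟩
    rw [g.qT]; exact x.pj.qB v i
  · rw [mul_assoc, ← g.Md g0 g0M, inv_mul_cancel_left]; exact KS hx.dK
  · obtain ⟨l, a, h⟩ := cv k i
    exact ⟨l, (LM.ge a).1, h⟩
  · obtain ⟨o, oM, o2⟩ := x.ou
    obtain ⟨P, sP, -⟩ := sylow_superset Nat.prime_two (IsPGroup.of_bot (p := 2)) (bot_le : ⊥ ≤ st g B)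
    have sT : IsSylowIn 2 P ⊤ := isSylowIn_mk Nat.prime_two le_top (sP.pg Nat.prime_two) (by
      have a1 := card_mul_relIndex (le_top : st g B ≤ ⊤)
      rw [cS, card_top, g.cΓ] at a1
      rw [← relIndex_mul_relIndex P (st g B) ⊤ sP.le le_top, show (st g B).relIndex ⊤ = 77 by omega]
      intro h
      exact ((Nat.prime_two.dvd_mul).1 h).elim (sP.not_dvd' Nat.prime_two) (by norm_num))
    have po : IsPGroup 2 (zpowers o) := IsPGroup.of_card_dvd_pow (n := 1) (by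
      rw [Nat.card_zpowers]; exact orderOf_dvd_of_pow_eq_one (by simpa [pow_two] using o2))
    obtain ⟨k, -, lk⟩ := sylow_Jsub Nat.prime_two sT po le_top
    obtain ⟨l, a, y, b, e⟩ := dec (st g B ⊓ st g B') (st g B) inf_le_left (hx.YK.trans KS) le_rfl YL (by rw [cS, cL])
      _ (sP.le (lk (conj_mem_cj k (mem_zpowers o))))
    refine ⟨l, a, fun h => oM ?_, ?_⟩
    · have := Mn.conj_mem _ (e ▸ mul_mem h (KM (hx.YK b))) k⁻¹
      rwa [show k⁻¹ * (k * o * k⁻¹) * k⁻¹⁻¹ = o by group] at this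
    · have e2 : l * y * (l * y) = 1 := e ▸ H20.FtW.sq_conj o2 k
      refine mem_bot.1 (YL.le (mem_inf.2 ⟨?_, mul_mem a a⟩))
      have : l * l = l * y⁻¹ * l⁻¹ * (l * y * (l * y)) * y⁻¹ := by group
      rw [this, e2, mul_one]
      exact mul_mem (SY l a.1 _ (inv_mem b)) (inv_mem b)

end H03.KS
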