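import Mathlib
import Cfsg.Agent.H03.LX3
import Cfsg.Agent.H08.Dih

/-!
Large extraspecial 2-subgroups, part 4 (namespace H03): the structure of groups with a large extraspecial subgroup
(`L4`, `ES.mem_of_norm`, `ES.comp_trans`, `ES.two_comp`, `ES.simple_of`).
-/

set_option autoImplicit false
open Cfsg BG H04 Subgroup
open scoped commutatorElement

namespace H03

variable {G : Type*} [Group G] [Finite G] {H K L L' M N P A B Q Q' R U W : Subgroup G} {a b g s t u v x y z : G} {p : ℕ}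

/-- `Q` normalises no nontrivial subgroup of odd order -/
def L4 (Q : Subgroup G) : Prop := ∀ A : Subgroup G, Odd (Nat.card A) → Q ≤ N_(A) → A = ⊥

omit [Finite G] in
theorem le_norm_normal (A B : Subgroup G) [B.Normal] : A ≤ N_(B) := H22.le_normalizer_of_normal' _ _

omit [Finite G] in
theorem simple_of_comp (hL : IsComponent L) (h : L ⊓ C_(L) = ⊥) : IsSimpleGroup L :=
  have := hL.2.2
  have e : center L = ⊥ := (map_eq_bot_iff_of_injective _ L.subtype_injective).1 (by rwa [H22.map_center_subtype])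
  ((QuotientGroup.quotientMulEquivOfEq e).trans QuotientGroup.quotientBot).symm.isSimpleGroup

namespace ES

theorem mem_of_norm (h : ES Q z) (h4 : L4 Q) (hK : K ≠ ⊥) (hn : Q ≤ N_(K)) : z ∈ K := by
  obtain ⟨S, hS, hQ⟩ := sylow_superset Nat.prime_two h.aes.isPGroup (le_sup_right : Q ≤ K ⊔ Q)
  have h1 : IsSylowIn 2 (S ⊓ K) K := hS.inf_normal le_sup_left (sup_le_norm_left hn)
  obtain ⟨x, hx, h2⟩ := exists_mem_ne_one (pg_fix_ne_bot Nat.prime_two h.aes.isPGroup (h1.pg Nat.prime_two)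
    (norm_inf (norm_of_le hQ) hn) (h1.ne_bot' Nat.prime_two (by
      by_contra e
      exact hK (h4 K (Nat.odd_iff.2 (by omega)) hn))))
  exact (h.aes.eq_or (h.cent hx.2)).resolve_left h2 ▸ hx.1.2

theorem sylow_le (h : ES Q z) (hP : IsPGroup 2 P) (hQ : Q ≤ P) : P ≤ C_[z] := by
  obtain ⟨x, hx, h2⟩ := exists_mem_ne_one (pg_center_ne_bot Nat.prime_two hP (ne_bot_of_mem (hQ h.aes.mem) h.aes.ne_one))
  exact le_cent1_iff.2 ((h.aes.eq_or (h.cent (cent_anti hQ hx.2))).resolve_left h2 ▸ hx.2)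

theorem comp_not (h : ES Q z) (hL : IsComponent L) : z ∉ C_(L) := fun e => by
  have := pg_sol Nat.prime_two h.aes.isPGroup
  exact H22.comp_not_le_of_solvable hL
    ((comm_eq_bot.1 (H22.comp_comm_of_solvable hL ((le_cent1_iff.2 e).trans h.norm))).trans h.lx.cent)

theorem comp_trans (h : ES Q z) (h4 : L4 Q) (hL : IsComponent L) (hL' : IsComponent L') : ∃ q ∈ Q, BG.cj q L = L' := by
  by_contra! e
  refine h.comp_not hL' ((iSup₂_le fun q hq => comm_eq_bot.1 (H22.comp_comm_of_ne (cj_eq_map q L ▸ H22.comp_conj hL q) hL' (e q hq)) :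
    ⨆ q ∈ Q, BG.cj q L ≤ _) (h.mem_of_norm h4 (ne_bot_mono (H22.comp_ne_bot hL) (le_iSup₂_of_le 1 (one_mem _) (by simp))) ?_))
  refine le_norm_of_cj_le fun a ha => cj_le_iff.2 (iSup₂_le fun q hq => cj_le_iff.1 ?_)
  rw [cj_cj]
  exact le_iSup₂_of_le (f := fun q _ => BG.cj q L) _ (mul_mem ha hq) le_rfl

theorem fit_bot (h : ES Q z) (h4 : L4 Q) (hL : IsComponent L) : fittingSubgroup G = ⊥ := by
  by_contra e
  exact h.comp_not hL (cent_anti (H22.le_layer hL) (H22.fitting_le_centralizer_layer (h.mem_of_norm h4 e (le_norm_normal _ _))))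

theorem comp_center (h : ES Q z) (h4 : L4 Q) (hL : IsComponent L) : L ⊓ C_(L) = ⊥ :=
  eq_bot_mono (h.fit_bot h4 hL) ((le_inf (inf_le_left.trans (H22.le_layer hL)) (H22.center_comp_le_centralizer_layer hL)).trans
    H22.layer_inf_centralizer_le_fitting)

theorem mem_layer (h : ES Q z) (h4 : L4 Q) (hL : IsComponent L) : z ∈ layer G :=
  have := H22.layer_normal (G := G)
  h.mem_of_norm h4 (ne_bot_mono (H22.comp_ne_bot hL) (H22.le_layer hL)) (le_norm_normal _ _)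

theorem ncl_eq (h : ES Q z) (h4 : L4 Q) (hL : IsComponent L) : normalClosure {z} = layer G :=
  have := H22.layer_normal (G := G)
  le_antisymm (normalClosure_le_normal (Set.singleton_subset_iff.2 (h.mem_layer h4 hL))) (H22.layer_le_iff.2 fun _ hL' =>
    (H22.comp_le_or_comm_of_normalizes hL' (le_norm_normal _ _)).resolve_right fun e =>
      h.comp_not hL' (cent_symm (comm_eq_bot.1 e) (subset_normalClosure rfl)))

theorem fstar_eq (h : ES Q z) (h4 : L4 Q) (hL : IsComponent L) : generalizedFittingSubgroup G = layer G := by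
  rw [H22.fstar_def, h.fit_bot h4 hL, sup_bot_eq]

theorem no_comp (h : ES Q z) (h4 : L4 Q) (hE : layer G = ⊥) :
    generalizedFittingSubgroup G = pCore 2 G ∧ normalClosure {z} ≤ pCore 2 G ⊓ C_(pCore 2 G) := by
  have h1 : generalizedFittingSubgroup G = pCore 2 G := H22.fstar_eq_pCore_iff'.2 ⟨hE,
    h4 _ (Nat.coprime_two_right.1 (H02.pPrimeCore_coprime 2 G)) (le_norm_normal _ _)⟩
  refine ⟨h1, normalClosure_le_normal (Set.singleton_subset_iff.2 (h.mem_of_norm h4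
    (pg_center_ne_bot Nat.prime_two (H02.pCore_isPGroup 2 G) fun e => h.aes.ne_one ?_) (le_norm_normal _ _)))⟩
  have := H22.fstar_eq_bot_iff.1 (h1.trans e)
  exact Subsingleton.elim _ _

theorem two_comp (h : ES Q z) (h4 : L4 Q) (hL : IsComponent L) (hu : u ∈ Q) (hne : BG.cj u L ≠ L) :
    ∃ w ∈ L, L ⊔ BG.cj u L = layer G ∧ z = w * (u * w * u⁻¹) ∧ IsSylowIn 2 (L ⊓ C_[w]) L ∧
      (∀ r ∈ L ⊓ C_[w], r * r ∈ zpowers w) ∧ Q ≠ QQ z := by
  have hn := H22.layer_normal (G := G)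
  have hZ := h.comp_center h4 hL
  have cc : ∀ g, IsComponent (BG.cj g L) := fun g => cj_eq_map g L ▸ H22.comp_conj hL g
  have uq : ∀ {a a' b b' : G}, a ∈ L → a' ∈ L → b ∈ C_(L) → b' ∈ C_(L) → a * b = a' * b' → a = a' := fun ha ha' hb hb' e =>
    (inv_mul_eq_one.1 (eq_one_of_mem_of_disj hZ (mul_mem (inv_mem ha') ha) (by
      rw [eq_mul_inv_of_mul_eq e, mul_assoc, inv_mul_cancel_left]; exact mul_mem hb' (inv_mem hb)))).symm
  obtain ⟨w, hw, y, hy, hyc, e⟩ := H22.mem_layer_decomp hL (h.mem_layer h4 hL)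
  have c1 : BG.cj u L ≤ C_(L) := comm_eq_bot.1 (H22.comp_comm_of_ne (cc u) hL hne)
  have c2 : BG.cj u⁻¹ L ≤ C_(L) := comm_eq_bot.1 (H22.comp_comm_of_ne (cc _) hL fun e => hne (cj_eq_iff.2 e.symm))
  have cm : ∀ {a b : G}, a ∈ L → b ∈ C_(L) → Commute a b := fun ha hb => mem_cent.1 hb _ ha
  have w2 : w * w = 1 := uq (mul_mem hw hw) (one_mem _) (mul_mem hyc hyc) (one_mem _) (by
    rw [(cm hw hyc).mul_mul_mul_comm, e, h.aes.mul_self, mul_one])
  have w1 : w ≠ 1 := fun e' => h.comp_not hL (by rwa [← e, e', one_mul])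
  have hR : L ⊓ C_[w] = L ⊓ C_[z] := by
    ext r
    refine and_congr_right fun hr => ?_
    simp only [SetLike.mem_coe, Subgroup.mem_toSubmonoid, mem_cent1]
    rw [← e, mul_assoc w, ← (cm hr hyc).eq, ← mul_assoc, ← mul_assoc, mul_left_inj]
  have hd : ∀ r ∈ L ⊓ C_[w], r * (u * r⁻¹ * u⁻¹) ∈ Q := fun r hr => by
    rw [← mul_assoc, ← mul_assoc]
    exact mul_mem (conj_mem_of_norm (h.norm (hR ▸ hr).2) hu) (inv_mem hu)
  have hs : ∀ r ∈ L, u * r⁻¹ * u⁻¹ ∈ C_(L) := fun r hr => c1 (conj_mem_cj u (inv_mem hr))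
  have sq : ∀ r ∈ L ⊓ C_[w], r * r ∈ zpowers w := fun r hr => by
    have h1 := h.aes.pow _ (hd r hr)
    rw [pow_two, (cm hr.1 (hs r hr.1)).symm.mul_mul_mul_comm] at h1
    rcases h.aes.eq_or h1 with h1 | h1
    · rw [uq (mul_mem hr.1 hr.1) (one_mem _) (mul_mem (hs r hr.1) (hs r hr.1)) (one_mem _) (by rw [h1, mul_one])]
      exact one_mem _
    · rw [uq (mul_mem hr.1 hr.1) hw (mul_mem (hs r hr.1) (hs r hr.1)) hyc (h1.trans e.symm)]
      exact mem_zpowers w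
  have ow : orderOf w = 2 := orderOf_eq_prime (by rwa [pow_two]) w1
  have eo : ∀ {a}, a ∈ zpowers w → a = 1 ∨ a = w := fun ha => by
    classical
    rw [mem_zpowers_iff_mem_range_orderOf, ow] at ha
    simpa [Finset.range_add_one, or_comm, eq_comm] using ha
  have pg : IsPGroup 2 ↥(L ⊓ C_[w]) := fun r => ⟨2, Subtype.ext (by
    rw [show 2 ^ 2 = 2 * 2 from rfl, pow_mul, coe_pow, coe_pow, pow_two, pow_two]
    rcases eo (sq r r.2) with e | e <;> simp [e, w2])⟩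
  have sy : IsSylowIn 2 (L ⊓ C_[w]) L := by
    obtain ⟨S, hS, hQ⟩ := sylow_superset Nat.prime_two h.aes.isPGroup (le_top : Q ≤ ⊤)
    have h1 : IsSylowIn 2 (S ⊓ layer G ⊓ L) L :=
      (hS.inf_normal le_top (le_norm_normal _ _)).inf_normal (H22.le_layer hL) (H22.layer_le_normalizer hL)
    rwa [h1.eq_of_pg Nat.prime_two pg (hR ▸ le_inf inf_le_right
      (inf_le_left.trans (inf_le_left.trans (h.sylow_le (hS.pg Nat.prime_two) hQ)))) inf_le_left]
  obtain ⟨r, hr, hr'⟩ : ∃ r ∈ L ⊓ C_[w], r ∉ zpowers w := SetLike.not_le_iff_exists.1 fun e' => by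
    obtain ⟨T, hT⟩ := sy.exists_sylow Nat.prime_two
    have := simple_of_comp hL hZ
    obtain ⟨H, hH⟩ := H08.exists_index_two_of_cyclic_sylow (even_iff_two_dvd.2 (ow ▸ orderOf_dvd_card hw)) T
      (by rw [(equivMapOfInjective _ _ L.subtype_injective).isCyclic, hT]; exact cyclic_of_le (cyclic_zpowers w) e')
    exact H08.index_ne_two_of_simple (fun e => H22.comp_not_solvable hL (pg_sol Nat.prime_two (pg_of_card_eq e))) H hH
  have r1 : r ≠ 1 := fun e => hr' (e ▸ one_mem _)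
  have nz : r * (u * r⁻¹ * u⁻¹) ∉ zpowers z := fun e' => (h.aes.eq_or e').elim
    (fun e' => r1 (uq hr.1 (one_mem _) (hs r hr.1) (one_mem _) (by rw [e', mul_one])))
    fun e' => hr' (uq hr.1 hw (hs r hr.1) hyc (e'.trans e.symm) ▸ mem_zpowers _)
  have dc : ∀ {M}, IsComponent M → M ≠ L → M ≠ BG.cj u L → r * (u * r⁻¹ * u⁻¹) ∈ C_(M) := fun hM h1 h2 =>
    mul_mem (comm_eq_bot.1 (H22.comp_comm_of_ne hL hM h1.symm) hr.1)
      (comm_eq_bot.1 (H22.comp_comm_of_ne (cc u) hM h2.symm) (conj_mem_cj u (inv_mem hr.1)))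
  have uz : u⁻¹ * z * u = z := by rw [mul_assoc, ← mem_cent1.1 (aes_le h.aes hu), inv_mul_cancel_left]
  have all : ∀ M, IsComponent M → M = L ∨ M = BG.cj u L := fun M hM => by
    by_contra! e'
    obtain ⟨q, hq, -, h1⟩ := h.exists_conj (zpowers_le.2 h.aes.mem) (mem_zpowers z) (hd r hr) nz
    have h2 : r * (u * r⁻¹ * u⁻¹) * z ∈ C_(BG.cj q M) := by
      rw [← h1, ← cj_cent]; exact conj_mem_cj q (dc hM e'.1 e'.2)
    have hM' : IsComponent (BG.cj q M) := cj_eq_map q M ▸ H22.comp_conj hM q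
    by_cases e1 : BG.cj q M = L
    · rw [e1, ← e, ← (cm hw (hs r hr.1)).mul_mul_mul_comm, mul_mem_cancel_right (mul_mem (hs r hr.1) hyc)] at h2
      exact hr' (eq_inv_of_mul_eq_one_left (eq_one_of_mem_of_disj hZ (mul_mem hr.1 hw) h2) ▸ inv_mem (mem_zpowers w))
    by_cases e2 : BG.cj q M = BG.cj u L
    · have h3 : u⁻¹ * r * u ∈ C_(L) := c2 (by simpa using conj_mem_cj u⁻¹ hr.1)
      rw [e2, ← cj_cent, mem_cj, show u⁻¹ * (r * (u * r⁻¹ * u⁻¹) * z) * u = u⁻¹ * r * u * (r⁻¹ * (u⁻¹ * z * u)) by group,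
        uz, mul_mem_cancel_left h3, ← e, ← mul_assoc, mul_mem_cancel_right hyc] at h2
      exact hr' (inv_mul_eq_one.1 (eq_one_of_mem_of_disj hZ (mul_mem (inv_mem hr.1) hw) h2) ▸ mem_zpowers _)
    exact h.comp_not hM' ((mul_mem_cancel_left (dc hM' e1 e2)).1 h2)
  have hE : L ⊔ BG.cj u L = layer G := le_antisymm (sup_le (H22.le_layer hL) (H22.le_layer (cc u)))
    (H22.layer_le_iff.2 fun M hM => (all M hM).elim (fun e => e ▸ le_sup_left) fun e => e ▸ le_sup_right)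
  refine ⟨w, hw, hE, ?_, sy, sq, fun e' => nz ((by rw [commutatorElement_def]; group : ⁅r, u⁆ = r * (u * r⁻¹ * u⁻¹)) ▸ h.aes.comm r ?_ u hu)⟩
  · obtain ⟨a, ha, b, hb, e'⟩ := (mem_sup_norm (le_norm_of_cent c1)).1 (hE ▸ h.mem_layer h4 hL)
    obtain rfl := uq ha hw (c1 hb) hyc (e'.trans e.symm)
    have h3 : u⁻¹ * a * u ∈ C_(L) := c2 (by simpa using conj_mem_cj u⁻¹ ha)
    have h5 := uq (mem_cj.1 hb) ha h3 (c1 hb) (by
      rw [e', (cm (mem_cj.1 hb) h3).eq, ← uz, ← e']; group)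
    rw [← e', ← h5]; group
  · have h1 : IsPGroup 2 ↥(layer G ⊓ C_[z]) := by
      have h2 : layer G ⊓ C_[z] ≤ (L ⊓ C_[w]) ⊔ BG.cj u (L ⊓ C_[w]) := fun x hx => by
        obtain ⟨a, ha, b, hb, rfl⟩ := (mem_sup_norm (le_norm_of_cent c1)).1 (hE ▸ hx.1)
        have h3 : a ∈ C_[w] := mem_cent1.2 (uq (mul_mem ha hw) (mul_mem hw ha) (mul_mem (c1 hb) hyc) (mul_mem hyc (c1 hb)) (by
          rw [← (cm hw (c1 hb)).symm.mul_mul_mul_comm, ← (cm ha hyc).symm.mul_mul_mul_comm, e]; exact mem_cent1.1 hx.2))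
        have h5 : a ∈ L ⊓ C_[w] := ⟨ha, h3⟩
        refine mul_mem_sup h5 ?_
        rw [hR, cj_inf, cj_of_mem (aes_le h.aes hu)]
        exact ⟨hb, (mul_mem_cancel_left (mem_inf.1 (hR ▸ h5)).2).1 (mem_inf.1 hx).2⟩
      exact pg_le (pg_sup pg (isPGroup_cj.2 pg) (le_norm_of_cent (le_cent_mono c1 (cj_mono u inf_le_left) inf_le_left))) h2
    exact e' ▸ H02.le_pCoreOf inf_le_right (le_norm_inf' (le_norm_normal _ _)) h1 ⟨H22.le_layer hL hr.1, (hR ▸ hr).2⟩

theorem simple_of (h : ES Q z) (h4 : L4 Q) (hQ : Q = QQ z) (hne : ¬ Q ≤ zpowers z) (hC : C_[z] ≤ normalClosure {z}) :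
    IsSimpleGroup G := by
  by_cases hE : layer G = ⊥
  · have h1 := (aes_le h.aes).trans (hC.trans (h.no_comp h4 hE).2)
    exact absurd ((le_cent_mono (h1.trans inf_le_right) le_rfl (h1.trans inf_le_left)).trans h.cent) hne
  obtain ⟨L, hL⟩ : ∃ L : Subgroup G, IsComponent L := by simpa [H22.layer_eq_bot_iff] using hE
  have h1 : normalClosure {z} = L := (h.ncl_eq h4 hL).trans (le_antisymm (H22.layer_le_iff.2 fun M hM => by
    obtain ⟨q, hq, rfl⟩ := h.comp_trans h4 hL hM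
    by_contra e
    obtain ⟨-, -, -, -, -, -, e'⟩ := h.two_comp h4 hL hq fun e' => e e'.le
    exact e' hQ) (H22.le_layer hL))
  have := simple_of_comp hL (h.comp_center h4 hL)
  have hn : L.Normal := h1 ▸ inferInstance
  obtain ⟨S, hS, h2⟩ := sylow_superset Nat.prime_two h.aes.isPGroup ((aes_le h.aes).trans (h1 ▸ hC))
  have h3 : S ⊓ C_(S) = zpowers z := le_antisymm (inf_le_right.trans ((cent_anti h2).trans h.cent))
    (zpowers_le.2 ⟨h2 h.aes.mem, le_cent1_iff.1 (h.sylow_le (hS.pg Nat.prime_two) h2)⟩)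
  have h5 := sylow_frattini Nat.prime_two hS le_top (le_norm_normal _ _)
  rw [sup_eq_left.2 (inf_le_right.trans (((h3 ▸ norm_inf le_rfl (norm_le_norm_cent S) : N_(S) ≤ N_(zpowers z)).trans
    (H01.le_cent_of_card_two h.card_z le_rfl)).trans (by rw [cent_zpowers, ← h1]; exact hC)))] at h5
  exact ((MulEquiv.subgroupCongr h5).trans topEquiv).symm.isSimpleGroup

end ES

theorem QQ_eq_of_fstar (h1 : IsPGroup 2 Q) (hF : H22.fstarOf C_[z] = Q) : Q = QQ z :=
  le_antisymm (H02.le_pCoreOf (hF ▸ H22.fstarOf_le _) (hF ▸ (le_norm _).trans (H22.normalizer_le_normalizer_fstarOf _)) h1)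
    (hF ▸ map_mono H22.pCore_le_fstar)

end H03
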