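import Mathlib
import Cfsg.Agent.H03.LX4

/-!
Large extraspecial 2-subgroups, part 5 (namespace H03): large extraspecial subgroups in sections (`large_quot`),
`ES.cent_odd`.
-/

set_option autoImplicit false
open Cfsg BG H04 Subgroup
open scoped commutatorElement

namespace H03

variable {G : Type*} [Group G] [Finite G] {H K L M N P A B Q Q' R U W : Subgroup G} {a b g s t u v x y z : G} {p : ℕ}

theorem large_quot [(N.subgroupOf H).Normal] (h : AES 2 P z) (hP : P ≤ H) (hN : N ≤ H) (hz : z ∉ N)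
    (h1 : ∀ c ∈ H, c * z * c⁻¹ * z⁻¹ ∈ N → c ∈ N_(P))
    (h2 : ∀ c ∈ H, (∀ x ∈ P, c * x * c⁻¹ * x⁻¹ ∈ N) → c ∈ N ⊔ zpowers z)
    (hg : g ∈ H) (hs : g * z * g⁻¹ ∈ P) (h3 : g * z * g⁻¹ * z⁻¹ ∉ N) (hc : 8 * Nat.card ↥(N ⊓ P) < Nat.card P) :
    IsLargeExtraspecial ((P.subgroupOf H).map (QuotientGroup.mk' (N.subgroupOf H))) := by
  set f := QuotientGroup.mk' (N.subgroupOf H)
  have k : ∀ x : H, f x = 1 ↔ (x : G) ∈ N := fun x => QuotientGroup.eq_one_iff x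
  have hz' := hP h.mem
  have kz : ∀ x : H, (x : G) ∈ zpowers z → f x ∈ zpowers (f ⟨z, hz'⟩) := fun x ⟨n, hn⟩ =>
    ⟨n, by rw [← Subtype.ext (a2 := x) (a1 := ⟨z, hz'⟩ ^ n) hn, map_zpow]⟩
  have kc : ∀ c x : H, f c * f x = f x * f c → (c : G) * x * c⁻¹ * x⁻¹ ∈ N := fun c x e => (k (c * x * c⁻¹ * x⁻¹)).1 (by
    simp only [map_mul, map_inv, e]; group)
  have e : ES ((P.subgroupOf H).map f) (f ⟨z, hz'⟩) := by
    refine ⟨⟨orderOf_eq_prime (by rw [pow_two, ← map_mul, show (⟨z, hz'⟩ : H) * ⟨z, hz'⟩ = 1 from Subtype.ext h.mul_self, map_one])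
      (mt (k _).1 hz), mem_map_of_mem f h.mem, ?_, ?_, ?_⟩, fun c hc => ?_, fun c hc => ?_⟩
    · rintro _ ⟨x, hx, rfl⟩
      rw [← map_mul, ← map_mul]
      exact congrArg f (Subtype.ext (h.cent x hx))
    · rintro _ ⟨x, hx, rfl⟩ _ ⟨y, hy, rfl⟩
      rw [← map_commutatorElement]
      exact kz _ (h.comm _ hx _ hy)
    · rintro _ ⟨x, hx, rfl⟩
      rw [← map_pow]
      exact kz _ (h.pow _ hx)
    · obtain ⟨c, rfl⟩ := QuotientGroup.mk'_surjective _ c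
      obtain ⟨n, hn, w, hw, e⟩ := (mem_sup_norm ((zpowers_le.2 hz').trans (normal_subgroupOf_iff_le_normalizer hN |>.1 ‹_›))).1
        (h2 c c.2 fun x hx => kc c ⟨x, hP hx⟩ (mem_cent.1 hc _ (mem_map_of_mem f (show (⟨x, hP hx⟩ : H) ∈ _ from hx))).symm)
      rw [show c = ⟨n, hN hn⟩ * ⟨w, zpowers_le.2 hz' hw⟩ from Subtype.ext e.symm, map_mul, (k ⟨n, hN hn⟩).2 hn, one_mul]
      exact kz _ hw
    · obtain ⟨c, rfl⟩ := QuotientGroup.mk'_surjective _ c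
      refine mem_norm_of_cj_le fun y hy => ?_
      obtain ⟨_, ⟨x, hx, rfl⟩, rfl⟩ := mem_cj'.1 hy
      exact ⟨c * x * c⁻¹, conj_mem_of_norm (K := P) (h1 c c.2 (kc c _ (mem_cent1.1 hc))) hx, by simp [f]⟩
  have hc' : 8 < Nat.card ((P.subgroupOf H).map f) := by
    rw [← relIndex_ker, QuotientGroup.ker_mk', relIndex_subgroupOf hP]
    exact Nat.lt_of_mul_lt_mul_left (a := Nat.card ↥(N ⊓ P)) (by rwa [BG.card_inf_mul_relIndex, mul_comm])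
  refine e.isLarge (fun e' => ?_) fun A hA hn => e.large' (g := f ⟨g, hg⟩)
    ⟨⟨g, hg⟩ * ⟨z, hz'⟩ * ⟨g, hg⟩⁻¹, hs, by simp only [map_mul, map_inv]⟩ (fun e' => h3 (kc ⟨g, hg⟩ ⟨z, hz'⟩ (mul_inv_eq_iff_eq_mul.1 e'))) hc' hA hn
  have := card_le e'
  rw [e.card_z] at this
  omega

/-- the centraliser of a subgroup of odd order in `Q` is extraspecial -/
theorem ES.cent_odd (h : ES Q z) (hA : Odd (Nat.card A)) (h1 : A ≤ C_[z]) : Q ⊓ C_(A) ⊓ C_(Q ⊓ C_(A)) ≤ zpowers z := by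
  have h2 : ⁅A, Q⁆ ≤ C_(Q ⊓ C_(A)) := comm_eq_bot.1 (three_subgroup
    (comm_eq_bot.2 (((comm_mono le_rfl inf_le_left).trans h.aes.der_le).trans (zpowers_le.2 (le_cent1_iff.1 h1))))
    (by rw [comm_eq_bot.2 inf_le_right, commutator_bot_left]))
  refine le_trans ?_ h.cent
  nth_rw 3 [← coprime_comm_sup_cent (h1.trans h.norm) (pg_coprime Nat.prime_two h.aes.isPGroup hA.not_two_dvd_nat).symm
    (Or.inr (pg_sol Nat.prime_two h.aes.isPGroup))]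
  exact le_cent_sup (inf_le_left.trans (cent_symm (comm_comm A Q ▸ h2))) inf_le_right

omit [Finite G] in
theorem conj_back (hx : x ∈ A) (hy : y ∈ B) (h1 : x * s * x⁻¹ = s * z) (h2 : y * z * y⁻¹ = z * s) (h3 : s * z = z * s) :
    y⁻¹ * x ∈ A ⊔ B ∧ y⁻¹ * x * s * (y⁻¹ * x)⁻¹ = z :=
  ⟨mul_mem (mem_sup_right (inv_mem hy)) (mem_sup_left hx), by
    rw [show y⁻¹ * x * s * (y⁻¹ * x)⁻¹ = y⁻¹ * (x * s * x⁻¹) * y by group, h1, h3, ← h2]; group⟩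

end H03
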