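import Mathlib
import Cfsg.Prelude.Def_AxialAlgebras

/-! Majorana axes: eigen-decomposition, fusion rules, and the basic products of the
dihedral (Norton-Sakuma) algebra. -/

namespace H03
namespace Maj
open Cfsg.Axial

variable {V : Type*} [AddCommGroup V] [Module ℝ V]

/-- Working form of a Majorana axis of length one. -/
structure Ax (mul : V →ₗ[ℝ] V →ₗ[ℝ] V) (B : LinearMap.BilinForm ℝ V) (τ : V ≃ₗ[ℝ] V) (A : V) : Prop where
  tmul : ∀ u v, τ (mul u v) = mul (τ u) (τ v)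
  tB : ∀ u v, B (τ u) (τ v) = B u v
  idem : mul A A = A
  len : B A A = 1
  dec : ∀ v, ∃ x0 x4 x32, v = B v A • A + x0 + x4 + x32 ∧ mul A x0 = 0 ∧ mul A x4 = (1/4 : ℝ) • x4 ∧
    mul A x32 = (1/32 : ℝ) • x32 ∧ τ v = B v A • A + x0 + x4 - x32
  f00 : ∀ x y, mul A x = 0 → mul A y = 0 → mul A (mul x y) = 0
  f04 : ∀ x y, mul A x = 0 → mul A y = (1/4 : ℝ) • y → mul A (mul x y) = (1/4 : ℝ) • mul x y
  f44 : ∀ x y, mul A x = (1/4 : ℝ) • x → mul A y = (1/4 : ℝ) • y →
    mul A (mul x y) = (B x y / 4) • A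

variable {mul : V →ₗ[ℝ] V →ₗ[ℝ] V} {B : LinearMap.BilinForm ℝ V}

theorem mem_eigen {a v : V} {c : ℝ} : v ∈ eigen mul a c ↔ mul a v = c • v :=
  Module.End.mem_eigenspace_iff

theorem ax_of (hV : IsMajoranaAmbient mul B) {τ : V ≃ₗ[ℝ] V} {A : V} (h : IsMajoranaPair mul B τ A)
    (h1 : B A A = 1) : Ax mul B τ A := by
  obtain ⟨hc, hs, hp, has, -⟩ := hV
  obtain ⟨h1', h2, ⟨⟨hne, hid, htop, hfus⟩, hprim⟩, hm1, hm2⟩ := h
  have horth : ∀ x (c : ℝ), c ≠ 1 → mul A x = c • x → B x A = 0 := by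
    intro x c hc1 hx
    have e1 : B x (mul A A) = B (mul x A) A := has _ _ _
    rw [hid, hc x A, hx, map_smul, LinearMap.smul_apply, smul_eq_mul] at e1
    have : (1 - c) * B x A = 0 := by linarith
    rcases mul_eq_zero.1 this with h | h
    · exact absurd (by linarith) hc1
    · exact h
  have hone : ∀ x, mul A x = (1 : ℝ) • x → ∃ c : ℝ, x = c • A := by
    intro x hx
    have : x ∈ eigen mul A 1 := mem_eigen.2 hx
    rw [hprim, Submodule.mem_span_singleton] at this
    obtain ⟨c, hc⟩ := this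
    exact ⟨c, hc.symm⟩
  have hsub : ∀ (c : ℝ) (S : Set ℝ), c ∈ S → eigen mul A c ≤ eigenSum mul A S := fun c S hcS =>
    le_iSup₂_of_le (f := fun c (_ : c ∈ S) => eigen mul A c) c hcS le_rfl
  refine ⟨h1', h2, hid, h1, ?_, ?_, ?_, ?_⟩
  · intro v
    have hv : v ∈ eigenSum mul A majoranaSpectrum := htop ▸ Submodule.mem_top
    have hle : eigenSum mul A majoranaSpectrum ≤
        eigen mul A 1 ⊔ eigen mul A 0 ⊔ eigen mul A (1/4) ⊔ eigen mul A (1/32) := by
      refine iSup₂_le fun c hc => ?_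
      rcases hc with rfl | rfl | rfl | rfl
      · exact le_sup_of_le_left (le_sup_of_le_left le_sup_left)
      · exact le_sup_of_le_left (le_sup_of_le_left le_sup_right)
      · exact le_sup_of_le_left le_sup_right
      · exact le_sup_right
    obtain ⟨y, hy, x32, h32, rfl⟩ := Submodule.mem_sup.1 (hle hv)
    obtain ⟨z, hz, x4, h4, rfl⟩ := Submodule.mem_sup.1 hy
    obtain ⟨x1, hx1, x0, h0, rfl⟩ := Submodule.mem_sup.1 hz
    have t1 : τ x1 = x1 := hm1 _ (hsub 1 _ (by simp) hx1)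
    have t0 : τ x0 = x0 := hm1 _ (hsub 0 _ (by simp) h0)
    have t4 : τ x4 = x4 := hm1 _ (hsub (1/4) _ (by simp) h4)
    have t32 : τ x32 = -x32 := hm2 _ h32
    obtain ⟨c, rfl⟩ := hone _ (mem_eigen.1 hx1)
    rw [mem_eigen] at h0 h4 h32
    have hB : B (c • A + x0 + x4 + x32) A = c := by
      simp only [map_add, map_smul, LinearMap.add_apply, LinearMap.smul_apply, h1,
        horth _ _ (by norm_num) h0, horth _ _ (by norm_num) h4, horth _ _ (by norm_num) h32]
      simp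
    refine ⟨x0, x4, x32, by rw [hB], by simpa using h0, h4, h32, ?_⟩
    rw [hB, map_add, map_add, map_add, t1, t0, t4, t32, sub_eq_add_neg]
  · intro x y hx hy
    have := hfus 0 (by simp [majoranaSpectrum]) 0 (by simp [majoranaSpectrum]) x
      (mem_eigen.2 (by simpa using hx)) y (mem_eigen.2 (by simpa using hy))
    have e : monsterLaw (1/4 : ℝ) (1/32) 0 0 = {0} := by
      unfold monsterLaw; norm_num
    rw [e] at this
    have hle : eigenSum mul A {0} ≤ eigen mul A 0 := iSup₂_le fun c hc => by rw [hc]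
    simpa using mem_eigen.1 (hle this)
  · intro x y hx hy
    have := hfus 0 (by simp [majoranaSpectrum]) (1/4) (by simp [majoranaSpectrum]) x
      (mem_eigen.2 (by simpa using hx)) y (mem_eigen.2 hy)
    have e : monsterLaw (1/4 : ℝ) (1/32) 0 (1/4) = {1/4} := by
      unfold monsterLaw; norm_num
    rw [e] at this
    have hle : eigenSum mul A {1/4} ≤ eigen mul A (1/4) := iSup₂_le fun c hc => by rw [hc]
    exact mem_eigen.1 (hle this)
  · intro x y hx hy
    have := hfus (1/4) (by simp [majoranaSpectrum]) (1/4) (by simp [majoranaSpectrum]) x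
      (mem_eigen.2 hx) y (mem_eigen.2 hy)
    have e : monsterLaw (1/4 : ℝ) (1/32) (1/4) (1/4) = {1, 0} := by
      unfold monsterLaw; norm_num
    rw [e] at this
    have hle : eigenSum mul A {1, 0} ≤ eigen mul A 1 ⊔ eigen mul A 0 := by
      refine iSup₂_le fun c hc => ?_
      rcases hc with rfl | rfl
      · exact le_sup_left
      · exact le_sup_right
    obtain ⟨x1, hx1, x0, h0, he⟩ := Submodule.mem_sup.1 (hle this)
    obtain ⟨c, rfl⟩ := hone _ (mem_eigen.1 hx1)
    rw [mem_eigen] at h0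
    have e1 : B (mul x y) A = c := by
      rw [← he]
      simp only [map_add, map_smul, LinearMap.add_apply, LinearMap.smul_apply, h1,
        horth _ _ (by norm_num) h0]
      simp
    have e2 : B (mul x y) A = B x y / 4 := by
      rw [← has, hc y A, hy, map_smul, smul_eq_mul]; ring
    rw [← he, ← e2, e1, map_add, map_smul, hid, h0]; simp

namespace Ax
variable {τ : V ≃ₗ[ℝ] V} {A : V}

theorem anti (h : Ax mul B τ A) (v : V) : mul A (τ v) = mul A v - (1/32 : ℝ) • (v - τ v) := by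
  obtain ⟨x0, x4, x32, h1, h2, h3, h4, h5⟩ := h.dec v
  generalize B v A = c at h1 h5
  rw [h5, h1]
  simp only [map_add, map_sub, map_smul, h4]
  module

theorem invol (h : Ax mul B τ A) (v : V) : τ (τ v) = v := by
  obtain ⟨x0, x4, x32, h1, h2, h3, h4, h5⟩ := h.dec v
  obtain ⟨y0, y4, y32, g1, g2, g3, g4, g5⟩ := h.dec (v - τ v)
  have hA := h.idem
  have e0 : v - τ v = (2 : ℝ) • x32 := by rw [h5]; nth_rewrite 1 [h1]; module
  generalize B (v - τ v) A = c at g1 g5
  -- apply (L)(L - 1/4)(L - 1) to kill the plus part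
  have k1 : mul A (v - τ v) = (1/32 : ℝ) • (v - τ v) := by rw [e0, map_smul, h4]; module
  set w := v - τ v with hw
  have k2 : c • A + (1/4 : ℝ) • y4 + (1/32 : ℝ) • y32 = (1/32 : ℝ) • (c • A + y0 + y4 + y32) := by
    rw [← g1, ← k1, g1]; simp only [map_add, map_smul, g2, g3, g4, hA]; module
  have k3 := congrArg (mul A) k2
  simp only [map_add, map_smul, g2, g3, g4, hA] at k3
  have k4 := congrArg (mul A) k3
  simp only [map_add, map_smul, g2, g3, g4, hA, map_zero] at k4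
  have hc : c • A = 0 := by
    linear_combination (norm := module) (128/93 : ℝ) • k4 - (32/93 : ℝ) • k3
  have hy4 : y4 = 0 := by
    linear_combination (norm := module) (128/7 : ℝ) • k3 - (124/7 : ℝ) • hc
  have hy0 : y0 = 0 := by
    linear_combination (norm := module) (-32 : ℝ) • k2 + (31 : ℝ) • hc + (7 : ℝ) • hy4
  have : τ w = -w := by rw [g5, g1, hc, hy4, hy0]; simp
  rw [hw, map_sub] at this
  linear_combination (norm := module) (-1 : ℝ) • this

theorem fix (h : Ax mul B τ A) : τ A = A := by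
  obtain ⟨x0, x4, x32, h1, h2, h3, h4, h5⟩ := h.dec A
  rw [h.len] at h1 h5
  have k3 := congrArg (mul A) h1
  simp only [map_add, map_smul, h2, h3, h4, h.idem] at k3
  have k4 := congrArg (mul A) k3
  simp only [map_add, map_smul, h2, h3, h4, h.idem, map_zero] at k4
  have : x32 = 0 := by
    linear_combination (norm := module) (-256/7 : ℝ) • k3 + (1024/7 : ℝ) • k4
  rw [h5, this]; rw [this] at h1; simpa using h1.symm

/-- The quadratic relation on the plus part. -/
theorem quad (h : Ax mul B τ A) (v : V) :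
    mul A (mul A (v + τ v)) = (1/4 : ℝ) • mul A (v + τ v) + (3/2 * B v A) • A := by
  obtain ⟨x0, x4, x32, h1, h2, h3, h4, h5⟩ := h.dec v
  generalize B v A = c at h1 h5
  rw [h5, h1]
  simp only [map_add, map_sub, map_smul, h2, h3, h4, h.idem, map_zero]
  module

/-- The Miyamoto involution is determined by the axis. -/
theorem uniq {τ' : V ≃ₗ[ℝ] V} (h : Ax mul B τ A) (h' : Ax mul B τ' A) : τ = τ' := by
  ext v
  obtain ⟨x0, x4, x32, h1, h2, h3, h4, h5⟩ := h.dec v
  obtain ⟨y0, y4, y32, g1, g2, g3, g4, g5⟩ := h'.dec v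
  generalize B v A = c at h1 h5 g1 g5
  have k2 : c • A + x0 + x4 + x32 = c • A + y0 + y4 + y32 := h1.symm.trans g1
  have k3 := congrArg (mul A) k2
  simp only [map_add, map_smul, g2, g3, g4, h2, h3, h4, h.idem] at k3
  have k4 := congrArg (mul A) k3
  simp only [map_add, map_smul, g2, g3, g4, h2, h3, h4, h.idem, map_zero] at k4
  have : x32 = y32 := by
    linear_combination (norm := module) (256/7 : ℝ) • k3 - (1024/7 : ℝ) • k4
  rw [h5, g5]
  linear_combination (norm := module) k2 - (2 : ℝ) • this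

theorem conj {σ : V ≃ₗ[ℝ] V} (h : Ax mul B τ A) (gm : ∀ u v, σ (mul u v) = mul (σ u) (σ v))
    (gB : ∀ u v, B (σ u) (σ v) = B u v) : Ax mul B (σ * τ * σ⁻¹) (σ A) := by
  have hi : ∀ v, σ (σ⁻¹ v) = v := fun v => σ.apply_symm_apply v
  have hi' : ∀ v, σ⁻¹ (σ v) = v := fun v => σ.symm_apply_apply v
  have gm' : ∀ u v, σ⁻¹ (mul u v) = mul (σ⁻¹ u) (σ⁻¹ v) := fun u v => by
    rw [← hi' (mul (σ⁻¹ u) _), gm, hi, hi]
  have gB' : ∀ u v, B (σ⁻¹ u) (σ⁻¹ v) = B u v := fun u v => by rw [← gB, hi, hi]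
  have tm : ∀ u, mul (σ A) u = σ (mul A (σ⁻¹ u)) := fun u => by rw [gm, hi]
  have tb : ∀ u, B u (σ A) = B (σ⁻¹ u) A := fun u => by rw [← gB' u, hi']
  have ap : ∀ v, (σ * τ * σ⁻¹) v = σ (τ (σ⁻¹ v)) := fun v => rfl
  refine ⟨fun u v => by rw [ap, ap, ap, gm', h.tmul, gm], fun u v => by rw [ap, ap, gB, h.tB, gB'],
    by rw [← gm, h.idem], by rw [gB, h.len], fun v => ?_, fun x y hx hy => ?_,
    fun x y hx hy => ?_, fun x y hx hy => ?_⟩
  · obtain ⟨x0, x4, x32, h1, h2, h3, h4, h5⟩ := h.dec (σ⁻¹ v)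
    refine ⟨σ x0, σ x4, σ x32, ?_, ?_, ?_, ?_, ?_⟩
    · rw [tb, ← map_smul, ← map_add, ← map_add, ← map_add, ← h1, hi]
    · rw [tm, hi', h2, map_zero]
    · rw [tm, hi', h3, map_smul]
    · rw [tm, hi', h4, map_smul]
    · rw [tb, ap, h5]; simp
  · rw [tm] at hx hy ⊢
    rw [gm' x y, h.f00 _ _ (by simpa using hx) (by simpa using hy), map_zero]
  · rw [tm] at hx hy ⊢
    have hy' : mul A (σ⁻¹ y) = (1/4 : ℝ) • σ⁻¹ y := by rw [← map_smul, ← hy, hi']
    rw [gm' x y, h.f04 _ _ (by simpa using hx) hy', map_smul, ← gm', hi]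
  · rw [tm] at hx hy ⊢
    have hy' : mul A (σ⁻¹ y) = (1/4 : ℝ) • σ⁻¹ y := by rw [← map_smul, ← hy, hi']
    have hx' : mul A (σ⁻¹ x) = (1/4 : ℝ) • σ⁻¹ x := by rw [← map_smul, ← hx, hi']
    rw [gm' x y, h.f44 _ _ hx' hy', map_smul, gB']

end Ax
end Maj
end H03
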