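import Mathlib
import Cfsg.Agent.H03.Maj1

/-! The Norton-Sakuma computation for a dihedral sequence of Majorana axes. -/

namespace H03
namespace Maj
open Cfsg.Axial

variable {V : Type*} [AddCommGroup V] [Module ℝ V]
variable {mul : V →ₗ[ℝ] V →ₗ[ℝ] V} {B : LinearMap.BilinForm ℝ V}

/-- `σ(x,y) = xy - (x+y)/32`. -/
noncomputable def sg (mul : V →ₗ[ℝ] V →ₗ[ℝ] V) (x y : V) : V := mul x y - (1/32 : ℝ) • (x + y)

theorem mul_eq_sg (x y : V) : mul x y = sg mul x y + (1/32 : ℝ) • (x + y) := by simp [sg]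

theorem sg_comm (hc : ∀ u v, mul u v = mul v u) (x y : V) : sg mul x y = sg mul y x := by
  rw [sg, sg, hc, add_comm]

theorem Ax.sg_tau {τ : V ≃ₗ[ℝ] V} {A : V} (h : Ax mul B τ A) (v : V) :
    sg mul A (τ v) = sg mul A v := by
  rw [sg, sg, h.anti]; module

theorem Ax.mul_sg {τ : V ≃ₗ[ℝ] V} {A : V} (h : Ax mul B τ A) (v : V) :
    mul A (sg mul A v) = (7/32 : ℝ) • sg mul A v + (3/4 * B v A - 25/1024) • A +
      (7/2048 : ℝ) • (v + τ v) := by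
  have q := h.quad v
  have e := h.anti v
  have e2 := congrArg (mul A) e
  have e3 := h.anti (τ v)
  rw [h.invol] at e3
  simp only [map_add, map_sub, map_smul, sg, h.idem] at q e2 ⊢
  linear_combination (norm := module) (1/2 : ℝ) • q - (1/2 : ℝ) • e2 + (7/64 : ℝ) • e

/-- Core resurrection computation. -/
theorem core (hc : ∀ u v, mul u v = mul v u) {τ : V ≃ₗ[ℝ] V} {am2 am1 a0 a1 a2 s t0 t1 : V} {l m : ℝ}
    (h : Ax mul B τ a0)
    (h01 : mul a0 a1 = s + (1/32 : ℝ) • (a0 + a1))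
    (h0m1 : mul a0 am1 = s + (1/32 : ℝ) • (a0 + am1))
    (h02 : mul a0 a2 = t0 + (1/32 : ℝ) • (a0 + a2))
    (h0m2 : mul a0 am2 = t0 + (1/32 : ℝ) • (a0 + am2))
    (h1m1 : mul a1 am1 = t1 + (1/32 : ℝ) • (a1 + am1))
    (h11 : mul a1 a1 = a1) (hm11 : mul am1 am1 = am1)
    (h0s : mul a0 s = (7/32 : ℝ) • s + (3/4 * l - 25/1024) • a0 + (7/2048 : ℝ) • (a1 + am1))
    (h1s : mul a1 s = (7/32 : ℝ) • s + (3/4 * l - 25/1024) • a1 + (7/2048 : ℝ) • (a0 + a2))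
    (hm1s : mul am1 s = (7/32 : ℝ) • s + (3/4 * l - 25/1024) • am1 + (7/2048 : ℝ) • (a0 + am2))
    (hbb : B ((1/16 : ℝ) • am1 + (1/8 - 4 * l) • a0 + (1/16 : ℝ) • a1 + (4 : ℝ) • s)
      ((1/16 : ℝ) • am1 + (1/8 - 4 * l) • a0 + (1/16 : ℝ) • a1 + (4 : ℝ) • s) =
      -4 * l ^ 2 + 4 * l + m / 16 - 1 / 16) :
    mul a0 t1 = (l / 6 - 19/3072) • (am1 + a1) + (7/6144 : ℝ) • (am2 + a2) +
        (-32/3 * l ^ 2 + 5/3 * l - m / 24 - 127/3072) • a0 + (32/3 * l - 19/48) • s +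
        (7/96 : ℝ) • t0 ∧
      mul s s = (49/768 * l - 245/196608) • (am1 + a1) + (49/196608 : ℝ) • (am2 + a2) +
        (7/6 * l ^ 2 - 7/384 * l + 7/1536 * m - 7/98304) • a0 + (-5/12 * l - 13/1536) • s -
        (7/1536 : ℝ) • t0 + (7/2048 : ℝ) • t1 := by
  have h00 := h.idem
  have h10 := (hc _ _).trans h01
  have hm10 := (hc _ _).trans h0m1
  have hm1p := (hc _ _).trans h1m1
  have hs0 := (hc _ _).trans h0s
  have hs1 := (hc _ _).trans h1s
  have hsm1 := (hc _ _).trans hm1s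
  obtain ⟨α, hα⟩ : ∃ α, α = (7/16 : ℝ) • am1 + (3 * l - 1/8) • a0 + (7/16 : ℝ) • a1 + (-4 : ℝ) • s :=
    ⟨_, rfl⟩
  obtain ⟨β, hβ⟩ : ∃ β, β = (1/16 : ℝ) • am1 + (1/8 - 4 * l) • a0 + (1/16 : ℝ) • a1 + (4 : ℝ) • s :=
    ⟨_, rfl⟩
  rw [← hβ] at hbb
  have e0 : mul a0 α = 0 := by
    simp only [hα, map_add, map_smul, h00, h01, h0m1, h0s]; module
  have e4 : mul a0 β = (1/4 : ℝ) • β := by
    simp only [hβ, map_add, map_smul, h00, h01, h0m1, h0s]; module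
  have F1 := h.f00 _ _ e0 e0
  have F2 := h.f04 _ _ e0 e4
  have F3 := h.f44 _ _ e4 e4
  rw [hbb] at F3
  obtain ⟨z, hz⟩ : ∃ z, z = mul s s := ⟨_, rfl⟩
  have haa : mul α α = (-21/8 * l + 1183/4096) • (am1 + a1) + (-49/4096 : ℝ) • (am2 + a2) +
      (-9 * l ^ 2 + 3/4 * l - 81/2048) • a0 + (16 : ℝ) • z + (-49/32 : ℝ) • s + (49/128 : ℝ) • t1 := by
    simp only [hα, map_add, map_smul, LinearMap.add_apply, LinearMap.smul_apply, h00, h01, h0m1, h0s,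
      h10, hm10, hm1p, hs0, hs1, hsm1, h1m1, h11, hm11, h1s, hm1s, ← hz]
    module
  have hab : mul α β = (75/64 * l - 39/4096) • (am1 + a1) + (21/4096 : ℝ) • (am2 + a2) +
      (9 * l ^ 2 - 21/32 * l + 45/2048) • a0 + (-16 : ℝ) • z + (3 * l + 17/32 : ℝ) • s +
      (7/128 : ℝ) • t1 := by
    simp only [hα, hβ, map_add, map_smul, LinearMap.add_apply, LinearMap.smul_apply, h00, h01, h0m1,
      h0s, h10, hm10, hm1p, hs0, hs1, hsm1, h1m1, h11, hm11, h1s, hm1s, ← hz]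
    module
  have hbb' : mul β β = (1/4 * l - 17/4096) • (am1 + a1) + (7/4096 : ℝ) • (am2 + a2) +
      (-8 * l ^ 2 + 1/2 * l - 9/2048) • a0 + (16 : ℝ) • z + (-8 * l + 15/32 : ℝ) • s +
      (1/128 : ℝ) • t1 := by
    simp only [hβ, map_add, map_smul, LinearMap.add_apply, LinearMap.smul_apply, h00, h01, h0m1,
      h0s, h10, hm10, hm1p, hs0, hs1, hsm1, h1m1, h11, hm11, h1s, hm1s, ← hz]
    module
  rw [haa] at F1; rw [hab] at F2; rw [hbb'] at F3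
  simp only [map_add, map_smul, h00, h01, h0m1, h0s, h02, h0m2] at F1 F2 F3
  rw [← hz]
  have at1 : mul a0 t1 = (l / 6 - 19/3072) • (am1 + a1) + (7/6144 : ℝ) • (am2 + a2) +
        (-32/3 * l ^ 2 + 5/3 * l - m / 24 - 127/3072) • a0 + (32/3 * l - 19/48) • s +
        (7/96 : ℝ) • t0 := by
    linear_combination (norm := module) (8/3 : ℝ) • F1 - (8/3 : ℝ) • F3
  refine ⟨at1, ?_⟩
  linear_combination (norm := module) (1/4 : ℝ) • F1 + (1/4 : ℝ) • F2 - (7/64 : ℝ) • at1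

/-- A dihedral sequence of Majorana axes. -/
structure Sq (mul : V →ₗ[ℝ] V →ₗ[ℝ] V) (B : LinearMap.BilinForm ℝ V) (a : ℤ → V)
    (τ : ℤ → V ≃ₗ[ℝ] V) : Prop where
  hc : ∀ u v, mul u v = mul v u
  hs : ∀ u v, B u v = B v u
  has : ∀ u v w, B u (mul v w) = B (mul u v) w
  ax : ∀ i, Ax mul B (τ i) (a i)
  refl : ∀ i j k, k = 2 * i - j → τ i (a j) = a k

namespace Sq
variable {a : ℤ → V} {τ : ℤ → V ≃ₗ[ℝ] V}

theorem shift (h : Sq mul B a τ) (n : ℤ) : Sq mul B (fun i => a (i + n)) (fun i => τ (i + n)) :=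
  ⟨h.hc, h.hs, h.has, fun _ => h.ax _, fun i j k hk => h.refl _ _ _ (by omega)⟩

theorem dbl (h : Sq mul B a τ) : Sq mul B (fun i => a (2 * i)) (fun i => τ (2 * i)) :=
  ⟨h.hc, h.hs, h.has, fun _ => h.ax _, fun i j k hk => h.refl _ _ _ (by omega)⟩

theorem sgr (h : Sq mul B a τ) (i j k : ℤ) (hk : k = 2 * i - j) :
    sg mul (a i) (a k) = sg mul (a i) (a j) := by
  rw [← h.refl i j k hk, (h.ax i).sg_tau]

theorem Br (h : Sq mul B a τ) (c i j k n : ℤ) (hk : k = 2 * c - i) (hn : n = 2 * c - j) :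
    B (a k) (a n) = B (a i) (a j) := by
  rw [← h.refl c i k hk, ← h.refl c j n hn, (h.ax c).tB]

theorem sg1 (h : Sq mul B a τ) (i : ℤ) : sg mul (a i) (a (i + 1)) = sg mul (a 0) (a 1) := by
  have step : ∀ i : ℤ, sg mul (a (i + 1)) (a (i + 1 + 1)) = sg mul (a i) (a (i + 1)) := fun i => by
    rw [h.sgr (i + 1) i (i + 1 + 1) (by ring), sg_comm h.hc]
  induction i using Int.induction_on with
  | zero => simp
  | succ n ih => rw [step, ih]
  | pred n ih => rw [← step, sub_add_cancel, ih]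

theorem sg2 (h : Sq mul B a τ) (i : ℤ) :
    sg mul (a (i + 2)) (a (i + 2 + 2)) = sg mul (a i) (a (i + 2)) := by
  rw [h.sgr (i + 2) i (i + 2 + 2) (by ring), sg_comm h.hc]

theorem Bodd (h : Sq mul B a τ) (i j k : ℤ) (hk : k % 2 = 1) (hj : j = i + k) :
    B (a i) (a j) = B (a 0) (a k) := by
  rcases Int.emod_two_eq_zero_or_one i with hi | hi
  · rw [h.Br (i / 2) 0 (-k) i j (by omega) (by omega), h.Br 0 0 k 0 (-k) (by omega) (by omega)]
  · rw [h.Br ((i + k) / 2) k 0 i j (by omega) (by omega), h.hs]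

theorem Bev (h : Sq mul B a τ) (i j k : ℤ) (hi : i % 2 = 0) (hj : j = i + k) :
    B (a i) (a j) = B (a 0) (a k) := by
  rw [h.Br (i / 2) 0 (-k) i j (by omega) (by omega), h.Br 0 0 k 0 (-k) (by omega) (by omega)]

theorem Bsg (h : Sq mul B a τ) (i j : ℤ) :
    B (a i) (sg mul (a i) (a j)) = B (a i) (a j) - (1 + B (a i) (a j)) / 32 := by
  rw [sg, map_sub, map_smul, map_add, h.has, (h.ax i).idem, (h.ax i).len, smul_eq_mul]; ring

theorem Bss (h : Sq mul B a τ) : B (sg mul (a 0) (a 1)) (sg mul (a 0) (a 1)) =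
    3/4 * B (a 0) (a 1) ^ 2 + 65/512 * B (a 0) (a 1) + 7/2048 * B (a (-1)) (a 1) - 3/2048 := by
  have e1 := (h.ax 0).mul_sg (a 1)
  rw [h.refl 0 1 (-1) (by norm_num), h.hs (a 1)] at e1
  have e2 := h.Bsg 0 1
  have e3 := h.Bsg 1 0
  rw [sg_comm h.hc, h.hs (a 1) (a 0)] at e3
  have e4 : B (sg mul (a 0) (a 1)) (mul (a 0) (a 1)) =
      B (mul (a 0) (sg mul (a 0) (a 1))) (a 1) := by rw [h.has, h.hc _ (a 0)]
  set s := sg mul (a 0) (a 1) with hs
  have : B s s = B s (mul (a 0) (a 1)) - (1/32) * (B (a 0) s + B (a 1) s) := by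
    conv_lhs => rw [hs]; rw [sg]
    rw [map_sub, map_smul, map_add, ← sg, ← hs, h.hs s (a 0), h.hs s (a 1), smul_eq_mul]
  rw [this, e4, e1]
  simp only [map_add, map_smul, LinearMap.add_apply, LinearMap.smul_apply, smul_eq_mul,
    (h.ax 1).len, h.hs s (a 1), e2, e3]
  ring

theorem B2 (h : Sq mul B a τ) (i j : ℤ) (hj : j = i + 2) : B (a i) (a j) = B (a 0) (a 2) := by
  have e1 := h.Bss
  have e2 := (h.shift 1).Bss
  simp only [zero_add, show (1 : ℤ) + 1 = 2 from rfl, show (-1 : ℤ) + 1 = 0 from rfl] at e2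
  have e3 := h.sg1 1
  simp only [show (1 : ℤ) + 1 = 2 from rfl] at e3
  rw [e3, h.Bodd 1 2 1 (by norm_num) (by norm_num), e1] at e2
  have e4 : B (a (-1)) (a 1) = B (a 0) (a 2) := by linarith
  rcases Int.emod_two_eq_zero_or_one i with hi | hi
  · exact h.Bev i j 2 hi hj
  · rw [← e4, h.Br ((i + 1) / 2) 1 (-1) i j (by omega) (by omega), h.hs]

theorem core0 (h : Sq mul B a τ) {l m : ℝ} (hl : B (a 0) (a 1) = l) (hm : B (a 0) (a 2) = m)
    {s t0 t1 : V} (hs : sg mul (a 0) (a 1) = s) (ht0 : sg mul (a 0) (a 2) = t0)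
    (ht1 : sg mul (a 1) (a (-1)) = t1) :
    mul (a 0) t1 = (l / 6 - 19/3072) • (a (-1) + a 1) + (7/6144 : ℝ) • (a (-2) + a 2) +
        (-32/3 * l ^ 2 + 5/3 * l - m / 24 - 127/3072) • a 0 + (32/3 * l - 19/48) • s +
        (7/96 : ℝ) • t0 ∧
      mul s s = (49/768 * l - 245/196608) • (a (-1) + a 1) + (49/196608 : ℝ) • (a (-2) + a 2) +
        (7/6 * l ^ 2 - 7/384 * l + 7/1536 * m - 7/98304) • a 0 + (-5/12 * l - 13/1536) • s -
        (7/1536 : ℝ) • t0 + (7/2048 : ℝ) • t1 := by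
  have s0m : sg mul (a 0) (a (-1)) = s := by rw [h.sgr 0 1 (-1) (by norm_num), hs]
  have s10 : sg mul (a 1) (a 0) = s := by rw [sg_comm h.hc, hs]
  have sm0 : sg mul (a (-1)) (a 0) = s := by rw [sg_comm h.hc, s0m]
  have l10 : B (a 1) (a 0) = l := by rw [h.hs, hl]
  have lm0 : B (a (-1)) (a 0) = l := by rw [h.Bodd (-1) 0 1 (by norm_num) (by norm_num), hl]
  have l0m : B (a 0) (a (-1)) = l := by rw [h.hs, lm0]
  have mm : B (a (-1)) (a 1) = m := by rw [h.B2 (-1) 1 (by norm_num), hm]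
  have mm' : B (a 1) (a (-1)) = m := by rw [h.hs, mm]
  refine core h.hc (h.ax 0) (by rw [mul_eq_sg, hs]) (by rw [mul_eq_sg, s0m])
    (by rw [mul_eq_sg, ht0]) (by rw [mul_eq_sg, h.sgr 0 2 (-2) (by norm_num), ht0])
    (by rw [mul_eq_sg, ht1]) (h.ax 1).idem (h.ax (-1)).idem ?_ ?_ ?_ ?_
  · have := (h.ax 0).mul_sg (a 1)
    rwa [hs, l10, h.refl 0 1 (-1) (by norm_num)] at this
  · have := (h.ax 1).mul_sg (a 0)
    rwa [s10, hl, h.refl 1 0 2 (by norm_num)] at this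
  · have := (h.ax (-1)).mul_sg (a 0)
    rwa [sm0, l0m, h.refl (-1) 0 (-2) (by norm_num)] at this
  · have b0 := h.Bsg 0 1
    have b1 := h.Bsg 1 0
    have bm := h.Bsg (-1) 0
    have bs := h.Bss
    rw [hs, hl] at b0; rw [s10, l10] at b1; rw [sm0, lm0] at bm; rw [hs, hl, mm] at bs
    simp only [map_add, map_smul, LinearMap.add_apply, LinearMap.smul_apply, smul_eq_mul,
      (h.ax _).len, h.hs s (a _), b0, b1, bm, bs, hl, l10, lm0, l0m, mm, mm']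
    ring

theorem rel (h : Sq mul B a τ) {l m : ℝ} (hl : B (a 0) (a 1) = l) (hm : B (a 0) (a 2) = m) :
    (7 : ℝ) • (a (-2) - a 3) + (1792 * l - 42) • (a (-1) - a 2) +
      (32768 * l ^ 2 - 2304 * l + 128 * m + 33) • (a 0 - a 1) =
      (224 : ℝ) • (sg mul (a 0) (a 2) - sg mul (a 1) (a (-1))) := by
  have e1 := (h.core0 hl hm rfl rfl rfl).2
  have e2 := ((h.shift 1).core0 (l := l) (m := m) (s := sg mul (a 0) (a 1))
    (t0 := sg mul (a 1) (a (-1))) (t1 := sg mul (a 0) (a 2))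
    (by rw [h.Bodd _ _ 1 (by norm_num) (by norm_num), hl])
    (by rw [h.B2 _ _ (by norm_num), hm]) (h.sg1 _)
    (h.sgr _ _ _ (by norm_num)) (sg_comm h.hc _ _)).2
  simp only [zero_add, show (1 : ℤ) + 1 = 2 from rfl, show (-1 : ℤ) + 1 = 0 from rfl,
    show (2 : ℤ) + 1 = 3 from rfl, show (-2 : ℤ) + 1 = -1 from rfl] at e2
  linear_combination (norm := module) (-196608/7 : ℝ) • e1 + (196608/7 : ℝ) • e2

end Sq
end Maj
end H03
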