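import Mathlib
import Cfsg.Agent.H03.Maj2

/-! Sakuma's theorem: scalar equations and the 6-transposition property. -/

namespace H03
namespace Maj
open Cfsg.Axial

variable {V : Type*} [AddCommGroup V] [Module ℝ V]
variable {mul : V →ₗ[ℝ] V →ₗ[ℝ] V} {B : LinearMap.BilinForm ℝ V}

noncomputable def L3 (l m : ℝ) : ℝ :=
  (-32768/7)*l^3 + (-1920/7)*l*m + (36864/7)*l^2 + (-2169/7)*l + (-33/7)*m + (33/7)
noncomputable def L4 (l m : ℝ) : ℝ :=
  (8388608/7)*l^4 + 65536*l^2*m + (-9601024/7)*l^3 + (-640/7)*l*m + 110592*l^2 + (-128/7)*m^2 +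
    (-19840/7)*l + (-3)*m + (156/7)
noncomputable def L5 (l m : ℝ) : ℝ :=
  (-13958643712/49)*l^5 + (-754974720/49)*l^3*m + (16273899520/49)*l^4 + (475136/49)*l*m^2 +
    (12582912/49)*l^2*m + (-1633419264/49)*l^3 + (259584/49)*l*m + (8683520/7)*l^2 +
    (-256/49)*m^2 + (-137721/7)*l + (-5256/49)*m + (5512/49)
noncomputable def L6 (l m : ℝ) : ℝ :=
  (3298534883328/49)*l^6 + (177167400960/49)*l^4*m + (-3917010173952/49)*l^5 +
    (-25165824/7)*l^2*m^2 + (-5511315456/49)*l^3*m + (469317451776/49)*l^4 + (2457600/49)*l*m^2 +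
    (-97910784/49)*l^2*m + (-22767894528/49)*l^3 + (16384/49)*m^3 + (5162880/49)*l*m +
    (542429184/49)*l^2 + (1152/49)*m^2 + (-904320/7)*l + (-46500/49)*m + (29013/49)
noncomputable def p1 (l m : ℝ) : ℝ :=
  2097152*l^4 + 40960*l^2*m + (-2326528)*l^3 + 8896*l*m + 184320*l^2 + 128*m^2 + (-4800)*l +
    (-167)*m + 39

theorem solve {l m : ℝ} (h1 : p1 l m = 0) (h2 : L3 m (L4 l m) = L6 l m) (h3 : p1 m (L4 l m) = 0) :
    l = 1 ∨ m = 1 ∨ L3 l m = 1 ∨ L4 l m = 1 ∨ L5 l m = 1 ∨ L6 l m = 1 := by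
  have r : (l - 1/64) * ((l - 43/2048) * ((81920*l^2 + 189440*l + 975) * m +
      (20971520*l^4 + (-21790720)*l^3 + 512000*l^2 + 35840*l + (-975)))) = 0 := by
    unfold p1 at h1; unfold L3 L4 L6 at h2
    linear_combination (49/393216) * h2 -
      (49/393216) * ((-786432/7)*l^2 + (-9600/49)*l + (2355/49)) * h1
  rcases mul_eq_zero.1 r with r | r
  · have hl : l = 1/64 := by linarith
    subst hl
    have : (m - 1/64) * (m - 1/8) = 0 := by unfold p1 at h1; linear_combination (1/128) * h1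
    rcases mul_eq_zero.1 this with r | r
    · have hm : m = 1/64 := by linarith
      subst hm; right; right; left; unfold L3; norm_num
    · have hm : m = 1/8 := by linarith
      subst hm; right; right; right; left; unfold L4; norm_num
  rcases mul_eq_zero.1 r with r | r
  · have hl : l = 43/2048 := by linarith
    subst hl
    exfalso
    have : (-4761174711197685/13153337344)*m + (430238881191984645/30786325577728) = 0 := by
      unfold p1 at h1 h3; unfold L4 at h3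
      linear_combination h3 -
        ((532480/49)*m^2 + (-6219141/392)*m + (212466295693/25690112)) * h1
    have hm : m = (430238881191984645/30786325577728) / (4761174711197685/13153337344) := by
      field_simp; linarith
    rw [hm] at h1; unfold p1 at h1; norm_num at h1
  have q : (l - 1) * (l * ((l - 1/8) * ((l - 13/256) * ((l - 1/32) * ((l - 3/128) *
      (l - 5/256)))))) = 0 := by
    unfold p1 at h1
    linear_combination (-1/172403423235276800) * ((81920*l^2 + 189440*l + 975)^2 * h1 -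
      (128 * ((81920*l^2 + 189440*l + 975) * m -
        (20971520*l^4 + (-21790720)*l^3 + 512000*l^2 + 35840*l + (-975))) +
        (40960*l^2 + 8896*l + (-167)) * (81920*l^2 + 189440*l + 975)) * r)
  rcases mul_eq_zero.1 q with q | q
  · left; linarith
  rcases mul_eq_zero.1 q with q | q
  · subst q; right; left; linarith
  rcases mul_eq_zero.1 q with q | q
  · have hl : l = 1/8 := by linarith
    subst hl; right; left; linarith
  rcases mul_eq_zero.1 q with q | q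
  · have hl : l = 13/256 := by linarith
    subst hl
    have hm : m = 13/256 := by linarith
    subst hm; right; right; left; unfold L3; norm_num
  rcases mul_eq_zero.1 q with q | q
  · have hl : l = 1/32 := by linarith
    subst hl
    have hm : m = 0 := by linarith
    subst hm; right; right; right; left; unfold L4; norm_num
  rcases mul_eq_zero.1 q with q | q
  · have hl : l = 3/128 := by linarith
    subst hl
    have hm : m = 3/128 := by linarith
    subst hm; right; right; right; right; left; unfold L5; norm_num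
  · have hl : l = 5/256 := by linarith
    subst hl
    have hm : m = 13/256 := by linarith
    subst hm; right; right; right; right; right; unfold L6; norm_num

namespace Sq
variable {a : ℤ → V} {τ : ℤ → V ≃ₗ[ℝ] V}

theorem B1 (h : Sq mul B a τ) (i j : ℤ) (hj : j = i + 1) : B (a i) (a j) = B (a 0) (a 1) :=
  h.Bodd i j 1 (by norm_num) hj

theorem Bt1 (h : Sq mul B a τ) {l m : ℝ} (hl : B (a 0) (a 1) = l) (hm : B (a 0) (a 2) = m)
    (i j k : ℤ) (hj : j = i + 1) (hk : k = i - 1) :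
    B (sg mul (a j) (a k)) (a i) = l - (1 + l) / 32 + (l + m) / 32 - l / 16 := by
  have e1 := h.Bsg k i
  rw [h.B1 k i (by omega), hl, sg_comm h.hc, h.sgr i j k (by omega)] at e1
  rw [h.hs, sg, map_sub, map_smul, map_add, h.has, mul_eq_sg (a i)]
  simp only [map_add, map_smul, LinearMap.add_apply, LinearMap.smul_apply, smul_eq_mul]
  rw [h.hs _ (a k), e1, h.hs (a i) (a k), h.hs (a j) (a k), h.B1 k i (by omega), h.B2 k j (by omega),
    h.B1 i j hj, hl, hm]
  ring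

theorem Bt0 (h : Sq mul B a τ) {m : ℝ} (hm : B (a 0) (a 2) = m)
    (i j : ℤ) (hj : j = i + 2 ∨ i = j + 2) :
    B (sg mul (a i) (a j)) (a i) = m - (1 + m) / 32 := by
  rw [h.hs, h.Bsg]
  rcases hj with hj | hj
  · rw [h.B2 i j hj, hm]
  · rw [h.hs, h.B2 j i hj, hm]

theorem relB (h : Sq mul B a τ) {l m : ℝ} (hl : B (a 0) (a 1) = l) (hm : B (a 0) (a 2) = m) (v : V) :
    7 * (B (a (-2)) v - B (a 3) v) + (1792 * l - 42) * (B (a (-1)) v - B (a 2) v) +
      (32768 * l ^ 2 - 2304 * l + 128 * m + 33) * (B (a 0) v - B (a 1) v) =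
      224 * (B (sg mul (a 0) (a 2)) v - B (sg mul (a 1) (a (-1))) v) := by
  have := congrArg (fun x => B x v) (h.rel hl hm)
  simpa only [map_add, map_sub, map_smul, LinearMap.add_apply, LinearMap.sub_apply,
    LinearMap.smul_apply, smul_eq_mul] using this

theorem B3 (h : Sq mul B a τ) {l m : ℝ} (hl : B (a 0) (a 1) = l) (hm : B (a 0) (a 2) = m)
    (i j : ℤ) (hj : j = i + 3) : B (a i) (a j) = L3 l m := by
  rw [h.Bodd i j 3 (by norm_num) hj]
  have e := h.relB hl hm (a 0)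
  rw [h.Bt0 hm 0 2 (by norm_num), h.Bt1 hl hm 0 1 (-1) (by norm_num) (by norm_num),
    h.B2 (-2) 0 (by norm_num), h.B1 (-1) 0 (by norm_num), h.hs (a 2), h.hs (a 1), h.hs (a 3),
    (h.ax 0).len, hl, hm] at e
  unfold L3; linarith

theorem B4 (h : Sq mul B a τ) {l m : ℝ} (hl : B (a 0) (a 1) = l) (hm : B (a 0) (a 2) = m)
    (i j : ℤ) (hj : j = i + 4) : B (a i) (a j) = L4 l m := by
  have key : ∀ {a : ℤ → V} {τ : ℤ → V ≃ₗ[ℝ] V} (h : Sq mul B a τ), B (a 0) (a 1) = l →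
      B (a 0) (a 2) = m → B (a (-2)) (a 2) = L4 l m := by
    intro a τ h hl hm
    have e := h.relB hl hm (a 2)
    rw [sg_comm h.hc (a 0), h.Bt0 hm 2 0 (by norm_num), h.sgr 1 3 (-1) (by norm_num),
      sg_comm h.hc (a 1), h.Bt1 hl hm 2 3 1 (by norm_num) (by norm_num),
      h.B3 hl hm (-1) 2 (by norm_num), h.B1 1 2 (by norm_num), h.hs (a 3), h.B1 2 3 (by norm_num),
      (h.ax 2).len, hl, hm] at e
    unfold L3 at e; unfold L4; linarith
  have := key (h.shift (i + 2)) (by rw [h.B1 _ _ (by ring), hl]) (by rw [h.B2 _ _ (by ring), hm])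
  rwa [show -2 + (i + 2) = i by ring, show 2 + (i + 2) = j by omega] at this

theorem B5 (h : Sq mul B a τ) {l m : ℝ} (hl : B (a 0) (a 1) = l) (hm : B (a 0) (a 2) = m)
    (i j : ℤ) (hj : j = i + 5) : B (a i) (a j) = L5 l m := by
  rw [h.Bodd i j 5 (by norm_num) hj, ← h.Bodd (-2) 3 5 (by norm_num) (by norm_num)]
  have e := h.relB hl hm (a 3)
  rw [sg_comm h.hc (a 0), h.sgr 2 4 0 (by norm_num), sg_comm h.hc (a 2),
    h.Bt1 hl hm 3 4 2 (by norm_num) (by norm_num), h.sgr 1 3 (-1) (by norm_num),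
    sg_comm h.hc (a 1), h.Bt0 hm 3 1 (by norm_num),
    h.B4 hl hm (-1) 3 (by norm_num), h.B1 2 3 (by norm_num), h.B3 hl hm 0 3 (by norm_num),
    h.B2 1 3 (by norm_num), (h.ax 3).len, hl, hm] at e
  unfold L3 L4 at e; unfold L5; linarith

theorem B6 (h : Sq mul B a τ) {l m : ℝ} (hl : B (a 0) (a 1) = l) (hm : B (a 0) (a 2) = m)
    (i j : ℤ) (hj : j = i + 6) : B (a i) (a j) = L6 l m := by
  have key : ∀ {a : ℤ → V} {τ : ℤ → V ≃ₗ[ℝ] V} (h : Sq mul B a τ), B (a 0) (a 1) = l →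
      B (a 0) (a 2) = m → B (a (-2)) (a 4) = L6 l m := by
    intro a τ h hl hm
    have e := h.relB hl hm (a 4)
    rw [sg_comm h.hc (a 0), h.sgr 2 4 0 (by norm_num), sg_comm h.hc (a 2),
      h.Bt0 hm 4 2 (by norm_num), h.sgr 1 3 (-1) (by norm_num),
      sg_comm h.hc (a 1), h.sgr 3 5 1 (by norm_num), sg_comm h.hc (a 3),
      h.Bt1 hl hm 4 5 3 (by norm_num) (by norm_num),
      h.B5 hl hm (-1) 4 (by norm_num), h.B1 3 4 (by norm_num), h.B3 hl hm 1 4 (by norm_num),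
      h.B2 2 4 (by norm_num), h.B4 hl hm 0 4 (by norm_num), hl, hm] at e
    unfold L3 L4 L5 at e; unfold L6; linarith
  have := key (h.shift (i + 2)) (by rw [h.B1 _ _ (by ring), hl]) (by rw [h.B2 _ _ (by ring), hm])
  rwa [show -2 + (i + 2) = i by ring, show 4 + (i + 2) = j by omega] at this

theorem P1 (h : Sq mul B a τ) {l m : ℝ} (hl : B (a 0) (a 1) = l) (hm : B (a 0) (a 2) = m) :
    p1 l m = 0 := by
  obtain ⟨t0, ht0⟩ : ∃ t, sg mul (a 0) (a 2) = t := ⟨_, rfl⟩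
  obtain ⟨t1, ht1⟩ : ∃ t, sg mul (a 1) (a (-1)) = t := ⟨_, rfl⟩
  obtain ⟨s, hs⟩ : ∃ t, sg mul (a 0) (a 1) = t := ⟨_, rfl⟩
  have at1 := (h.core0 hl hm hs ht0 ht1).1
  have at0 := (h.ax 0).mul_sg (a 2)
  rw [ht0, h.hs (a 2), hm, h.refl 0 2 (-2) (by norm_num)] at at0
  have e := h.relB hl hm t0
  rw [ht0, ht1] at e
  have u0 := h.Bt0 hm 0 2 (by norm_num)
  have u2 := h.Bt0 hm 2 0 (by norm_num)
  have um2 := h.Bt0 hm (-2) 0 (by norm_num)
  have u1 := h.Bt1 hl hm 1 2 0 (by norm_num) (by norm_num)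
  have um1 := h.Bt1 hl hm (-1) 0 (-2) (by norm_num) (by norm_num)
  have u3 := h.Bt1 hl hm 3 4 2 (by norm_num) (by norm_num)
  have v0 := h.Bt1 hl hm 0 1 (-1) (by norm_num) (by norm_num)
  have v2 := h.Bt1 hl hm 2 3 1 (by norm_num) (by norm_num)
  have w2 := h.Bsg 2 1
  rw [ht0] at u0
  rw [sg_comm h.hc, ht0] at u2 u1
  rw [sg_comm h.hc, h.sgr 0 2 (-2) (by norm_num), ht0] at um2
  rw [h.sgr 0 2 (-2) (by norm_num), ht0] at um1
  rw [sg_comm h.hc, h.sgr 2 0 4 (by norm_num), sg_comm h.hc, ht0] at u3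
  rw [ht1] at v0
  rw [sg_comm h.hc, h.sgr 1 (-1) 3 (by norm_num), ht1] at v2
  rw [sg_comm h.hc, h.sgr 1 0 2 (by norm_num), sg_comm h.hc, hs, h.hs (a 2) (a 1),
    h.B1 1 2 (by norm_num), hl, h.hs] at w2
  have gen : ∀ x, B x t0 = B (mul (a 0) x) (a 2) - (1/32) * (B x (a 0) + B x (a 2)) := by
    intro x
    rw [← ht0, sg, map_sub, map_smul, map_add, h.has, h.hc x, smul_eq_mul]
  rw [gen t0, gen t1, at1, at0] at e
  simp only [map_add, map_smul, LinearMap.add_apply, LinearMap.smul_apply, smul_eq_mul,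
    h.hs (a _) t0, u0, u2, um2, u1, um1, u3, v0, v2, w2, (h.ax 2).len, hm,
    h.B4 hl hm (-2) 2 (by norm_num), h.B3 hl hm (-1) 2 (by norm_num), h.B1 1 2 (by norm_num),
    hl] at e
  unfold L3 L4 at e; unfold p1; linarith

theorem six (h : Sq mul B a τ) : ∃ n : ℕ, 1 ≤ n ∧ n ≤ 6 ∧ B (a 0) (a n) = 1 := by
  obtain ⟨l, hl⟩ : ∃ l, B (a 0) (a 1) = l := ⟨_, rfl⟩
  obtain ⟨m, hm⟩ : ∃ l, B (a 0) (a 2) = l := ⟨_, rfl⟩
  have h4 := h.B4 hl hm 0 4 (by norm_num)
  have h6 := h.B6 hl hm 0 6 (by norm_num)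
  have d3 := h.dbl.B3 (l := m) (m := L4 l m) hm h4 0 3 (by norm_num)
  have d1 := h.dbl.P1 (l := m) (m := L4 l m) hm h4
  rcases solve (h.P1 hl hm) (d3.symm.trans h6) d1 with e | e | e | e | e | e
  · exact ⟨1, by norm_num, by norm_num, hl.trans e⟩
  · exact ⟨2, by norm_num, by norm_num, hm.trans e⟩
  · exact ⟨3, by norm_num, by norm_num, (h.B3 hl hm 0 3 (by norm_num)).trans e⟩
  · exact ⟨4, by norm_num, by norm_num, h4.trans e⟩
  · exact ⟨5, by norm_num, by norm_num, (h.B5 hl hm 0 5 (by norm_num)).trans e⟩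
  · exact ⟨6, by norm_num, by norm_num, h6.trans e⟩

end Sq

/-- Automorphisms of the algebra with its form. -/
def autS (mul : V →ₗ[ℝ] V →ₗ[ℝ] V) (B : LinearMap.BilinForm ℝ V) : Subgroup (V ≃ₗ[ℝ] V) where
  carrier := {σ | (∀ u v, σ (mul u v) = mul (σ u) (σ v)) ∧ ∀ u v, B (σ u) (σ v) = B u v}
  one_mem' := ⟨fun _ _ => rfl, fun _ _ => rfl⟩
  mul_mem' := by
    rintro x y ⟨h1, h2⟩ ⟨h3, h4⟩
    exact ⟨fun u v => by simp [h1, h3], fun u v => by simp [h2, h4]⟩
  inv_mem' := by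
    rintro σ ⟨gm, gB⟩
    have hi : ∀ v, σ (σ⁻¹ v) = v := fun v => σ.apply_symm_apply v
    have hi' : ∀ v, σ⁻¹ (σ v) = v := fun v => σ.symm_apply_apply v
    exact ⟨fun u v => by rw [← hi' (mul (σ⁻¹ u) _), gm, hi, hi], fun u v => by rw [← gB, hi, hi]⟩

theorem exists_sq (hc : ∀ u v, mul u v = mul v u) (hs : ∀ u v, B u v = B v u)
    (has : ∀ u v w, B u (mul v w) = B (mul u v) w) {μ0 μ1 : V ≃ₗ[ℝ] V} {a0 a1 : V}
    (h0 : Ax mul B μ0 a0) (h1 : Ax mul B μ1 a1) :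
    ∃ a : ℤ → V, a 0 = a0 ∧ a 1 = a1 ∧ a (-1) = μ0 a1 ∧ a 2 = μ1 a0 ∧
      Sq mul B a (fun n => (μ1 * μ0) ^ n * μ0) := by
  set ρ := μ1 * μ0 with hρ
  have i0 : μ0 * μ0 = 1 := by ext v; exact h0.invol v
  have i1 : μ1 * μ1 = 1 := by ext v; exact h1.invol v
  have inv0 : μ0⁻¹ = μ0 := inv_eq_of_mul_eq_one_right i0
  have inv1 : μ1⁻¹ = μ1 := inv_eq_of_mul_eq_one_right i1
  have c1 : μ0 * ρ * μ0⁻¹ = ρ⁻¹ := by
    rw [hρ, mul_inv_rev, inv0, inv1, mul_assoc, mul_assoc, i0, mul_one]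
  have ck : ∀ k : ℤ, μ0 * ρ ^ k = ρ ^ (-k) * μ0 := fun k => by
    rw [zpow_neg, ← inv_zpow, ← c1, conj_zpow]; group
  have hm1 : μ1 = ρ * μ0 := by rw [hρ, mul_assoc, i0, mul_one]
  have hA : ∀ k : ℤ, ρ ^ k ∈ autS mul B := fun k =>
    (autS mul B).zpow_mem ((autS mul B).mul_mem ⟨h1.tmul, h1.tB⟩ ⟨h0.tmul, h0.tB⟩) k
  have f0 : μ0 a1 = (ρ ^ (-1 : ℤ)) a1 := by
    rw [zpow_neg_one, hρ, mul_inv_rev, inv0, inv1, LinearEquiv.mul_apply, h1.fix]
  have ap : ∀ (i j : ℤ) (v : V), (ρ ^ i * μ0) ((ρ ^ j) v) = (ρ ^ (i - j)) (μ0 v) := fun i j v => by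
    rw [← LinearEquiv.mul_apply, ← LinearEquiv.mul_apply, mul_assoc, ck, ← mul_assoc, ← zpow_add,
      sub_eq_add_neg]
  refine ⟨fun n => (ρ ^ (n / 2)) (if n % 2 = 0 then a0 else a1), by simp, by simp, ?_, ?_,
    hc, hs, has, fun i => ?_, fun i j k hk => ?_⟩
  · simp [f0]
  · simp [hρ, h0.fix]
  · rcases Int.emod_two_eq_zero_or_one i with hi | hi
    · have := h0.conj (hA (i / 2)).1 (hA (i / 2)).2
      rw [if_pos hi]
      convert this using 1
      rw [mul_assoc, ← zpow_neg, ck, ← mul_assoc, ← zpow_add]; congr 2; omega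
    · have := h1.conj (hA (i / 2)).1 (hA (i / 2)).2
      rw [if_neg (by omega)]
      convert this using 1
      rw [hm1, mul_assoc, mul_assoc, ← zpow_neg, ck, ← mul_assoc, ← mul_assoc, ← zpow_add_one,
        ← zpow_add]; congr 2; omega
  · rw [ap]
    rcases Int.emod_two_eq_zero_or_one j with hj | hj
    · rw [if_pos hj, if_pos (by omega), h0.fix]; congr 2; omega
    · rw [if_neg (by omega), if_neg (by omega), f0, ← LinearEquiv.mul_apply, ← zpow_add]
      congr 2; omega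

theorem eq_of_B (hV : IsMajoranaAmbient mul B) {x y : V} (hx : B x x = 1) (hy : B y y = 1)
    (h : B x y = 1) : x = y := by
  by_contra hne
  have := hV.2.2.1 (x - y) (sub_ne_zero.2 hne)
  simp only [map_sub, LinearMap.sub_apply, hx, hy, h, hV.2.1 y x] at this
  norm_num at this

theorem pair_conj {μ σ : V ≃ₗ[ℝ] V} {A : V} (h : IsMajoranaPair mul B μ A) (hσ : σ ∈ autS mul B) :
    IsMajoranaPair mul B (σ * μ * σ⁻¹) (σ A) := by
  obtain ⟨h1, h2, ⟨⟨hne, hid, htop, hfus⟩, hprim⟩, hm1, hm2⟩ := h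
  have hσ' := (autS mul B).inv_mem hσ
  have hA := (autS mul B).mul_mem ((autS mul B).mul_mem hσ ⟨h1, h2⟩) hσ'
  have hi : ∀ v, σ (σ⁻¹ v) = v := fun v => σ.apply_symm_apply v
  have hi' : ∀ v, σ⁻¹ (σ v) = v := fun v => σ.symm_apply_apply v
  have he : ∀ c, eigen mul (σ A) c = (eigen mul A c).map (σ : V →ₗ[ℝ] V) := by
    intro c; ext v
    rw [Submodule.mem_map_equiv, mem_eigen, mem_eigen]
    change _ ↔ mul A (σ⁻¹ v) = c • σ⁻¹ v
    constructor
    · intro hv; rw [← map_smul, ← hv, hσ'.1, hi']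
    · intro hv; rw [← hi v, ← hσ.1, hv, map_smul]
  have hS : ∀ S, eigenSum mul (σ A) S = (eigenSum mul A S).map (σ : V →ₗ[ℝ] V) := by
    intro S; simp only [eigenSum, Submodule.map_iSup, he]
  refine ⟨hA.1, hA.2, ⟨⟨by simpa using hne, by rw [← hσ.1, hid], ?_, ?_⟩, ?_⟩, ?_, ?_⟩
  · rw [hS, htop, Submodule.map_top, LinearEquiv.range]
  · intro c hc d hd u hu v hv
    rw [he] at hu hv
    obtain ⟨u, hu, rfl⟩ := hu
    obtain ⟨v, hv, rfl⟩ := hv
    rw [hS]
    exact ⟨_, hfus c hc d hd u hu v hv, hσ.1 _ _⟩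
  · rw [he, hprim, Submodule.map_span]; simp
  · intro v hv
    rw [hS] at hv
    obtain ⟨v, hv, rfl⟩ := hv
    change σ (μ (σ⁻¹ (σ v))) = σ v
    rw [hi']; exact congrArg σ (hm1 v hv)
  · intro v hv
    rw [he] at hv
    obtain ⟨v, hv, rfl⟩ := hv
    change σ (μ (σ⁻¹ (σ v))) = -σ v
    rw [hi', ← map_neg]; exact congrArg σ (hm2 v hv)

end Maj
end H03
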