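import Cfsg.Agent.L.Jf0

/-! Part F of the cluster for S5572. -/

set_option autoImplicit false
open Cfsg BG Subgroup L.Jf

namespace H03.S5F
universe u

theorem ext {P R : Type u} [Group P] [Group R] (e : P ≃* R) (h : IsExtraspecial 2 P) : IsExtraspecial 2 R := by
  have c : (center P).map e.toMonoidHom = center R := Subgroup.ext fun y => ⟨by
    rintro ⟨x, i, rfl⟩
    exact mem_center_iff.2 fun g => by
      obtain ⟨g, rfl⟩ := e.surjective g
      exact ((map_mul e _ _).symm.trans (congrArg e (mem_center_iff.1 i g))).trans (map_mul e _ _),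
    fun i => ⟨e.symm y, mem_center_iff.2 fun g => e.injective (by simpa using mem_center_iff.1 i (e g)), by simp⟩⟩
  refine ⟨⟨h.1.1.of_equiv e, le_antisymm ?_ ?_, ?_⟩, ?_⟩
  · intro y i
    have := frattini_le_comap_frattini_of_surjective (φ := e.symm.toMonoidHom) e.symm.surjective i
    rw [h.1.2.1] at this
    exact c.le ⟨_, this, by simp⟩
  · rw [← c, ← h.1.2.1]
    exact map_le_iff_le_comap.2 (frattini_le_comap_frattini_of_surjective e.surjective)
  · rw [← c, ← h.1.2.2, _root_.commutator_def, _root_.commutator_def, map_commutator, map_top_of_surjective _ e.surjective]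
  · rw [← c, card_map_of_injective e.injective, h.2]

theorem f : FStmt.{u} := by
  intro G _ _ σ z X W ⟨n25, hb⟩ o5 o2 σz h1 h3
  obtain ⟨c960, c3840, Q, δ, lo⟩ := hb σ σz o5
  have zσ : z ∈ C_[σ] := mem_cent1_comm.1 σz
  have p5 : Nat.Prime 5 := by norm_num
  have cz : C_(zpowers σ) = C_[σ] := Subgroup.ext fun y => ⟨fun i => mem_cent1.2 (i σ (mem_zpowers σ)).symm, fun i => by
    rintro _ ⟨k, rfl⟩
    exact ((show Commute y σ from mem_cent1.1 i).zpow_right k).symm.eq⟩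
  let s : C_[σ] := ⟨σ, mem_cent1_self σ⟩
  have sc : ∀ y : C_[σ], ∀ k ∈ zpowers s, Commute y k := by
    rintro y _ ⟨k, rfl⟩
    exact (show Commute y s from Subtype.ext (mem_cent1.1 y.2)).zpow_right k
  have cZ : Nat.card (zpowers s) = 5 := by rw [Nat.card_zpowers, orderOf_mk, o5]
  have c5 : Nat.card (zpowers σ) = 5 := by rw [Nat.card_zpowers, o5]
  have nZ : (zpowers s).Normal := ⟨fun n i g => by rwa [(sc g n i).eq, mul_inv_cancel_right]⟩
  have k7 : ∀ k ∈ zpowers s, k ^ 5 = 1 := fun k i => by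
    have := pow_card_eq_one' (x := (⟨k, i⟩ : zpowers s))
    rw [cZ] at this; exact congrArg Subtype.val this
  let φ := QuotientGroup.mk' (zpowers s)
  have su : Function.Surjective φ := QuotientGroup.mk'_surjective _
  have inj : ∀ a b : C_[σ], a ^ 96 = 1 → b ^ 96 = 1 → φ a = φ b → a = b := fun a b i j e => by
    obtain ⟨k, m, rfl⟩ := (QuotientGroup.mk'_eq_mk' _).1 e
    rw [(sc a k m).mul_pow, i, one_mul] at j
    rw [show k = 1 from orderOf_eq_one_iff.1 (by
      simpa using Nat.dvd_gcd (orderOf_dvd_of_pow_eq_one j) (orderOf_dvd_of_pow_eq_one (k7 k m))), mul_one]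
  have ce : ∀ w : C_[σ], w ^ 96 = 1 → ∀ y : C_[σ], φ y ∈ C_[φ w] ↔ y.1 ∈ C_[w.1] := fun w i y => by
    rw [mem_cent1, mem_cent1]
    refine ⟨fun e => ?_, fun e => by rw [← map_mul, ← map_mul, show y * w = w * y from Subtype.ext e]⟩
    have := inj (y * w * y⁻¹) w (by rw [conj_pow, i]; simp) i (by rw [map_mul, map_mul, e, map_inv]; simp)
    exact congrArg Subtype.val (mul_inv_eq_iff_eq_mul.1 this)
  have cc : ∀ w : C_[σ], w ^ 96 = 1 → Nat.card C_[φ w] * 5 = Nat.card ↥(C_[w.1] ⊓ C_[σ]) := fun w i => by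
    have e : (C_[φ w]).comap φ = (C_[w.1] ⊓ C_[σ]).subgroupOf C_[σ] := Subgroup.ext fun y => by
      rw [mem_comap, ce w i, mem_subgroupOf, mem_inf, and_iff_left y.2]
    have a1 := (C_[φ w]).card_mul_index
    have a2 := ((C_[φ w]).comap φ).card_mul_index
    have a3 := (zpowers s).card_eq_card_quotient_mul_card_subgroup
    rw [index_comap_of_surjective _ su, e, Nat.card_congr (subgroupOfEquivOfLe inf_le_right).toEquiv, a3, cZ, ← a1] at a2
    refine Nat.eq_of_mul_eq_mul_right (Nat.pos_of_ne_zero (index_ne_zero_of_finite (H := C_[φ w]))) ?_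
    rw [a2]; ring
  have ob : ∀ (p : ℕ) [Fact p.Prime], p ∣ 96 → ∀ w : C_[σ], orderOf w.1 = p → w ^ 96 = 1 ∧ orderOf (φ w) = p := fun p hp d w o => by
    have i : w ^ p = 1 := Subtype.ext (by simpa [o] using pow_orderOf_eq_one w.1)
    have i' : w ^ 96 = 1 := by obtain ⟨m, e⟩ := d; rw [e, pow_mul, i, one_pow]
    refine ⟨i', orderOf_eq_prime (by rw [← map_pow, i, map_one]) fun e => ?_⟩
    rw [inj w 1 i' (one_pow _) (e.trans (map_one φ).symm)] at o
    exact hp.1.one_lt.ne (by simpa using o)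
  have lf : ∀ (p : ℕ) [Fact p.Prime], p ∣ 24 → ∀ w, orderOf w = p → ∃ y : C_[σ], φ y = w ∧ orderOf y.1 = p := fun p hp d w o => by
    obtain ⟨y, rfl⟩ := su w
    obtain ⟨m, em⟩ := d
    have e2 : φ y ^ p = 1 := o ▸ pow_orderOf_eq_one (φ y)
    have e : φ (y ^ 25) = φ y := by rw [map_pow, show 25 = p * m + 1 by omega, pow_succ, pow_mul, e2, one_pow, one_mul]
    have i : (y ^ 25) ^ p = 1 := by
      rw [← pow_mul, mul_comm, pow_mul, show 25 = 5 * 5 from rfl, pow_mul,
        k7 _ ((QuotientGroup.eq_one_iff _).1 ((map_pow φ y p).trans e2)), one_pow]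
    refine ⟨_, e, orderOf_eq_prime (congrArg Subtype.val i) fun e' => ?_⟩
    rw [show y ^ 25 = 1 from Subtype.ext e', map_one] at e
    rw [← e, orderOf_one] at o; exact hp.1.one_lt.ne o
  have f2 : Fact (Nat.Prime 2) := ⟨Nat.prime_two⟩
  have f3 : Fact (Nat.Prime 3) := ⟨Nat.prime_three⟩
  have nC : ∀ n ∈ N_(zpowers σ), cj n C_[σ] = C_[σ] := fun n i => by rw [← cz, cj_cent, cj_of_mem_norm i]
  have CN : C_[σ] ≤ N_(zpowers σ) := cz ▸ centralizer_le_normalizer _
  have hN : C_[z] ⊓ N_(zpowers σ) ≤ N_(C_[σ]) := fun n i => cj_eq_self_iff.1 (nC n i.2)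
  have a4 := card_sup_mul hN
  rw [show C_[σ] ⊓ (C_[z] ⊓ N_(zpowers σ)) = C_[z] ⊓ C_[σ] from Subgroup.ext fun y =>
    ⟨fun i => ⟨i.2.1, i.1⟩, fun i => ⟨i.2, i.1, CN i.2⟩⟩, c960, c3840] at a4
  have r4 : C_[σ].relIndex N_(zpowers σ) ≤ 4 := by
    rw [← cz, relIndex, ← normalizerMonoidHom_ker, index_ker]
    refine (Nat.card_le_card_of_injective _ Subtype.val_injective).trans_eq ?_
    rw [IsCyclic.card_mulAut, c5]; decide
  have a5 := card_mul_relIndex CN
  have eN : C_[σ] ⊔ C_[z] ⊓ N_(zpowers σ) = N_(zpowers σ) := eq_of_le_of_card_ge (sup_le CN inf_le_right) (by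
    have := Nat.mul_le_mul_left (Nat.card C_[σ]) r4
    omega)
  have z96 := ob 2 (by norm_num) ⟨z, zσ⟩ o2
  have d96 := ob 3 (by norm_num) ⟨δ, lo.δL.2⟩ lo.δ3
  have Q96 : ∀ a : C_[σ], a.1 ∈ Q → a ^ 96 = 1 := fun a i => Subtype.ext (by
    have := congrArg Subtype.val (pow_card_eq_one' (x := (⟨a, i⟩ : Q)))
    rw [lo.cQ] at this
    show a.1 ^ (32 * 3) = 1
    rw [pow_mul, show a.1 ^ 32 = 1 from this, one_pow])
  have Qσ : Q ≤ C_[σ] := lo.QL.trans inf_le_right
  let ι : Q ≃* (Q.subgroupOf C_[σ]).map φ := (subgroupOfEquivOfLe Qσ).symm.trans (MulEquiv.ofBijective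
    (φ.subgroupMap (Q.subgroupOf C_[σ]))
    ⟨fun a b e => Subtype.ext (inj _ _ (Q96 _ a.2) (Q96 _ b.2) (congrArg Subtype.val e)), φ.subgroupMap_surjective _⟩)
  obtain ⟨E, En, Ee, cE, ⟨ε⟩, nK⟩ := X ((Q.subgroupOf C_[σ]).map φ) (φ ⟨z, zσ⟩) (φ ⟨δ, lo.δL.2⟩) z96.2
    (by have := cc _ z96.1; simp only at this; omega)
    ⟨by rintro _ ⟨a, i, rfl⟩; exact (ce _ z96.1 a).2 (lo.QL i).1,
      le_norm_iff.2 (by
        rintro y i _ ⟨a, j, rfl⟩
        obtain ⟨y, rfl⟩ := su y
        exact ⟨y * a * y⁻¹, le_norm_iff.1 lo.nQ y.1 ⟨(ce _ z96.1 y).1 i, y.2⟩ a.1 j, by simp⟩),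
      ext ι lo.ex, (Nat.card_congr ι.toEquiv).symm.trans lo.cQ, ⟨_, lo.zQ, rfl⟩, (ce _ z96.1 _).2 lo.δL.1, d96.2,
      by
        rintro _ ⟨a, i, rfl⟩ j
        rcases lo.fp a i ((ce _ d96.1 a).1 j) with e | e
        · exact .inl (by rw [show a = 1 from Subtype.ext e, map_one])
        · exact .inr (congrArg φ (Subtype.ext e)),
      by
        obtain ⟨w, i, e⟩ := lo.iv
        exact ⟨φ ⟨w, i.2⟩, (ce _ z96.1 _).2 i.1, by
          rw [← map_inv, ← map_inv, ← map_mul, ← map_mul]; exact congrArg φ (Subtype.ext e)⟩⟩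
    (fun w o => by
      obtain ⟨y, rfl, o'⟩ := lf 2 (by norm_num) w o
      refine (h1 y y.2 o').imp (fun h => Nat.dvd_of_mul_dvd_mul_right (by norm_num : 0 < 5)
        ((cc y (ob 2 (by norm_num) y o').1) ▸ h)) fun h => ?_
      obtain ⟨g, eg⟩ := isConj_iff.1 h
      have sy : IsSylowIn 5 (zpowers σ) C_[z] := isSylowIn_mk p5 (zpowers_le.2 σz) (IsPGroup.of_card (n := 1) c5) (by
        have := card_mul_relIndex (zpowers_le.2 σz)
        rw [c5] at this; omega)
      obtain ⟨k, kz, lk⟩ := sylow_Jsub p5 sy (X := cj g⁻¹ (zpowers σ)) (IsPGroup.of_card (n := 1) ((card_cj _ _).trans c5)) (by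
        rw [← cj_inv_cj g C_[z], cj_cent1, eg]
        exact cj_mono _ (zpowers_le.2 (mem_cent1_comm.1 y.2)))
      rw [cj_cj] at lk
      have nN : (k * g⁻¹)⁻¹ ∈ ((C_[σ] ⊔ C_[z] ⊓ N_(zpowers σ) : Subgroup G) : Set G) := eN.ge (inv_mem (mem_norm_of_cj_le lk))
      rw [coe_mul_of_right_le_normalizer_left _ _ hN] at nN
      obtain ⟨c, cσ, m, mz, e⟩ := nN
      refine isConj_iff.2 ⟨φ ⟨c, cσ⟩, ?_⟩
      rw [← map_inv, ← map_mul, ← map_mul]
      refine congrArg φ (Subtype.ext ?_)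
      show c * z * c⁻¹ = y
      have e1 : g = c * (m * k) := by rw [← mul_assoc, show c * m = (k * g⁻¹)⁻¹ from e]; group
      rw [← eg, e1, mul_assoc c (m * k), mem_cent1.1 (mul_mem mz.1 kz)]; group)
    (fun h => by
      obtain ⟨K, cK⟩ := Sylow.exists_subgroup_card_pow_prime 3 (n := 2) h
      obtain ⟨x, ox⟩ := exists_prime_orderOf_dvd_card' (G := K) 3 (by rw [cK]; norm_num)
      obtain ⟨y, ey, o'⟩ := lf 3 (by norm_num) x.1 ((orderOf_coe x).trans ox)
      have a := card_dvd_of_le (show K ≤ C_[x.1] from fun b i => mem_cent1.2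
        (congrArg Subtype.val (IsPGroup.commutative_of_card_eq_prime_sq cK ⟨b, i⟩ x)))
      have b := cc y (ob 3 (by norm_num) y o').1
      have c := h3 y y.2 o'
      rw [← b, ey] at c
      rw [cK] at a
      have := (Dvd.dvd.mul_right a 5).trans c
      omega) W
  have cX : Nat.card (C_[σ] ⧸ zpowers s) = 1344 := by
    rw [E.card_eq_card_quotient_mul_card_subgroup, cE, Nat.card_congr ε.toEquiv, Nat.card_eq_fintype_card]
    decide +kernel
  have cC : Nat.card C_[σ] = 6720 := by rw [(zpowers s).card_eq_card_quotient_mul_card_subgroup, cX, cZ]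
  have cN : Nat.card ↥(N_(zpowers σ)) = 26880 := by rw [eN, cC] at a4; omega
  refine ⟨?_, ?_, by rw [cN]; norm_num⟩
  · have a := card_mul_relIndex (le_norm (zpowers σ))
    rw [c5, cN] at a
    have sy : IsSylowIn 5 (zpowers σ) ⊤ := IsSylowIn.of_norm p5 le_top (by
      rw [top_inf_eq]
      exact isSylowIn_mk p5 (le_norm _) (IsPGroup.of_card (n := 1) c5) (by omega))
    have b := card_mul_relIndex (le_top : zpowers σ ≤ ⊤)
    have := sy.not_dvd' p5
    rw [c5, card_top] at b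
    omega
  · obtain ⟨I, hI⟩ := exists_right_complement'_of_coprime (N := zpowers s) (by
      rw [cZ, index_eq_card, cX]; norm_num)
    have ms : (zpowers s).map C_[σ].subtype = zpowers σ := MonoidHom.map_zpowers _ _
    let e := hI.symm.QuotientMulEquiv.trans (I.equivMapOfInjective _ (subtype_injective _))
    refine ⟨I.map C_[σ].subtype, ⟨(zpowers_le.2 (mem_cent1_self σ)).trans cz.ge, (map_subtype_le _).trans cz.ge,
      fun a i b j => ?_, ?_, ?_⟩, E.map e.toMonoidHom, En.map _ e.surjective, ⟨⟨⟨?_⟩⟩, ?_⟩,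
      (card_map_of_injective e.injective).trans cE, ?_, fun K hK => nK (K.map e.symm.toMonoidHom) ?_⟩
    · exact cz.ge (map_subtype_le _ j) a i
    · rw [← ms, ← map_inf _ _ _ (subtype_injective _), hI.disjoint.eq_bot, Subgroup.map_bot]
    · rw [cz, ← ms, ← Subgroup.map_sup, hI.sup_eq_top, ← MonoidHom.range_eq_map, range_subtype]
    · rintro ⟨_, a, i, rfl⟩ ⟨_, b, j, rfl⟩
      exact Subtype.ext (((map_mul _ a b).symm.trans (congrArg _ (congrArg Subtype.val
        (Ee.1.1.1 ⟨a, i⟩ ⟨b, j⟩)))).trans (map_mul _ b a))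
    · rintro _ ⟨a, i, rfl⟩
      rw [← map_pow, Ee.2 a i, map_one]
    · have := En.map e.toMonoidHom e.surjective
      exact ⟨(QuotientGroup.congr E (E.map e.toMonoidHom) e rfl).symm.trans ε⟩
    · obtain ⟨k1, k2⟩ := isComplement'_iff_card_mul_and_disjoint.1 hK
      refine isComplement'_iff_card_mul_and_disjoint.2 ⟨?_, disjoint_def.2 ?_⟩
      · rw [card_map_of_injective e.symm.injective, Nat.card_congr e.toEquiv, ← k1, card_map_of_injective e.injective]
      · rintro _ i ⟨b, j, rfl⟩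
        rw [disjoint_def.1 k2 ⟨_, i, by simp⟩ j, map_one]

end H03.S5F
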