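import Cfsg.Agent.L.Js0

/-! Part F of the cluster for S5573. -/

set_option autoImplicit false
open Cfsg BG Subgroup L.Js

namespace H03.S7F
universe u

theorem f : FStmt.{u} := by
  intro G _ _ σ z U X o7 o2 zσ h1 Uσ cU h2 h3 c252
  have cz : C_(zpowers σ) = C_[σ] := Subgroup.ext fun y => ⟨fun i => mem_cent1.2 (i σ (mem_zpowers σ)).symm, fun i => by
    rintro _ ⟨k, rfl⟩
    exact ((show Commute y σ from mem_cent1.1 i).zpow_right k).symm.eq⟩
  let s : C_[σ] := ⟨σ, mem_cent1_self σ⟩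
  have sc : ∀ y : C_[σ], ∀ k ∈ zpowers s, Commute y k := by
    rintro y _ ⟨k, rfl⟩
    exact (show Commute y s from Subtype.ext (mem_cent1.1 y.2)).zpow_right k
  have cZ : Nat.card (zpowers s) = 7 := by rw [Nat.card_zpowers, orderOf_mk, o7]
  have nZ : (zpowers s).Normal := ⟨fun n i g => by rwa [(sc g n i).eq, mul_inv_cancel_right]⟩
  have k7 : ∀ k ∈ zpowers s, k ^ 7 = 1 := fun k i => by
    have := pow_card_eq_one' (x := (⟨k, i⟩ : zpowers s))
    rw [cZ] at this; exact congrArg Subtype.val this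
  have k2 : ∀ k ∈ zpowers s, k ^ 2 = 1 → k = 1 := fun k i e => orderOf_eq_one_iff.1 (by
    simpa using Nat.dvd_gcd (orderOf_dvd_of_pow_eq_one e) (orderOf_dvd_of_pow_eq_one (k7 k i)))
  let φ := QuotientGroup.mk' (zpowers s)
  have su : Function.Surjective φ := QuotientGroup.mk'_surjective _
  have inj : ∀ a b : C_[σ], a ^ 2 = 1 → b ^ 2 = 1 → φ a = φ b → a = b := fun a b i j e => by
    obtain ⟨k, m, rfl⟩ := (QuotientGroup.mk'_eq_mk' _).1 e
    rw [(sc a k m).mul_pow, i, one_mul] at j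
    rw [k2 k m j, mul_one]
  have cc : ∀ w : C_[σ], w ^ 2 = 1 → Nat.card C_[φ w] * 7 = Nat.card ↥(C_[w.1] ⊓ C_[σ]) := fun w i => by
    have e : (C_[φ w]).comap φ = (C_[w.1] ⊓ C_[σ]).subgroupOf C_[σ] := Subgroup.ext fun y => by
      rw [mem_comap, mem_cent1, mem_subgroupOf, mem_inf, mem_cent1, and_iff_left y.2]
      refine ⟨fun e => ?_, fun e => by rw [← map_mul, ← map_mul, show y * w = w * y from Subtype.ext e]⟩
      have := inj (y * w * y⁻¹) w (by rw [conj_pow, i]; simp) i (by rw [map_mul, map_mul, e, map_inv]; simp)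
      exact congrArg Subtype.val (mul_inv_eq_iff_eq_mul.1 this)
    have a1 := (C_[φ w]).card_mul_index
    have a2 := ((C_[φ w]).comap φ).card_mul_index
    have a3 := (zpowers s).card_eq_card_quotient_mul_card_subgroup
    rw [index_comap_of_surjective _ su, e, Nat.card_congr (subgroupOfEquivOfLe inf_le_right).toEquiv, a3, cZ, ← a1] at a2
    refine Nat.eq_of_mul_eq_mul_right (Nat.pos_of_ne_zero (index_ne_zero_of_finite (H := C_[φ w]))) ?_
    rw [a2]; ring
  have f2 : Fact (Nat.Prime 2) := ⟨Nat.prime_two⟩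
  have ob : ∀ w : C_[σ], orderOf w.1 = 2 → w ^ 2 = 1 ∧ orderOf (φ w) = 2 := fun w o => by
    have i : w ^ 2 = 1 := Subtype.ext (by simpa [o] using pow_orderOf_eq_one w.1)
    refine ⟨i, orderOf_eq_prime (by rw [← map_pow, i, map_one]) fun e => ?_⟩
    rw [inj w 1 i (one_pow _) (e.trans (map_one φ).symm)] at o
    simp at o
  obtain ⟨⟨ε⟩, c12, cj'⟩ := X ((U.subgroupOf C_[σ]).map φ) (φ ⟨z, zσ⟩) (fun w o => by
      obtain ⟨y, rfl⟩ := su w
      have e2 : φ y ^ 2 = 1 := o ▸ pow_orderOf_eq_one (φ y)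
      have e : φ (y ^ 7) = φ y := by rw [map_pow, show 7 = 2 * 3 + 1 from rfl, pow_succ, pow_mul, e2, one_pow, one_mul]
      have i : (y ^ 7) ^ 2 = 1 := by
        rw [← pow_mul, mul_comm, pow_mul]
        exact k7 _ ((QuotientGroup.eq_one_iff _).1 ((map_pow φ y 2).trans e2))
      have o' : orderOf (y ^ 7).1 = 2 := orderOf_eq_prime (congrArg Subtype.val i) fun e' => by
        rw [show y ^ 7 = 1 from Subtype.ext e', map_one] at e
        rw [← e, orderOf_one] at o; omega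
      have a := cc _ i
      rw [e] at a
      rcases h1 _ (y ^ 7).2 o' with h | ⟨h, h'⟩
      · exact .inl (Nat.dvd_of_mul_dvd_mul_right (by norm_num : 0 < 7) (a ▸ h))
      · exact .inr ⟨by omega, Nat.dvd_of_mul_dvd_mul_right (by norm_num : 0 < 7) (a ▸ h')⟩)
    (by
      have U2 : ∀ a : C_[σ], a.1 ∈ U → a ^ 2 = 1 := fun a i => by
        by_cases e : a.1 = 1
        · rw [show a = 1 from Subtype.ext e, one_pow]
        · exact (ob a (h2 a i e).1).1
      rw [← cU, ← Nat.card_congr (subgroupOfEquivOfLe Uσ).toEquiv]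
      exact (Nat.card_congr (Equiv.ofBijective (φ.subgroupMap (U.subgroupOf C_[σ]))
        ⟨fun a b e => Subtype.ext (inj _ _ (U2 _ a.2) (U2 _ b.2) (congrArg Subtype.val e)),
          φ.subgroupMap_surjective _⟩)).symm)
    (by
      rintro _ ⟨w, i, rfl⟩ n
      obtain ⟨o, d⟩ := h2 w i fun e => n (by rw [show w = 1 from Subtype.ext e, map_one])
      exact ⟨(ob w o).2, Nat.dvd_of_mul_dvd_mul_right (by norm_num : 0 < 7) ((cc w (ob w o).1) ▸ d)⟩)
    (ob ⟨z, zσ⟩ o2).2 (by have := cc ⟨z, zσ⟩ (ob ⟨z, zσ⟩ o2).1; simp only at this; omega)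
  have c84 : Nat.card ↥(C_[z] ⊓ C_[σ]) = 84 := by
    have := cc ⟨z, zσ⟩ (ob ⟨z, zσ⟩ o2).1
    rw [c12] at this; exact this.symm
  have cX : Nat.card (C_[σ] ⧸ zpowers s) = 120 := by
    rw [Nat.card_congr ε.toEquiv, Nat.card_eq_fintype_card, Fintype.card_perm]; rfl
  have cC : Nat.card C_[σ] = 840 := by rw [(zpowers s).card_eq_card_quotient_mul_card_subgroup, cX, cZ]
  have nC : ∀ n ∈ N_(zpowers σ), cj n C_[σ] = C_[σ] := fun n i => by rw [← cz, cj_cent, cj_of_mem_norm i]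
  have CN : C_[σ] ≤ N_(zpowers σ) := cz ▸ centralizer_le_normalizer _
  have eN : C_[σ] ⊔ C_[z] ⊓ N_(zpowers σ) = N_(zpowers σ) := le_antisymm (sup_le CN inf_le_right) fun n i => by
    have wσ : n * z * n⁻¹ ∈ C_[σ] := (nC n i).le (conj_mem_cj n zσ)
    have ow : orderOf (n * z * n⁻¹) = 2 := by rw [← o2]; exact (MulAut.conj n).orderOf_eq z
    have a := cc ⟨_, wσ⟩ (ob ⟨_, wσ⟩ ow).1
    have e : C_[n * z * n⁻¹] ⊓ C_[σ] = cj n (C_[z] ⊓ C_[σ]) := by rw [cj_inf, nC n i, cj_cent1]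
    simp only at a
    rw [e, card_cj, c84] at a
    obtain ⟨c, ec⟩ := isConj_iff.1 (cj' _ (ob ⟨_, wσ⟩ ow).2 (by omega))
    obtain ⟨c, rfl⟩ := su c
    have := congrArg Subtype.val (inj (c * ⟨z, zσ⟩ * c⁻¹) ⟨_, wσ⟩ (by rw [conj_pow, (ob ⟨z, zσ⟩ o2).1]; simp)
      (ob ⟨_, wσ⟩ ow).1 (by rw [map_mul, map_mul, map_inv, ec]))
    have e2 : (c : G) * z * (c : G)⁻¹ = n * z * n⁻¹ := this
    rw [show n = c * ((c : G)⁻¹ * n) by group]
    refine mul_mem (mem_sup_left c.2) (mem_sup_right (mem_inf.2 ⟨mem_cent1.2 ?_, mul_mem (inv_mem (CN c.2)) i⟩))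
    calc (c : G)⁻¹ * n * z = (c : G)⁻¹ * (n * z * n⁻¹) * n := by group
      _ = _ := by rw [← e2]; group
  have cN : Nat.card ↥(N_(zpowers σ)) = 2520 := by
    have a := card_sup_mul (K := C_[σ]) (H := C_[z] ⊓ N_(zpowers σ)) fun n i => cj_eq_self_iff.1 (nC n i.2)
    rw [eN, show C_[σ] ⊓ (C_[z] ⊓ N_(zpowers σ)) = C_[z] ⊓ C_[σ] from Subgroup.ext fun y =>
      ⟨fun i => ⟨i.2.1, i.1⟩, fun i => ⟨i.2, i.1, CN i.2⟩⟩, c84, cC, c252] at a
    omega
  have c7 : Nat.card (zpowers σ) = 7 := by rw [Nat.card_zpowers, o7]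
  refine ⟨?_, ?_, by rw [cz, cC, cN], by rw [cN]; norm_num⟩
  · have p7 : Nat.Prime 7 := by norm_num
    have a := card_mul_relIndex (le_norm (zpowers σ))
    rw [c7, cN] at a
    have sy : IsSylowIn 7 (zpowers σ) ⊤ := IsSylowIn.of_norm p7 le_top (by
      rw [top_inf_eq]
      exact isSylowIn_mk p7 (le_norm _) (IsPGroup.of_card (n := 1) c7) (by omega))
    have b := card_mul_relIndex (le_top : zpowers σ ≤ ⊤)
    have := sy.not_dvd' p7
    rw [c7, card_top] at b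
    omega
  · obtain ⟨I, hI⟩ := exists_right_complement'_of_coprime (N := zpowers s) (by
      rw [cZ, index_eq_card, cX]; norm_num)
    have ms : (zpowers s).map C_[σ].subtype = zpowers σ := MonoidHom.map_zpowers _ _
    refine ⟨I.map C_[σ].subtype, ⟨(zpowers_le.2 (mem_cent1_self σ)).trans cz.ge, (map_subtype_le _).trans cz.ge, fun a i b j => ?_, ?_, ?_⟩,
      ⟨((I.equivMapOfInjective _ (subtype_injective _)).symm.trans hI.symm.QuotientMulEquiv.symm).trans ε⟩⟩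
    · exact cz.ge (map_subtype_le _ j) a i
    · rw [← ms, ← map_inf _ _ _ (subtype_injective _), hI.disjoint.eq_bot, Subgroup.map_bot]
    · rw [cz, ← ms, ← Subgroup.map_sup, hI.sup_eq_top, ← MonoidHom.range_eq_map, range_subtype]

end H03.S7F
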