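import Mathlib
import Cfsg.Agent.H03.LX1
import Cfsg.Agent.H26.Syl

/-!
Extraspecial groups of order 128 admitting a group of order 81 (namespace `H03.SZ`): `fix3`, `orb3`, `step`, `minus`, `frame`.
-/

set_option autoImplicit false
set_option linter.unusedSectionVars false

namespace H03.SZ
open Cfsg BG H04 Subgroup
open scoped commutatorElement

variable {G : Type*} [Group G] [Finite G] {R C Q : Subgroup G} {z x y : G}

/-- conjugation action on an invariant set -/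
@[reducible] def act (R : Subgroup G) (X : Set G) (h : ∀ r ∈ R, ∀ x ∈ X, r * x * r⁻¹ ∈ X) : MulAction R X where
  smul r x := ⟨r * x * (r : G)⁻¹, h r r.2 x x.2⟩
  one_smul x := Subtype.ext (by show (1 : G) * x * 1⁻¹ = x; simp)
  mul_smul r s x := Subtype.ext (by show (r * s : G) * x * (r * s : G)⁻¹ = r * (s * x * (s : G)⁻¹) * (r : G)⁻¹; group)

theorem fix3 (hR : IsPGroup 3 R) {X : Set G} (h : ∀ r ∈ R, ∀ x ∈ X, r * x * r⁻¹ ∈ X) (h3 : ¬ 3 ∣ X.ncard) :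
    ∃ x ∈ X, R ≤ C_[x] := by
  have : Fact (Nat.Prime 3) := ⟨Nat.prime_three⟩
  let _ := act R X h
  obtain ⟨x, hx⟩ := hR.nonempty_fixed_point_of_prime_not_dvd_card X h3
  exact ⟨x, x.2, fun r hr => mem_cent1.2 (mul_inv_eq_iff_eq_mul.1 (congrArg Subtype.val (hx ⟨r, hr⟩)))⟩

theorem orb3 (hR : IsPGroup 3 R) {X : Set G} (h : ∀ r ∈ R, ∀ x ∈ X, r * x * r⁻¹ ∈ X) {k : ℕ} (h3 : X.ncard < 3 ^ (k + 1))
    (hx : x ∈ X) : Nat.card R ≤ 3 ^ k * Nat.card ↥(R ⊓ C_[x]) := by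
  have : Fact (Nat.Prime 3) := ⟨Nat.prime_three⟩
  let _ := act R X h
  obtain ⟨n, hn⟩ := hR.card_orbit (⟨x, hx⟩ : X)
  have l : 3 ^ n ≤ X.ncard := hn ▸ Nat.card_le_card_of_injective _ Subtype.val_injective
  have l2 : n ≤ k := Nat.lt_succ_iff.1 ((Nat.pow_lt_pow_iff_right (by decide)).1 (l.trans_lt h3))
  have e : MulAction.stabilizer R (⟨x, hx⟩ : X) = (R ⊓ C_[x]).subgroupOf R := by
    ext r
    rw [MulAction.mem_stabilizer_iff, mem_subgroupOf, mem_inf, mem_cent1, Subtype.ext_iff]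
    exact mul_inv_eq_iff_eq_mul.trans (and_iff_right r.2).symm
  rw [← (MulAction.stabilizer R (⟨x, hx⟩ : X)).index_mul_card, MulAction.index_stabilizer, e, H26.card_subgroupOf inf_le_left]
  exact Nat.mul_le_mul_right _ (hn.le.trans (Nat.pow_le_pow_right (by decide) l2))

theorem step (h : AES 2 C z) (hR : IsPGroup 3 R) (hn : R ≤ N_(C)) (hx : x ∈ C) (hc : x ∉ C_(C)) (hRx : R ≤ C_[x]) :
    ∃ y ∈ C, ¬ Commute x y ∧ R ≤ N_(spl C x y) ∧ R ⊓ C_(spl C x y) ≤ C_(C) := by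
  have : Fact (Nat.Prime 2) := ⟨Nat.prime_two⟩
  obtain ⟨y0, h0, e0⟩ := h.exists_comm_eq hx hc
  have cj : ∀ r ∈ R, ∀ y, Commute x (r * y * r⁻¹) ↔ Commute x y := fun r hr y => by
    have : x = r * x * r⁻¹ := by rw [mem_cent1.1 (hRx hr), mul_inv_cancel_right]
    nth_rw 1 [this]
    exact ⟨fun c => by simpa [mul_assoc] using c.conj r⁻¹, fun c => c.conj r⟩
  obtain ⟨y, ⟨hy, ny⟩, hRy⟩ := fix3 hR (X := {y | y ∈ C ∧ ¬ Commute x y})
    (fun r hr y hy => ⟨conj_mem_of_norm (hn hr) hy.1, (cj r hr y).not.2 hy.2⟩) (by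
      have e : {y | y ∈ C ∧ ¬ Commute x y} = (· * y0) '' (C ⊓ C_[x] : Subgroup G) := by
        ext y
        refine ⟨fun ⟨hy, ny⟩ => ⟨y * y0⁻¹, ⟨C.mul_mem hy (C.inv_mem h0), mem_cent1.2 ?_⟩, by simp⟩, ?_⟩
        · have := h.comm_mul_right hx (mul_mem hy (inv_mem h0)) h0
          rw [inv_mul_cancel_right, e0, h.comm_eq hx hy ny, right_eq_mul] at this
          exact (commutatorElement_eq_one_iff_mul_comm.1 this).symm
        · rintro ⟨c, ⟨h1, h2⟩, rfl⟩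
          exact ⟨C.mul_mem h1 h0, fun e => h.not_commute e0 (by
            simpa using (Commute.inv_right (mem_cent1.1 h2).symm).mul_right e)⟩
      rw [e, Set.ncard_image_of_injective _ (mul_left_injective y0), ncard_coe_subgroup]
      obtain ⟨n, hn⟩ := IsPGroup.iff_card.1 (h.isPGroup.to_le (inf_le_left (b := C_[x])))
      rw [hn]
      exact fun d => absurd (Nat.prime_three.dvd_of_dvd_pow d) (by decide))
  refine ⟨y, hy, ny, fun r hr => H26.mem_normalizer_of_cj_le (H26.cj_le_iff.2 fun c hc => ?_), fun r hr => mem_cent.2 fun g hg => ?_⟩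
  · obtain ⟨c1, c2, c3⟩ := mem_spl.1 hc
    refine mem_spl.2 ⟨conj_mem_of_norm (hn hr) c1, ((cj r hr c).2 c2.symm).symm, ?_⟩
    have := c3.conj r
    rwa [mem_cent1.1 (hRy hr), mul_inv_cancel_right] at this
  · obtain ⟨c, hc, i, j, rfl⟩ := h.exists_decomp hx hy ny hg
    exact ((Commute.mul_left (hr.2 c hc) (Commute.zpow_left (mem_cent1.1 (hRx hr.1)).symm i)).mul_left
      (Commute.zpow_left (mem_cent1.1 (hRy hr.1)).symm j)).eq

theorem sq_nc (h : AES 2 C z) (hc : C ⊓ C_(C) ≤ zpowers z) (hx : x ∈ C) (e : x ^ 2 = z) : x ∉ C_(C) := fun c => by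
  have : Fact (Nat.Prime 2) := ⟨Nat.prime_two⟩
  exact h.ne_one (e.symm.trans (h.pow_eq_one (hc ⟨hx, c⟩)))

theorem minus (h : ES Q z) (hc : Nat.card Q = 128) (h81 : 81 ∣ Nat.card C_[z]) : sqCount Q 1 = 56 := by
  have : Fact (Nat.Prime 2) := ⟨Nat.prime_two⟩
  have : Fact (Nat.Prime 3) := ⟨Nat.prime_three⟩
  have a := h.aes
  refine ((a.sqCount_of_center h.zc.le (n := 3) hc).resolve_left fun e => ?_) |> fun e => by omega
  obtain ⟨R0, c0⟩ := Sylow.exists_subgroup_card_pow_prime (G := C_[z]) 3 (n := 4) h81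
  obtain ⟨R, cR, Rz⟩ : ∃ R : Subgroup G, Nat.card R = 3 ^ 4 ∧ R ≤ C_[z] :=
    ⟨R0.map (Subgroup.subtype _), (H26.card_map_subtype _).trans c0, map_subtype_le _⟩
  have pR : IsPGroup 3 R := IsPGroup.of_card cR
  have inv : ∀ {R' C : Subgroup G}, R' ≤ R → R' ≤ N_(C) → ∀ r ∈ R', ∀ x ∈ {c | c ∈ C ∧ c ^ 2 = z},
      r * x * r⁻¹ ∈ {c | c ∈ C ∧ c ^ 2 = z} := fun h1 h2 r hr x hx =>
    ⟨conj_mem_of_norm (h2 hr) hx.1, by rw [conj_pow, hx.2, mem_cent1.1 (Rz (h1 hr)), mul_inv_cancel_right]⟩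
  have s1 := a.sqCount_add
  obtain ⟨x1, ⟨hx1, q1⟩, f1⟩ := fix3 pR (inv le_rfl (Rz.trans h.norm)) (by
    rw [show {c | c ∈ Q ∧ c ^ 2 = z}.ncard = 56 by change sqCount Q z = 56; omega]; decide)
  obtain ⟨y1, hy1, n1, N1, C1⟩ := step a pR (Rz.trans h.norm) hx1 (sq_nc a h.zc.le hx1 q1) f1
  have a2 := a.spl hx1 hy1
  have z2 := (a.center_spl hx1 hy1 n1).le.trans h.zc.le
  have c2 := a.card_eq_spl hx1 hy1 n1
  have s2 := a2.sqCount_add
  have s2' := a.sqCount_spl_or hx1 hy1 n1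
  have l : 0 < sqCount (spl Q x1 y1) z ∧ sqCount (spl Q x1 y1) z < 27 := by omega
  obtain ⟨x2, hx2, q2⟩ := (Set.ncard_pos (Set.toFinite _)).1 l.1
  have o2 := orb3 pR (inv le_rfl N1) (k := 2) l.2 ⟨hx2, q2⟩
  obtain ⟨y2, hy2, n2, N2, C2⟩ := step a2 (pR.to_le (inf_le_left (b := C_[x2]))) (inf_le_left.trans N1) hx2
    (sq_nc a2 z2 hx2 q2) inf_le_right
  have a3 := a2.spl hx2 hy2
  have z3 := (a2.center_spl hx2 hy2 n2).le.trans z2
  have c3 := a2.card_eq_spl hx2 hy2 n2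
  have cz : Nat.card (zpowers z) = 2 := by rw [Nat.card_zpowers, a.ord]
  obtain ⟨x3, hx3, q3⟩ := a3.exists_notMem_cent z3 fun e => by rw [e, cz] at c3; omega
  have o3 := orb3 (pR.to_le (inf_le_left (b := C_[x2]))) (X := spl (spl Q x1 y1) x2 y2)
    (fun r hr _ hx => conj_mem_of_norm (N2 hr) hx) (k := 1) (by rw [ncard_coe_subgroup]; omega) hx3
  have p3 := pR.to_le ((inf_le_left (b := C_[x3])).trans (inf_le_left (b := C_[x2])))
  obtain ⟨y3, hy3, n3, -, C3⟩ := step a3 p3 (inf_le_left.trans N2) hx3 q3 inf_le_right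
  have c4 := a3.card_eq_spl hx3 hy3 n3
  have e4 : zpowers z = spl (spl (spl Q x1 y1) x2 y2) x3 y3 :=
    eq_of_le_of_card_ge (zpowers_le.2 (a3.spl hx3 hy3).mem) (by omega)
  have : R ⊓ C_[x2] ⊓ C_[x3] = ⊥ := H26.eq_bot_of_isPGroup_of_not_dvd p3 (H := zpowers z) (fun r hr => h.cent
    (C1 ⟨hr.1.1, C2 ⟨hr.1, C3 ⟨hr, e4 ▸ (cent_zpowers z).ge (Rz hr.1.1)⟩⟩⟩)) (by rw [cz]; decide)
  rw [this, card_bot] at o3
  omega

theorem frame (h : ES Q z) (hc : Nat.card Q = 128) (h81 : 81 ∣ Nat.card C_[z]) :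
    ∃ g : ℕ → G, (∀ i < 6, g i ∈ Q) ∧ g 0 * g 0 = 1 ∧ g 1 * g 1 = 1 ∧ g 2 * g 2 = 1 ∧ g 3 * g 3 = 1 ∧ g 4 * g 4 = z ∧
      g 5 * g 5 = z ∧ g 1 * g 0 = z * (g 0 * g 1) ∧ g 3 * g 2 = z * (g 2 * g 3) ∧ g 5 * g 4 = z * (g 4 * g 5) ∧
      ∀ j < 6, ∀ i < j, i / 2 ≠ j / 2 → g j * g i = g i * g j := by
  have : Fact (Nat.Prime 2) := ⟨Nat.prime_two⟩
  have a := h.aes
  have s1 := minus h hc h81
  obtain ⟨x1, hx1, y1, hy1, p1, q1, n1⟩ := a.exists_sq_eq_one h.zc.le (by omega)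
  have a2 := a.spl hx1 hy1
  have z2 := (a.center_spl hx1 hy1 n1).le.trans h.zc.le
  have c2 := a.card_eq_spl hx1 hy1 n1
  have s2 := a.sqCount_spl_of_sq hx1 hy1 n1 p1
  obtain ⟨x2, hx2, y2, hy2, p2, q2, n2⟩ := a2.exists_sq_eq_one z2 (by omega)
  have a3 := a2.spl hx2 hy2
  have z3 := (a2.center_spl hx2 hy2 n2).le.trans z2
  have c3 := a2.card_eq_spl hx2 hy2 n2
  have s3 := a2.sqCount_spl_of_sq hx2 hy2 n2 p2
  have cz : Nat.card (zpowers z) = 2 := by rw [Nat.card_zpowers, a.ord]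
  obtain ⟨x3, hx3, q3⟩ := a3.exists_notMem_cent z3 fun e => by rw [e, cz] at c3; omega
  obtain ⟨y3, hy3, e3⟩ := a3.exists_comm_eq hx3 q3
  have n3 := a3.not_commute e3
  have p3 := a3.sq_eq_of_sqCount_le (by omega) hx3 fun c => q3 (a3.zpowers_le c).2
  have r3 := a3.sq_eq_of_sqCount_le (by omega) hy3 fun c => n3 (a3.commute c hx3)
  have ac : ∀ {x y : G}, x ∈ Q → y ∈ Q → ¬ Commute x y → y * x = z * (x * y) := fun hx hy n => by
    rw [← a.comm_eq hy hx fun c => n c.symm, commutatorElement_def]; group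
  obtain ⟨u1, u2, u3⟩ := mem_spl.1 hx2
  obtain ⟨v1, v2, v3⟩ := mem_spl.1 hy2
  obtain ⟨w0, w4, w5⟩ := mem_spl.1 hx3
  obtain ⟨w1, w2, w3⟩ := mem_spl.1 w0
  obtain ⟨t0, t4, t5⟩ := mem_spl.1 hy3
  obtain ⟨t1, t2, t3⟩ := mem_spl.1 t0
  refine ⟨fun i => [x1, y1, x2, y2, x3, y3].getD i 1, fun i hi => ?_, pow_two x1 ▸ p1, pow_two y1 ▸ q1, pow_two x2 ▸ p2,
    pow_two y2 ▸ q2, pow_two x3 ▸ p3, pow_two y3 ▸ r3, ac hx1 hy1 n1, ac u1 v1 n2, ac w1 t1 n3, fun j hj i hi ne => ?_⟩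
  · interval_cases i <;> assumption
  · interval_cases j <;> interval_cases i <;> first | exact absurd rfl ne | assumption

end H03.SZ
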