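import Cfsg.Agent.H23.Y0
import Cfsg.Agent.H06.JZ
import Cfsg.Agent.H21.WC2

/-! Part M of the cluster for S5569. -/

set_option autoImplicit false
open Cfsg BG Subgroup H01.XS Cfsg.Agent.H06.J Cfsg.Agent.H23.K Cfsg.Agent.H23.Y

namespace H03.YM
universe u

theorem m : MStmt.{u} := by
  intro V _ _ _ Γ _ _ T d M K Y β q B g hx KM iK pj pi ⟨a, aB, b, bB, a0, b0, ab⟩ v qv
  by_contra! nv
  have v0 : v ≠ 0 := fun e => nv 1 (by rw [e, map_zero]; exact zero_mem _)
  let _ : MulAction Γ V := { smul := fun x w => T x w, one_smul := g.one, mul_smul := g.mul }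
  have sm : ∀ (x : Γ) (w : V), x • w = T x w := fun _ _ => rfl
  have it : ∀ (x : Γ) (n : ℕ) (w : V), (T x)^[n] w = T (x ^ n) w := fun x n => by
    induction n with
    | zero => intro w; rw [pow_zero, g.one]; rfl
    | succ n ih => intro w; rw [Function.iterate_succ_apply, ih, pow_succ, g.mul]
  have d3 : ∀ w, T d (T d (T d w)) = w := fun w => by rw [← g.mul, ← g.mul, mul_assoc, g.d3, g.one]
  have n0 := g.toQF.n0 d3 (g.qT d) g.hf
  have cM : Nat.card M = 1330560 := by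
    have a1 := M.card_mul_index
    rw [g.Mi, g.cΓ] at a1; omega
  have T0 : ∀ x w, T x w = 0 → w = 0 := fun x w e => by
    have := congrArg (T x⁻¹) e
    rwa [← g.mul, inv_mul_cancel, g.one, map_zero] at this
  have key : ∀ (p : ℕ) [Fact p.Prime] (x : Γ), x ^ p = 1 → (∀ w, w ≠ 0 → q w = 0 → T x w ≠ w) → ∀ w, w ≠ 0 → q w = 0 →
      p ∣ (MulAction.orbit Γ w).ncard := fun p _ x xp h w w0 qw => by
    have := H21.WC2.md p (T x) (fun u => by rw [it, xp, g.one]) (MulAction.orbit Γ w) fun u i =>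
      MulAction.mem_orbit_of_mem_orbit x i
    rw [show {u | u ∈ MulAction.orbit Γ w ∧ T x u = u} = ∅ from Set.eq_empty_of_forall_notMem (by
      rintro _ ⟨⟨y, rfl⟩, e⟩
      exact h _ (fun e' => w0 (T0 y w e')) ((g.qT y w).trans qw) e)] at this
    simpa [Nat.modEq_zero_iff_dvd] using this
  have f3 : Fact (Nat.Prime 3) := ⟨by norm_num⟩
  have f7 : Fact (Nat.Prime 7) := ⟨by norm_num⟩
  have f11 : Fact (Nat.Prime 11) := ⟨by norm_num⟩
  have vv : ∀ w : V, w + w = 0 := fun w => by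
    rw [← two_smul (ZMod 2), show (2 : ZMod 2) = 0 from rfl, zero_smul]
  have k3 := key 3 d (by rw [pow_three, g.d3]) fun w w0 _ e => w0 (by
    have := g.hf w
    rwa [e, e, vv, zero_add] at this)
  obtain ⟨⟨y, yM⟩, oy⟩ := exists_prime_orderOf_dvd_card' (G := M) 7 (by rw [cM]; norm_num)
  rw [orderOf_mk] at oy
  have y7 : y ^ 7 = 1 := oy ▸ pow_orderOf_eq_one y
  obtain ⟨u, nu⟩ : ∃ u, T y u ≠ u := by
    by_contra! h
    rw [g.fai y h, orderOf_one] at oy; omega
  have k7 := key 7 y y7 fun w w0 _ e => w0 ((g.toQF.fpf d3 (fun u => (it y 7 u).trans (by rw [y7, g.one]))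
    (fun u => by rw [← g.mul, ← g.mul, g.Md y yM]) (g.qT d) (g.qT y) (g.hf u) nu w).2 e)
  obtain ⟨x, ox⟩ := exists_prime_orderOf_dvd_card' (G := Γ) 11 (by rw [g.cΓ]; norm_num)
  have x11 : x ^ 11 = 1 := ox ▸ pow_orderOf_eq_one x
  have k11 := key 11 x x11 fun w w0 qw e => by
    let F : AddSubgroup V := (T x).eqLocus (AddMonoidHom.id V)
    have a1 := H21.WC2.md 11 (T x) (fun u => by rw [it, x11, g.one]) Set.univ fun _ _ => trivial
    rw [show {u | u ∈ Set.univ ∧ T x u = u} = (F : Set V) from Set.ext fun u => and_iff_right trivial,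
      Nat.card_univ, g.card] at a1
    have a2 : Nat.card F ∣ 2 ^ 12 := by
      have := F.card_addSubgroup_dvd_card
      rwa [g.card] at this
    obtain ⟨j, j12, ej⟩ := (Nat.dvd_prime_pow Nat.prime_two).1 a2
    have a1' : 4096 ≡ 2 ^ j [MOD 11] := ej ▸ a1
    have : j = 2 ∨ j = 12 := by interval_cases j <;> simp [Nat.ModEq] at a1' ⊢
    rcases this with rfl | rfl
    · have a3 := H21.WC2.md 11 (T x) (fun u => by rw [it, x11, g.one]) {u | u ≠ 0 ∧ q u = 0} fun u i =>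
        ⟨fun e' => i.1 (T0 x u e'), (g.qT x u).trans i.2⟩
      have a4 : {u | u ∈ {u | u ≠ 0 ∧ q u = 0} ∧ T x u = u}.ncard ≤ (F : Set V).ncard := Set.ncard_le_ncard fun u i => i.2
      have a5 : 0 < {u | u ∈ {u | u ≠ 0 ∧ q u = 0} ∧ T x u = u}.ncard := (Set.ncard_pos).2 ⟨w, ⟨w0, qw⟩, e⟩
      rw [Nat.card_coe_set_eq, Nat.card_coe_set_eq, n0, Nat.ModEq] at a3
      rw [show (F : Set V).ncard = 2 ^ 2 from ej] at a4
      omega
    · have : F = ⊤ := AddSubgroup.eq_top_of_card_eq F (by rw [ej, g.card]; norm_num)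
      rw [g.fai x fun u => this.ge (AddSubgroup.mem_top u), orderOf_one] at ox; omega
  have k8 : 8 ∣ (MulAction.orbit Γ v).ncard := by
    by_contra n
    rw [← MulAction.index_stabilizer] at n
    have a1 := (MulAction.stabilizer Γ v).card_mul_index
    obtain ⟨P, sP, -⟩ := sylow_superset Nat.prime_two (IsPGroup.of_bot (p := 2)) (bot_le : ⊥ ≤ MulAction.stabilizer Γ v)
    have a2 := card_mul_relIndex sP.le
    have a3 := sP.not_dvd' Nat.prime_two
    obtain ⟨j, ej⟩ := (sP.pg Nat.prime_two).exists_card_eq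
    have j6 : 6 ≤ j := by
      by_contra! h
      have h1 : 2 ^ 8 ∣ 2 ^ j * (P.relIndex (MulAction.stabilizer Γ v) * (MulAction.stabilizer Γ v).index) := by
        rw [← mul_assoc, ← ej, a2, a1, g.cΓ]; norm_num
      have h2 : 2 ^ 5 * 2 ^ 3 ∣ 2 ^ 5 * (P.relIndex (MulAction.stabilizer Γ v) * (MulAction.stabilizer Γ v).index) :=
        h1.trans (mul_dvd_mul_right (pow_dvd_pow 2 (by omega)) _)
      exact n (Nat.Coprime.dvd_of_dvd_mul_left (((Nat.Prime.coprime_iff_not_dvd Nat.prime_two).2 a3).pow_left 3)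
        (Nat.dvd_of_mul_dvd_mul_left (by norm_num) h2))
    obtain ⟨S, YS, -⟩ := syl g.cΓ g.Mi KM iK hx.YK hx.cY
    have cS : Nat.card (S : Subgroup Γ) = 256 := by rw [S.card_eq_multiplicity, g.cΓ]; decide +kernel
    obtain ⟨k, -, lk⟩ := sylow_Jsub Nat.prime_two (isSylowIn_top Nat.prime_two S) (sP.pg Nat.prime_two) le_top
    have b1 := card_mul_relIndex YS
    rw [hx.cY, cS] at b1
    have b2 := relIndex_le_of_le_right (H := Y) lk (by omega)
    have b3 := card_inf_mul_relIndex Y (cj k P)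
    rw [card_cj, ej] at b3
    have b4 : 2 ^ 6 ≤ 2 ^ j := Nat.pow_le_pow_right (by norm_num) j6
    have b5 : 2 < ((Y ⊓ cj k P : Subgroup Γ) : Set Γ).ncard := by
      show 2 < Nat.card ↥(Y ⊓ cj k P)
      by_contra! h
      have := Nat.mul_le_mul h b2
      omega
    have fx : ∀ y ∈ Y ⊓ cj k P, T y (T k v) = T k v := fun y i => by
      obtain ⟨s, j, rfl⟩ := mem_cj'.1 i.2
      rw [← g.mul, inv_mul_cancel_right, g.mul, show T s v = v from sP.le j]
    have tw : ∀ y ∈ Y ⊓ cj k P, ∀ y' ∈ Y ⊓ cj k P, y ≠ 1 → y' ≠ 1 → y ≠ y' → False := fun y i y' j n1 n2 n3 =>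
      nv k (pi.two y i.1 y' j.1 n1 n2 n3 _ (fx y i) (fx y' j))
    obtain ⟨r, i, s, j, t, l, n1, n2, n3⟩ := (Set.two_lt_ncard (Set.toFinite _)).1 b5
    by_cases e : r = 1
    · subst e; exact tw s j t l n1.symm n2.symm n3
    by_cases e' : s = 1
    · subst e'; exact tw r i t l e n3.symm n2
    · exact tw r i s j e e' n1
  have qa := pj.qB a aB
  have qb := pj.qB b bB
  have sub : ∀ w, w ≠ 0 → q w = 0 → MulAction.orbit Γ w ⊆ {u | u ≠ 0 ∧ q u = 0} := fun w w0 qw => by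
    rintro _ ⟨y, rfl⟩
    exact ⟨fun e' => w0 (T0 y w e'), (g.qT y w).trans qw⟩
  have dj : ∀ r s : V, (∀ y, T y r ≠ s) → Disjoint (MulAction.orbit Γ r) (MulAction.orbit Γ s) := fun r s h =>
    Set.disjoint_left.2 (by
      rintro _ ⟨y, rfl⟩ ⟨y', e⟩
      exact h (y'⁻¹ * y) (by rw [← sm, mul_smul, inv_smul_eq_iff]; exact e.symm))
  have c1 := Set.ncard_le_ncard (Set.union_subset (sub v v0 qv) (Set.union_subset (sub a a0 qa) (sub b b0 qb)))
  rw [Set.ncard_union_eq (Set.disjoint_union_right.2 ⟨dj v a fun y e => nv y (e ▸ aB), dj v b fun y e => nv y (e ▸ bB)⟩),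
    Set.ncard_union_eq (dj a b ab), n0] at c1
  have ps : ∀ w : V, 0 < (MulAction.orbit Γ w).ncard := fun w => (Set.ncard_pos).2 ⟨w, MulAction.mem_orbit_self w⟩
  have := k3 v v0 qv; have := k7 v v0 qv; have := k11 v v0 qv
  have := k3 a a0 qa; have := k7 a a0 qa; have := k11 a a0 qa
  have := k3 b b0 qb; have := k7 b b0 qb; have := k11 b b0 qb
  have := ps v; have := ps a; have := ps b
  omega

end H03.YM
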